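/-
A characteristic subgroup of a 2-group that is normal in the `S₄`-free solvable groups containing it
as a Sylow subgroup: basic facts about an involution inverting an element of odd order on a module.
-/
import Cfsg.Agent.PLocal.ElemAb
import Cfsg.Agent.FusionZJ.Transvection

set_option linter.unusedSectionVars false
set_option linter.style.haveILetI false

namespace Cfsg.Agent.PLocal.S4FreeChar

open Subgroup Cfsg
open scoped commutatorElement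

variable {Γ : Type*} [Group Γ]

theorem sq_of_EA {V : Subgroup Γ} (hV : IsElementaryAbelian 2 V) {v : Γ} (hv : v ∈ V) : v * v = 1 := by
  rw [← pow_two]; exact hV.2 v hv

theorem inv_of_EA {V : Subgroup Γ} (hV : IsElementaryAbelian 2 V) {v : Γ} (hv : v ∈ V) : v⁻¹ = v :=
  inv_eq_of_mul_eq_one_right (sq_of_EA hV hv)

theorem conj_mem_of_norm {V : Subgroup Γ} {g v : Γ} (hg : g ∈ normalizer (V : Set Γ)) (hv : v ∈ V) :
    g * v * g⁻¹ ∈ V := (mem_normalizer_iff.mp hg v).mp hv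

theorem conj_eq_of_cent {V : Subgroup Γ} {c v : Γ} (hc : c ∈ centralizer (V : Set Γ)) (hv : v ∈ V) :
    c * v * c⁻¹ = v := mul_inv_eq_iff_eq_mul.mpr (mem_centralizer_iff.mp hc v hv).symm

theorem le_of_lt_two_mul {i j : ℕ} (h : 2 ^ i < 2 * 2 ^ j) : 2 ^ i ≤ 2 ^ j := by
  rw [← pow_succ'] at h
  exact Nat.pow_le_pow_right (by norm_num)
    (Nat.lt_succ_iff.mp ((Nat.pow_lt_pow_iff_right (by norm_num)).mp h))

theorem odd_prime_pow {p : ℕ} (hp : p.Prime) (h2 : p ≠ 2) (n : ℕ) : Odd (p ^ n) :=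
  (hp.odd_of_ne_two h2).pow

/-- An element of odd order fixing `v` up to a fixed involution fixes it. -/
theorem eq_one_of_translate {g v w : Γ} {m : ℕ} (hm : Odd m) (hgm : g ^ m * v * (g ^ m)⁻¹ = v)
    (hv : g * v * g⁻¹ = w * v) (hw : g * w * g⁻¹ = w) (hw2 : w * w = 1) : w = 1 := by
  have key : ∀ k : ℕ, g ^ k * v * (g ^ k)⁻¹ = w ^ k * v := by
    intro k
    induction k with
    | zero => simp
    | succ k ih =>
      have hwk : g * w ^ k * g⁻¹ = w ^ k := by rw [← conj_pow, hw]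
      rw [show g ^ (k + 1) * v * (g ^ (k + 1))⁻¹ = g * (g ^ k * v * (g ^ k)⁻¹) * g⁻¹ by group, ih,
        show g * (w ^ k * v) * g⁻¹ = g * w ^ k * g⁻¹ * (g * v * g⁻¹) by group, hwk, hv, ← mul_assoc,
        ← pow_succ]
  have h := key m
  rw [hgm] at h
  have h1 : w ^ m = 1 := mul_eq_right.mp h.symm
  obtain ⟨k, rfl⟩ := hm
  rwa [pow_succ, pow_mul, pow_two, hw2, one_pow, one_mul] at h1

/-- An element of odd order fixes what its square fixes. -/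
theorem fix_of_sq_fix {g v : Γ} {m : ℕ} (hm : Odd m) (hgm : g ^ m * v * (g ^ m)⁻¹ = v)
    (h2 : g ^ 2 * v * (g ^ 2)⁻¹ = v) : g * v * g⁻¹ = v := by
  obtain ⟨k, rfl⟩ := hm
  have c2 : Commute (g ^ 2) v := mul_inv_eq_iff_eq_mul.mp h2
  have cm : Commute (g ^ (2 * k + 1)) v := mul_inv_eq_iff_eq_mul.mp hgm
  have e : g = (g ^ 2) ^ (k + 1) * (g ^ (2 * k + 1))⁻¹ := by
    rw [eq_mul_inv_iff_mul_eq, ← pow_mul, ← pow_succ']
    congr 1
  have : Commute g v := by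
    rw [e]; exact ((c2.pow_left _).mul_left cm.inv_left)
  exact mul_inv_eq_iff_eq_mul.mpr this

/-- `a` is an involution inverting the element `x` of odd prime power order on `V`. -/
structure Dih (V : Subgroup Γ) (a x : Γ) : Prop where
  ea : IsElementaryAbelian 2 V
  an : a ∈ normalizer (V : Set Γ)
  xn : x ∈ normalizer (V : Set Γ)
  a2 : a * a ∈ centralizer (V : Set Γ)
  inv : a * x * a⁻¹ * x ∈ centralizer (V : Set Γ)
  pow : ∃ p n : ℕ, p.Prime ∧ p ≠ 2 ∧ x ^ p ^ n = 1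

namespace Dih

variable {V : Subgroup Γ} {a x : Γ} (h : Dih V a x)
include h

theorem x_odd : ∃ m, Odd m ∧ x ^ m = 1 := by
  obtain ⟨p, n, hp, hp2, hx⟩ := h.pow
  exact ⟨_, odd_prime_pow hp hp2 n, hx⟩

theorem a_sq {v : Γ} (hv : v ∈ V) : a * (a * v * a⁻¹) * a⁻¹ = v := by
  rw [show a * (a * v * a⁻¹) * a⁻¹ = a * a * v * (a * a)⁻¹ by group]
  exact conj_eq_of_cent h.a2 hv

/-- `a x a⁻¹` acts as `x⁻¹`. -/
theorem a_x {v : Γ} (hv : v ∈ V) :
    a * (x * v * x⁻¹) * a⁻¹ = x⁻¹ * (a * v * a⁻¹) * x := by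
  have hw : x⁻¹ * (a * v * a⁻¹) * x ∈ V := by
    simpa only [inv_inv] using conj_mem_of_norm (inv_mem h.xn) (conj_mem_of_norm h.an hv)
  conv_rhs => rw [← conj_eq_of_cent h.inv hw]
  group

/-- Powers of `x` are inverted as well. -/
theorem a_pow (k : ℕ) {v : Γ} (hv : v ∈ V) :
    a * (x ^ k * v * (x ^ k)⁻¹) * a⁻¹ = (x ^ k)⁻¹ * (a * v * a⁻¹) * x ^ k := by
  induction k generalizing v with
  | zero => simp
  | succ k ih =>
    have h1 := conj_mem_of_norm (pow_mem h.xn k) hv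
    rw [show x ^ (k + 1) * v * (x ^ (k + 1))⁻¹ = x * (x ^ k * v * (x ^ k)⁻¹) * x⁻¹ by group, h.a_x h1, ih hv]
    group

theorem pow_dih (k : ℕ) (hk : a * x ^ k * a⁻¹ * x ^ k ∈ centralizer (V : Set Γ)) : Dih V a (x ^ k) :=
  ⟨h.ea, h.an, pow_mem h.xn k, h.a2, hk, by
    obtain ⟨p, n, hp, hp2, hx⟩ := h.pow
    exact ⟨p, n, hp, hp2, by rw [← pow_mul, mul_comm, pow_mul, hx, one_pow]⟩⟩

theorem inv_pow (k : ℕ) : a * x ^ k * a⁻¹ * x ^ k ∈ centralizer (V : Set Γ) := by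
  rw [mem_centralizer_iff]
  intro v hv
  refine (mul_inv_eq_iff_eq_mul.mp ?_).symm
  have h1 := conj_mem_of_norm (pow_mem h.xn k) hv
  have h2 : a⁻¹ * (x ^ k * v * (x ^ k)⁻¹) * a ∈ V := by
    simpa only [inv_inv] using conj_mem_of_norm (inv_mem h.an) h1
  have e := h.a_pow k h2
  rw [show a * (a⁻¹ * (x ^ k * v * (x ^ k)⁻¹) * a) * a⁻¹ = x ^ k * v * (x ^ k)⁻¹ by group,
    show (x ^ k)⁻¹ * (x ^ k * v * (x ^ k)⁻¹) * x ^ k = v by group] at e
  refine Eq.trans ?_ e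
  group

/-- What `a` and `x a x⁻¹` fix, `x` fixes. -/
theorem fix_of_fix_pair {v : Γ} (hv : v ∈ V) (h1 : a * v * a⁻¹ = v)
    (h2 : a * (x⁻¹ * v * x) * a⁻¹ = x⁻¹ * v * x) : x * v * x⁻¹ = v := by
  obtain ⟨m, hm, hxm⟩ := h.x_odd
  refine fix_of_sq_fix hm (by rw [hxm]; group) ?_
  have hw : x⁻¹ * v * x ∈ V := by simpa only [inv_inv] using conj_mem_of_norm (inv_mem h.xn) hv
  have e := h.a_x hw
  rw [show x * (x⁻¹ * v * x) * x⁻¹ = v by group, h1, h2] at e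
  conv_lhs => rw [e]
  group

/-- The four-group configuration: an element fixed by `a` and moved by an element of order three. -/
theorem involves_of_three (h3 : x ^ 3 ∈ centralizer (V : Set Γ)) {u : Γ} (hu : u ∈ V)
    (hau : a * u * a⁻¹ = u) (hxu : x * u * x⁻¹ ≠ u) [Finite Γ] : Involves (Equiv.Perm (Fin 4)) Γ := by
  have h3' : x * x * x ∈ centralizer (V : Set Γ) := by rwa [pow_succ, pow_two] at h3
  obtain ⟨s₁, es₁⟩ : ∃ s, x * u * x⁻¹ = s := ⟨_, rfl⟩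
  obtain ⟨s₂, es₂⟩ : ∃ s, x * s₁ * x⁻¹ = s := ⟨_, rfl⟩
  have hs₁ : s₁ ∈ V := es₁ ▸ conj_mem_of_norm h.xn hu
  have hs₂ : s₂ ∈ V := es₂ ▸ conj_mem_of_norm h.xn hs₁
  have hcyc : x * s₂ * x⁻¹ = u := by
    rw [← es₂, ← es₁, show x * (x * (x * u * x⁻¹) * x⁻¹) * x⁻¹ = x * x * x * u * (x * x * x)⁻¹ by group,
      conj_eq_of_cent h3' hu]
  have hxi : x⁻¹ * u * x = s₂ := by rw [← hcyc]; group
  have cm : ∀ {p q : Γ}, p ∈ V → q ∈ V → p * q = q * p := fun hp hq => comm_of_EA h.ea hp hq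
  have has₁ : a * s₁ * a⁻¹ = s₂ := by rw [← es₁, h.a_x hu, hau, hxi]
  have has₂ : a * s₂ * a⁻¹ = s₁ := by rw [← has₁, h.a_sq hs₁]
  obtain ⟨w, ew⟩ : ∃ w, u * s₁ * s₂ = w := ⟨_, rfl⟩
  have hw : w ∈ V := ew ▸ mul_mem (mul_mem hu hs₁) hs₂
  have hxw : x * w * x⁻¹ = w := by
    rw [← ew, show x * (u * s₁ * s₂) * x⁻¹ = x * u * x⁻¹ * (x * s₁ * x⁻¹) * (x * s₂ * x⁻¹) by group, hcyc,
      es₁, es₂, cm (mul_mem hs₁ hs₂) hu, ← mul_assoc]
  have haw : a * w * a⁻¹ = w := by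
    rw [← ew, show a * (u * s₁ * s₂) * a⁻¹ = a * u * a⁻¹ * (a * s₁ * a⁻¹) * (a * s₂ * a⁻¹) by group, hau, has₁, has₂,
      mul_assoc, cm hs₂ hs₁, ← mul_assoc]
  obtain ⟨r, er⟩ : ∃ r, u * w = r := ⟨_, rfl⟩
  obtain ⟨s, es⟩ : ∃ s, x * r * x⁻¹ = s := ⟨_, rfl⟩
  have hr : r ∈ V := er ▸ mul_mem hu hw
  have hs : s ∈ V := es ▸ conj_mem_of_norm h.xn hr
  have har : a * r * a⁻¹ = r := by
    rw [← er, show a * (u * w) * a⁻¹ = a * u * a⁻¹ * (a * w * a⁻¹) by group, hau, haw]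
  have hxr : s ≠ r := by
    intro e
    refine hxu ?_
    rw [← es, ← er, show x * (u * w) * x⁻¹ = x * u * x⁻¹ * (x * w * x⁻¹) by group, hxw] at e
    exact (mul_right_cancel e)
  have hr1 : r ≠ 1 := fun e => hxr (by rw [← es, e]; group)
  have hs1 : s ≠ 1 := fun e => hr1 (by
    rw [show r = x⁻¹ * (x * r * x⁻¹) * x by group, es, e]; group)
  have ht : x * s * x⁻¹ = r * s := by
    have e : s = s₁ * w := by
      rw [← es, ← er, show x * (u * w) * x⁻¹ = x * u * x⁻¹ * (x * w * x⁻¹) by group, hxw, es₁]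
    have e' : x * s * x⁻¹ = s₂ * w := by
      rw [e, show x * (s₁ * w) * x⁻¹ = x * s₁ * x⁻¹ * (x * w * x⁻¹) by group, hxw, es₂]
    rw [e', e]
    have hww := sq_of_EA h.ea hw
    have e1 : s₂ * w = u * s₁ := by
      rw [← ew, cm hs₂ (mul_mem (mul_mem hu hs₁) hs₂), mul_assoc,
        sq_of_EA h.ea hs₂, mul_one]
    rw [e1, ← er, mul_assoc u w, ← mul_assoc w, cm hw hs₁, mul_assoc s₁, hww, mul_one]
  have hxs : x⁻¹ * r * x = r * s := by
    rw [← ht, ← es,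
      show x * (x * r * x⁻¹) * x⁻¹ = x⁻¹ * (x * x * x * r * (x * x * x)⁻¹) * x by group, conj_eq_of_cent h3' hr]
  have has : a * s * a⁻¹ = r * s := by rw [← es, h.a_x hr, har, hxs, es]
  have hat : a * (r * s) * a⁻¹ = s := by
    rw [show a * (r * s) * a⁻¹ = a * r * a⁻¹ * (a * s * a⁻¹) by group, har, has, ← mul_assoc,
      sq_of_EA h.ea hr, one_mul]
  refine FusionZJ.involves_of_four_group (u := a) (w := x * a * x⁻¹) (cm hr hs) (sq_of_EA h.ea hr)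
    (sq_of_EA h.ea hs) hr1 hs1 har has ?_ ?_
  · rw [← es,
      show x * a * x⁻¹ * (x * r * x⁻¹) * (x * a * x⁻¹)⁻¹ = x * (a * r * a⁻¹) * x⁻¹ by group, har]
  · rw [show x * a * x⁻¹ * r * (x * a * x⁻¹)⁻¹ = x * (a * (x⁻¹ * r * x) * a⁻¹) * x⁻¹ by group, hxs, hat,
      ht, cm hr hs]

end Dih

end Cfsg.Agent.PLocal.S4FreeChar
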