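/-
Offenders and near offenders with regular vectors on the subgroups of a 2-group that lie in all
elementary abelian subgroups of largest order; the largest subgroup without them.
-/
import Cfsg.Agent.PLocal.S4FreeChar.Basic
import Cfsg.Agent.PLocal.ZJ

set_option linter.unusedSectionVars false
set_option linter.style.haveILetI false
set_option linter.unusedVariables false

namespace Cfsg.Agent.PLocal.S4FreeChar

open Subgroup Cfsg
open scoped commutatorElement

variable {Γ : Type*} [Group Γ] [Finite Γ]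

/-- The order of the group induced by `P` on `V`. -/
noncomputable def img (V P : Subgroup Γ) : ℕ := (centralizer (V : Set Γ)).relIndex P

/-- The fixed points of `P` in `V`. -/
def fix (V P : Subgroup Γ) : Subgroup Γ := V ⊓ centralizer (P : Set Γ)

/-- `P` induces an elementary abelian 2-group on `V`. -/
structure ActEA (V P : Subgroup Γ) : Prop where
  norm : P ≤ normalizer (V : Set Γ)
  comm : ∀ p ∈ P, ∀ q ∈ P, ∀ v ∈ V, p * (q * v * q⁻¹) * p⁻¹ = q * (p * v * p⁻¹) * q⁻¹
  sq : ∀ p ∈ P, ∀ v ∈ V, p * (p * v * p⁻¹) * p⁻¹ = v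

/-- `P` is an offender on `V`. -/
def IsOff (V P : Subgroup Γ) : Prop :=
  ActEA V P ∧ ¬ P ≤ centralizer (V : Set Γ) ∧ Nat.card V ≤ img V P * Nat.card (fix V P)

/-- `P` misses being an offender on `V` by a factor two and has regular vectors. -/
def IsNear (V P : Subgroup Γ) : Prop :=
  ActEA V P ∧ ¬ P ≤ centralizer (V : Set Γ) ∧ Nat.card V ≤ 2 * (img V P * Nat.card (fix V P)) ∧
    (∃ U : Subgroup Γ, U ≤ V ∧ Nat.card V = 2 * Nat.card U ∧ (∀ v ∈ V, ∀ p ∈ P, ⁅p, v⁆ ∈ U) ∧
      ∀ v ∈ V, v ∉ U → ∀ p ∈ P, ⁅p, v⁆ ∈ fix V P → p ∈ centralizer (V : Set Γ)) ∧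
    ∀ p ∈ P, p ∉ centralizer (V : Set Γ) →
      4 * Nat.card (fix V P) ≤ Nat.card (V ⊓ centralizer ({p} : Set Γ) : Subgroup Γ)

/-- An offender or a near offender. -/
def IsBad (V P : Subgroup Γ) : Prop := IsOff V P ∨ IsNear V P

theorem ActEA.mono {V P P' : Subgroup Γ} (h : ActEA V P) (hle : P' ≤ P) : ActEA V P' :=
  ⟨hle.trans h.norm, fun p hp q hq => h.comm p (hle hp) q (hle hq), fun p hp => h.sq p (hle hp)⟩

theorem ActEA.restrict {V D P : Subgroup Γ} (h : ActEA V P) (hD : D ≤ V)
    (hn : P ≤ normalizer (D : Set Γ)) : ActEA D P :=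
  ⟨hn, fun p hp q hq v hv => h.comm p hp q hq v (hD hv), fun p hp v hv => h.sq p hp v (hD hv)⟩

theorem actEA_of_EA {V P : Subgroup Γ} (hP : IsElementaryAbelian 2 P)
    (hn : P ≤ normalizer (V : Set Γ)) : ActEA V P :=
  ⟨hn, fun p hp q hq v _ => by
      rw [show p * (q * v * q⁻¹) * p⁻¹ = p * q * v * (p * q)⁻¹ by group, comm_of_EA hP hp hq]; group,
    fun p hp v _ => by
      rw [show p * (p * v * p⁻¹) * p⁻¹ = p * p * v * (p * p)⁻¹ by group, sq_of_EA hP hp, one_mul,
        inv_one, mul_one]⟩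

theorem fix_le (V P : Subgroup Γ) : fix V P ≤ V := inf_le_left

theorem mem_fix {V P : Subgroup Γ} {v : Γ} :
    v ∈ fix V P ↔ v ∈ V ∧ ∀ p ∈ P, p * v * p⁻¹ = v := by
  rw [fix, Subgroup.mem_inf, mem_centralizer_iff]
  exact and_congr Iff.rfl (forall₂_congr fun p _ => mul_inv_eq_iff_eq_mul.symm)

theorem fix_anti {V P P' : Subgroup Γ} (h : P' ≤ P) : fix V P ≤ fix V P' :=
  inf_le_inf_left _ (centralizer_le h)

theorem fix_mono {V D : Subgroup Γ} (P : Subgroup Γ) (h : D ≤ V) : fix D P ≤ fix V P :=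
  inf_le_inf_right _ h

theorem fix_eq_inf {V D P : Subgroup Γ} (h : D ≤ V) : fix D P = D ⊓ fix V P := by
  rw [fix, fix, ← inf_assoc, inf_eq_left.mpr h]

theorem le_normalizer_in {V A B : Subgroup Γ} (hV : IsElementaryAbelian 2 V) (hA : A ≤ V) (hB : B ≤ V) :
    A ≤ normalizer (B : Set Γ) :=
  (show A ≤ centralizer (B : Set Γ) from fun a ha => mem_centralizer_iff.mpr fun b hb =>
    comm_of_EA hV (hB hb) (hA ha)).trans (centralizer_le_normalizer _)

theorem card_ea {V : Subgroup Γ} (hV : IsElementaryAbelian 2 V) : ∃ i, Nat.card V = 2 ^ i :=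
  haveI : Fact (Nat.Prime 2) := ⟨Nat.prime_two⟩
  IsPGroup.iff_card.mp (isPGroup_of_EA hV)

theorem img_two_pow {V P : Subgroup Γ} (hP : IsPGroup 2 P) : ∃ i, img V P = 2 ^ i := by
  haveI : Fact (Nat.Prime 2) := ⟨Nat.prime_two⟩
  obtain ⟨k, hk⟩ := IsPGroup.iff_card.mp hP
  obtain ⟨i, -, hi⟩ := (Nat.dvd_prime_pow Nat.prime_two).mp (hk ▸ Subgroup.relIndex_dvd_card _ P)
  exact ⟨i, hi⟩

theorem img_pos (V P : Subgroup Γ) : 0 < img V P :=
  Nat.pos_of_ne_zero Subgroup.index_ne_zero_of_finite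

theorem img_eq_one {V P : Subgroup Γ} : img V P = 1 ↔ P ≤ centralizer (V : Set Γ) :=
  Subgroup.relIndex_eq_one

theorem le_normalizer_centralizer {V P : Subgroup Γ} (h : P ≤ normalizer (V : Set Γ)) :
    P ≤ normalizer (centralizer (V : Set Γ) : Set Γ) := by
  refine h.trans fun g hg => Coprime.mem_normalizer_of_conj_mem fun c hc => ?_
  rw [mem_centralizer_iff] at hc ⊢
  intro v hv
  have hw : g⁻¹ * v * g ∈ (V : Set Γ) := by
    simpa only [inv_inv, SetLike.mem_coe] using conj_mem_of_norm (inv_mem hg) hv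
  calc v * (g * c * g⁻¹) = g * (g⁻¹ * v * g * c) * g⁻¹ := by group
    _ = g * (c * (g⁻¹ * v * g)) * g⁻¹ := by rw [hc _ hw]
    _ = g * c * g⁻¹ * v := by group

theorem img_mul_card {V P : Subgroup Γ} (h : P ≤ normalizer (V : Set Γ)) :
    img V P * Nat.card (centralizer (V : Set Γ)) =
      Nat.card (P ⊔ centralizer (V : Set Γ) : Subgroup Γ) := by
  refine Nat.eq_of_mul_eq_mul_left (Nat.card_pos (α := (P ⊓ centralizer (V : Set Γ) : Subgroup Γ))) ?_
  rw [mul_comm _ (Nat.card (P ⊔ centralizer (V : Set Γ) : Subgroup Γ)),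
    card_sup_mul_card_inf (le_normalizer_centralizer h), img, ← Subgroup.inf_relIndex_right,
    inf_comm (centralizer (V : Set Γ)) P, ← mul_assoc, Core.card_mul_relIndex inf_le_left]

/-- The measure of a product with a normal kernel. -/
theorem img_mul_img {V D P : Subgroup Γ} (hD : D ≤ V) :
    img V (P ⊓ centralizer (D : Set Γ)) * img D P = img V P := by
  have hcc : centralizer (V : Set Γ) ≤ centralizer (D : Set Γ) := centralizer_le hD
  have h1 : (centralizer (V : Set Γ)).relIndex (P ⊓ centralizer (D : Set Γ)) =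
      (P ⊓ centralizer (V : Set Γ)).relIndex (P ⊓ centralizer (D : Set Γ)) := by
    rw [← Subgroup.inf_relIndex_right (H := centralizer (V : Set Γ)),
      ← Subgroup.inf_relIndex_right (H := P ⊓ centralizer (V : Set Γ))]
    congr 1
    refine le_antisymm (le_inf (le_inf (inf_le_right.trans inf_le_left) inf_le_left) inf_le_right)
      (inf_le_inf_right _ inf_le_right)
  have h2 : (centralizer (D : Set Γ)).relIndex P = (P ⊓ centralizer (D : Set Γ)).relIndex P := by
    rw [← Subgroup.inf_relIndex_right, inf_comm]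
  rw [img, img, img, h1, h2, Subgroup.relIndex_mul_relIndex _ _ _ (inf_le_inf_left _ hcc) inf_le_left,
    inf_comm, Subgroup.inf_relIndex_right]

theorem card_sup_fix {V D P : Subgroup Γ} (hV : IsElementaryAbelian 2 V) (hD : D ≤ V) :
    Nat.card (D ⊔ fix V P : Subgroup Γ) * Nat.card (fix D P) = Nat.card D * Nat.card (fix V P) := by
  rw [fix_eq_inf hD]
  exact card_sup_mul_card_inf (le_normalizer_in hV hD (fix_le V P))

/-- A minimal offender either centralizes a subgroup or is an offender on it. -/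
theorem transfer_off {V D P : Subgroup Γ} (hV : IsElementaryAbelian 2 V) (hD : D ≤ V)
    (hn : P ≤ normalizer (D : Set Γ)) (hoff : IsOff V P)
    (hmin : ∀ B : Subgroup Γ, B ≤ P → IsOff V B → img V P ≤ img V B) :
    P ≤ centralizer (D : Set Γ) ∨ IsOff D P := by
  obtain ⟨hact, -, hle⟩ := hoff
  refine or_iff_not_imp_left.mpr fun hPD => ⟨hact.restrict hD hn, hPD, ?_⟩
  set B := P ⊓ centralizer (D : Set Γ)
  have hm := img_mul_img (P := P) hD
  have hsub : D ⊔ fix V P ≤ fix V B := sup_le (le_inf hD (le_centralizer_iff.mp inf_le_right))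
    (fix_anti inf_le_left)
  have hs := card_sup_fix (P := P) hV hD
  have key : Nat.card (fix V B) ≤ img D P * Nat.card (fix V P) := by
    by_cases hB : B ≤ centralizer (V : Set Γ)
    · rw [← hm, img_eq_one.mpr hB, one_mul] at hle
      exact (Subgroup.card_le_of_le (fix_le V B)).trans hle
    · by_contra hlt
      push Not at hlt
      refine hPD ?_
      have hoffB : IsOff V B := ⟨hact.mono inf_le_left, hB, hle.trans (by
        rw [← hm, mul_assoc]; exact Nat.mul_le_mul_left _ hlt.le)⟩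
      have h1 := hmin B inf_le_left hoffB
      rw [← hm] at h1
      exact img_eq_one.mp (le_antisymm
        (Nat.le_of_mul_le_mul_left (by rwa [mul_one]) (img_pos V B)) (img_pos D P))
  refine Nat.le_of_mul_le_mul_right ?_ (Nat.card_pos (α := fix V P))
  rw [← hs, mul_right_comm]
  exact Nat.mul_le_mul_right _ ((Subgroup.card_le_of_le hsub).trans key)

/-- A near offender without offenders inside centralizes a subgroup, is an offender on it, or is near
on it; in the last case the subgroup covers modulo the fixed points. -/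
theorem transfer_near' {V D P : Subgroup Γ} (hV : IsElementaryAbelian 2 V) (hD : D ≤ V)
    (hP : IsPGroup 2 P) (hn : P ≤ normalizer (D : Set Γ)) (hnear : IsNear V P)
    (hno : ∀ B : Subgroup Γ, B ≤ P → ¬ IsOff V B) :
    P ≤ centralizer (D : Set Γ) ∨ IsOff D P ∨ IsNear D P ∧ D ⊔ fix V P = V := by
  obtain ⟨hact, hPV, hle, ⟨U, hU, hU2, hcommU, hreg⟩, hfour⟩ := hnear
  refine or_iff_not_imp_left.mpr fun hPD => ?_
  set B := P ⊓ centralizer (D : Set Γ)
  have hm := img_mul_img (P := P) hD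
  have hsub : D ⊔ fix V P ≤ fix V B := sup_le (le_inf hD (le_centralizer_iff.mp inf_le_right))
    (fix_anti inf_le_left)
  have hs := card_sup_fix (P := P) hV hD
  have hoffD : Nat.card (D ⊔ fix V P : Subgroup Γ) ≤ img D P * Nat.card (fix V P) → IsOff D P := fun h => by
    refine ⟨hact.restrict hD hn, hPD, Nat.le_of_mul_le_mul_right ?_ (Nat.card_pos (α := fix V P))⟩
    rw [← hs, mul_right_comm]
    exact Nat.mul_le_mul_right _ h
  by_cases hB : B ≤ centralizer (V : Set Γ)
  · have hmD : img D P = img V P := by rw [← hm, img_eq_one.mpr hB, one_mul]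
    by_cases htop : D ⊔ fix V P = V
    · right
      refine ⟨⟨hact.restrict hD hn, hPD, ?_, ?_, ?_⟩, htop⟩
      · rw [htop] at hs
        refine Nat.le_of_mul_le_mul_right ?_ (Nat.card_pos (α := fix V P))
        rw [← hs, hmD]
        calc Nat.card V * Nat.card (fix D P) ≤ 2 * (img V P * Nat.card (fix V P)) * Nat.card (fix D P) :=
              Nat.mul_le_mul_right _ hle
          _ = _ := by ring
      · have hCU : fix V P ≤ U := fun v hv => by
          by_contra hvU
          refine hPV fun p hp => hreg v hv.1 hvU p hp ?_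
          rw [show ⁅p, v⁆ = 1 from commutatorElement_eq_one_iff_mul_comm.mpr (mem_centralizer_iff.mp hv.2 p hp)]
          exact one_mem _
        have hDU : D ⊔ U = V := le_antisymm (sup_le hD hU) (htop.ge.trans (sup_le_sup_left hCU D))
        refine ⟨U ⊓ D, inf_le_right, ?_, fun v hv p hp => ⟨hcommU v (hD hv) p hp, ?_⟩, ?_⟩
        · have e := card_sup_mul_card_inf (le_normalizer_in hV hD hU)
          rw [hDU, inf_comm, hU2] at e
          refine Nat.eq_of_mul_eq_mul_right (Nat.card_pos (α := U)) ?_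
          rw [← e]; ring
        · rw [commutatorElement_def]
          exact D.mul_mem (conj_mem_of_norm (hn hp) hv) (D.inv_mem hv)
        · intro v hv hvU p hp hc
          exact centralizer_le hD (hreg v (hD hv) (fun h => hvU ⟨h, hv⟩) p hp (fix_mono P hD hc))
      · intro p hp hpD
        have h4 := hfour p hp fun h => hpD (centralizer_le hD h)
        set Fp := V ⊓ centralizer ({p} : Set Γ)
        have hFp : fix V P ≤ Fp := inf_le_inf_left _ (centralizer_le (by simpa using hp))
        have e : D ⊓ Fp = D ⊓ centralizer ({p} : Set Γ) := by rw [← inf_assoc, inf_eq_left.mpr hD]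
        have hmod : (D ⊓ Fp) ⊔ fix V P = Fp := by
          refine le_antisymm (sup_le inf_le_right hFp) fun v hv => ?_
          obtain ⟨d, hd, c, hc, rfl⟩ := Coprime.exists_mul_of_mem_sup
            (le_normalizer_in hV (fix_le V P) hD) (htop.ge hv.1)
          refine mul_mem_sup ⟨hd, ?_⟩ hc
          have := mul_mem hv (inv_mem (hFp hc))
          rwa [mul_inv_cancel_right] at this
        have e1 := card_sup_mul_card_inf (le_normalizer_in hV (inf_le_right.trans inf_le_left) (fix_le V P) :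
          D ⊓ Fp ≤ normalizer (fix V P : Set Γ))
        rw [hmod, inf_assoc, inf_eq_right.mpr hFp, ← fix_eq_inf hD, e] at e1
        refine Nat.le_of_mul_le_mul_right ?_ (Nat.card_pos (α := fix V P))
        rw [← e1]
        calc 4 * Nat.card (fix D P) * Nat.card (fix V P) = 4 * Nat.card (fix V P) * Nat.card (fix D P) := by ring
          _ ≤ _ := Nat.mul_le_mul_right _ h4
    · left
      refine hoffD ?_
      obtain ⟨i, hi⟩ := card_ea hV
      obtain ⟨j, hj⟩ := img_two_pow (V := V) hP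
      obtain ⟨k, hk⟩ := card_ea (isEA_mono hV (fix_le V P))
      obtain ⟨l, hl⟩ := card_ea (isEA_mono hV (sup_le hD (fix_le V P)))
      have hlt : Nat.card (D ⊔ fix V P : Subgroup Γ) < Nat.card V := by
        by_contra h
        push Not at h
        exact htop (Subgroup.eq_of_le_of_card_ge (sup_le hD (fix_le V P)) h)
      rw [hmD]
      rw [hj, hk, ← pow_add] at hle ⊢
      rw [hl] at hlt ⊢
      exact le_of_lt_two_mul (lt_of_lt_of_le hlt hle)
  · left
    refine hoffD ((Subgroup.card_le_of_le hsub).trans ?_)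
    have hlt : img V B * Nat.card (fix V B) < Nat.card V := by
      by_contra h
      push Not at h
      exact hno B inf_le_left ⟨hact.mono inf_le_left, hB, h⟩
    obtain ⟨j, hj⟩ := img_two_pow (V := D) hP
    obtain ⟨k, hk⟩ := card_ea (isEA_mono hV (fix_le V P))
    obtain ⟨l, hl⟩ := card_ea (isEA_mono hV (fix_le V B))
    rw [← hm, mul_assoc, ← mul_assoc 2, mul_comm 2, mul_assoc] at hle
    have h2 : Nat.card (fix V B) < 2 * (img D P * Nat.card (fix V P)) :=
      Nat.lt_of_mul_lt_mul_left (hlt.trans_le hle)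
    rw [hl, hj, hk, ← pow_add] at h2 ⊢
    exact le_of_lt_two_mul h2

/-- A near offender without offenders inside is near or centralizing on each subgroup. -/
theorem transfer_near {V D P : Subgroup Γ} (hV : IsElementaryAbelian 2 V) (hD : D ≤ V)
    (hP : IsPGroup 2 P) (hn : P ≤ normalizer (D : Set Γ)) (hnear : IsNear V P)
    (hno : ∀ B : Subgroup Γ, B ≤ P → ¬ IsOff V B) :
    P ≤ centralizer (D : Set Γ) ∨ IsBad D P :=
  (transfer_near' hV hD hP hn hnear hno).imp_right fun h => h.imp_right And.left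

theorem fix_congr {V P P' : Subgroup Γ} (hV : IsElementaryAbelian 2 V)
    (h : P' ≤ P ⊔ centralizer (V : Set Γ)) : fix V P ≤ fix V P' := fun v hv =>
  ⟨hv.1, le_centralizer_iff.mp (h.trans (sup_le (le_centralizer_iff.mp (show fix V P ≤ centralizer (P : Set Γ)
    from inf_le_right)) (centralizer_le (fix_le V P)))) hv⟩

theorem IsBad.congr {V P P' : Subgroup Γ} (hV : IsElementaryAbelian 2 V) (h : IsBad V P)
    (hn : P' ≤ normalizer (V : Set Γ))
    (he : P' ⊔ centralizer (V : Set Γ) = P ⊔ centralizer (V : Set Γ)) : IsBad V P' := by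
  have hfix : fix V P' = fix V P := le_antisymm
    (fix_congr hV (le_sup_left.trans he.ge)) (fix_congr hV (le_sup_left.trans he.le))
  have hPn : P ≤ normalizer (V : Set Γ) := h.elim (fun h => h.1.norm) fun h => h.1.norm
  have himg : img V P' = img V P := Nat.eq_of_mul_eq_mul_right (Nat.card_pos (α := centralizer (V : Set Γ)))
    (by rw [img_mul_card hn, img_mul_card hPn, he])
  have hstep : ∀ p ∈ P', ∃ q ∈ P, ∀ v ∈ V, p * v * p⁻¹ = q * v * q⁻¹ := by
    intro p hp
    obtain ⟨c, hc, q, hq, e⟩ := Coprime.exists_mul_of_mem_sup (le_normalizer_centralizer hPn)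
      (sup_comm P _ ▸ he.le (mem_sup_left hp))
    refine ⟨q, hq, fun v hv => ?_⟩
    rw [← e, show c * q * v * (c * q)⁻¹ = c * (q * v * q⁻¹) * c⁻¹ by group,
      conj_eq_of_cent hc (conj_mem_of_norm (hPn hq) hv)]
  have hact : ActEA V P → ActEA V P' := fun ha => by
    refine ⟨hn, fun p hp p' hp' v hv => ?_, fun p hp v hv => ?_⟩
    · obtain ⟨q, hq, e⟩ := hstep p hp
      obtain ⟨q', hq', e'⟩ := hstep p' hp'
      rw [e' v hv, e _ (conj_mem_of_norm (hPn hq') hv), e v hv, e' _ (conj_mem_of_norm (hPn hq) hv)]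
      exact ha.comm q hq q' hq' v hv
    · obtain ⟨q, hq, e⟩ := hstep p hp
      rw [e v hv, e _ (conj_mem_of_norm (hPn hq) hv)]
      exact ha.sq q hq v hv
  have hnc : ¬ P ≤ centralizer (V : Set Γ) → ¬ P' ≤ centralizer (V : Set Γ) := fun h1 h2 =>
    h1 (le_sup_left.trans (he.ge.trans (sup_le h2 le_rfl)))
  have hbr : ∀ p q v : Γ, p * v * p⁻¹ = q * v * q⁻¹ → ⁅p, v⁆ = ⁅q, v⁆ := fun p q v e => by
    rw [commutatorElement_def, commutatorElement_def, e]
  have hcent : ∀ p q : Γ, (∀ v ∈ V, p * v * p⁻¹ = q * v * q⁻¹) →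
      q ∈ centralizer (V : Set Γ) → p ∈ centralizer (V : Set Γ) := fun p q e hq =>
    mem_centralizer_iff.mpr fun v hv =>
      (mul_inv_eq_iff_eq_mul.mp ((e v hv).trans (conj_eq_of_cent hq hv))).symm
  rcases h with ⟨h1, h2, h3⟩ | ⟨h1, h2, h3, ⟨U, hU, hU2, hcU, hreg⟩, h5⟩
  · exact Or.inl ⟨hact h1, hnc h2, by rwa [himg, hfix]⟩
  · refine Or.inr ⟨hact h1, hnc h2, by rwa [himg, hfix], ⟨U, hU, hU2, fun v hv p hp => ?_,
      fun v hv hvU p hp hc => ?_⟩, fun p hp hpc => ?_⟩
    · obtain ⟨q, hq, e⟩ := hstep p hp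
      rw [hbr p q v (e v hv)]; exact hcU v hv q hq
    · obtain ⟨q, hq, e⟩ := hstep p hp
      refine hcent p q e (hreg v hv hvU q hq ?_)
      rwa [← hbr p q v (e v hv), ← hfix]
    · obtain ⟨q, hq, e⟩ := hstep p hp
      rw [hfix]
      refine (h5 q hq fun hqc => hpc (hcent p q e hqc)).trans (Subgroup.card_le_of_le fun v hv => ?_)
      refine ⟨hv.1, mem_centralizer_singleton_iff.mpr ?_⟩
      have := (e v hv.1).trans (mul_inv_eq_iff_eq_mul.mpr (mem_centralizer_singleton_iff.mp hv.2).symm)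
      exact (mul_inv_eq_iff_eq_mul.mp this).symm

/-- A subgroup of all elementary abelian subgroups of largest order of `S` without bad subgroups. -/
structure Good (S D : Subgroup Γ) : Prop where
  le : D ≤ S
  maxEA : ∀ A ∈ maxIn (IsElementaryAbelian 2) S, D ≤ A
  norm : S ≤ normalizer (D : Set Γ)
  notBad : ∀ P : Subgroup Γ, P ≤ S → ¬ IsBad D P

variable {S D : Subgroup Γ}

theorem Good.ea (h : Good S D) : IsElementaryAbelian 2 D := by
  obtain ⟨A, hA⟩ := maxIn_nonempty (P := IsElementaryAbelian 2) isEA_bot S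
  exact isEA_mono hA.2.1 (h.maxEA A hA)

theorem Good.notBad' (h : Good S D) {P : Subgroup Γ} (hPn : P ≤ normalizer (D : Set Γ))
    (hP : P ≤ S ⊔ centralizer (D : Set Γ)) : ¬ IsBad D P := by
  intro hb
  refine h.notBad (S ⊓ (P ⊔ centralizer (D : Set Γ))) inf_le_left
    (hb.congr h.ea (inf_le_left.trans h.norm) ?_)
  refine le_antisymm (sup_le inf_le_right le_sup_right) (sup_le (fun p hp => ?_) le_sup_right)
  obtain ⟨c, hc, s, hs, e⟩ := Coprime.exists_mul_of_mem_sup (le_normalizer_centralizer h.norm)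
    (sup_comm S _ ▸ hP hp)
  rw [← e]
  refine mul_mem (mem_sup_right hc) (mem_sup_left ⟨hs, ?_⟩)
  rw [show s = c⁻¹ * p by rw [← e]; group]
  exact mul_mem (mem_sup_right (inv_mem hc)) (mem_sup_left hp)

theorem Good.sup {D' : Subgroup Γ} (hS : IsPGroup 2 S) (h : Good S D) (h' : Good S D') :
    Good S (D ⊔ D') := by
  have hmax : ∀ A ∈ maxIn (IsElementaryAbelian 2) S, D ⊔ D' ≤ A := fun A hA =>
    sup_le (h.maxEA A hA) (h'.maxEA A hA)
  obtain ⟨A₀, hA₀⟩ := maxIn_nonempty (P := IsElementaryAbelian 2) isEA_bot S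
  have hV : IsElementaryAbelian 2 (D ⊔ D' : Subgroup Γ) := isEA_mono hA₀.2.1 (hmax A₀ hA₀)
  have hn : S ≤ normalizer ((D ⊔ D' : Subgroup Γ) : Set Γ) := fun s hs =>
    Coprime.mem_normalizer_of_conj_mem fun y hy => by
      have hle : D ⊔ D' ≤ (D ⊔ D').comap (MulAut.conj s).toMonoidHom :=
        sup_le (fun d hd => mem_sup_left (conj_mem_of_norm (h.norm hs) hd))
          (fun d hd => mem_sup_right (conj_mem_of_norm (h'.norm hs) hd))
      exact hle hy
  refine ⟨sup_le h.le h'.le, hmax, hn, fun P hP hb => ?_⟩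
  -- there are no offenders
  have hno : ∀ Q : Subgroup Γ, Q ≤ S → ¬ IsOff (D ⊔ D') Q := by
    intro Q hQ hQo
    obtain ⟨B, ⟨hBS, hBo⟩, hBmin⟩ := Set.Finite.exists_minimalFor (fun B : Subgroup Γ => img (D ⊔ D') B)
      {B : Subgroup Γ | B ≤ S ∧ IsOff (D ⊔ D') B} (Set.toFinite _) ⟨Q, hQ, hQo⟩
    have hmin : ∀ C : Subgroup Γ, C ≤ B → IsOff (D ⊔ D') C → img (D ⊔ D') B ≤ img (D ⊔ D') C :=
      fun C hC hCo => (le_total _ _).elim id (fun e => hBmin ⟨hC.trans hBS, hCo⟩ e)
    refine hBo.2.1 (le_centralizer_iff.mp (sup_le (le_centralizer_iff.mp ?_) (le_centralizer_iff.mp ?_)))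
    · exact (transfer_off hV le_sup_left (hBS.trans h.norm) hBo hmin).resolve_right fun e =>
        h.notBad B hBS (Or.inl e)
    · exact (transfer_off hV le_sup_right (hBS.trans h'.norm) hBo hmin).resolve_right fun e =>
        h'.notBad B hBS (Or.inl e)
  rcases hb with hb | hb
  · exact hno P hP hb
  · refine hb.2.1 (le_centralizer_iff.mp (sup_le (le_centralizer_iff.mp ?_) (le_centralizer_iff.mp ?_)))
    · exact (transfer_near hV le_sup_left (hS.to_le hP) (hP.trans h.norm) hb fun B hB =>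
        hno B (hB.trans hP)).resolve_right (h.notBad P hP)
    · exact (transfer_near hV le_sup_right (hS.to_le hP) (hP.trans h'.norm) hb fun B hB =>
        hno B (hB.trans hP)).resolve_right (h'.notBad P hP)

theorem good_bot (S : Subgroup Γ) : Good S ⊥ := by
  refine ⟨bot_le, fun _ _ => bot_le, fun s _ => ?_, fun P _ hb => ?_⟩
  · rw [Subgroup.normalizer_eq_top]; trivial
  · have hc : P ≤ centralizer ((⊥ : Subgroup Γ) : Set Γ) := fun p _ =>
      mem_centralizer_iff.mpr fun v hv => by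
        rw [Subgroup.mem_bot.mp hv]; group
    exact hb.elim (fun e => e.2.1 hc) fun e => e.2.1 hc

open Classical in
/-- The largest good subgroup. -/
noncomputable def goodMax (S : Subgroup Γ) : Subgroup Γ := sSup {D | Good S D}

theorem good_goodMax (hS : IsPGroup 2 S) : Good S (goodMax S) ∧ ∀ D, Good S D → D ≤ goodMax S := by
  obtain ⟨W, hW, hmax⟩ := Set.Finite.exists_maximalFor id {D : Subgroup Γ | Good S D} (Set.toFinite _)
    ⟨⊥, good_bot S⟩
  have hle : ∀ D, Good S D → D ≤ W := fun D hD =>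
    (le_sup_right : D ≤ W ⊔ D).trans (hmax (j := W ⊔ D) (hW.sup hS hD) le_sup_left)
  have e : goodMax S = W := le_antisymm (sSup_le hle) (le_sSup hW)
  rw [e]; exact ⟨hW, hle⟩

/-- Central involutions are good. -/
theorem good_zpowers {z : Γ} (hz : z ∈ S) (hzc : ∀ s ∈ S, s * z = z * s) (hz2 : z ^ 2 = 1) :
    Good S (zpowers z) := by
  have hc : S ≤ centralizer (zpowers z : Set Γ) := fun s hs => mem_centralizer_iff.mpr fun v hv => by
    obtain ⟨k, rfl⟩ := mem_zpowers_iff.mp hv
    exact ((show Commute s z from hzc s hs).zpow_right k).eq.symm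
  refine ⟨zpowers_le.mpr hz, fun A hA => ?_, hc.trans (centralizer_le_normalizer _), fun P hP hb => ?_⟩
  · have hAz : A ≤ centralizer (zpowers z : Set Γ) := hA.1.trans hc
    have h1 := isEA_sup hA.2.1 (isEA_zpowers hz2) hAz
    have h2 := hA.2.2 _ (sup_le hA.1 (zpowers_le.mpr hz)) h1
    exact (le_sup_right : zpowers z ≤ A ⊔ zpowers z).trans (Subgroup.eq_of_le_of_card_ge le_sup_left h2).ge
  · exact hb.elim (fun e => e.2.1 (hP.trans hc)) fun e => e.2.1 (hP.trans hc)

theorem goodMax_ne_bot (hS : IsPGroup 2 S) (h1 : S ≠ ⊥) : goodMax S ≠ ⊥ := by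
  haveI : Fact (Nat.Prime 2) := ⟨Nat.prime_two⟩
  haveI : Nontrivial S := (Subgroup.nontrivial_iff_ne_bot S).mpr h1
  haveI : Nontrivial (center S) := hS.center_nontrivial
  obtain ⟨z, hz⟩ := exists_prime_orderOf_dvd_card' (G := center S) 2 (by
    obtain ⟨k, hk⟩ := IsPGroup.iff_card.mp (hS.to_subgroup (center S))
    rw [hk]
    refine dvd_pow_self 2 fun e => ?_
    rw [e, pow_zero] at hk
    exact absurd hk (Finite.one_lt_card (α := center S)).ne')
  have hz' : orderOf ((z : S) : Γ) = 2 := by rw [Subgroup.orderOf_coe, Subgroup.orderOf_coe, hz]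
  have hg : Good S (zpowers ((z : S) : Γ)) := good_zpowers (z : S).2
    (fun s hs => congrArg Subtype.val (mem_center_iff.mp z.2 ⟨s, hs⟩)) (hz' ▸ pow_orderOf_eq_one _)
  intro e
  have h2 := (good_goodMax hS).2 _ hg
  rw [e, le_bot_iff, zpowers_eq_bot] at h2
  rw [h2, orderOf_one] at hz'
  exact absurd hz' (by norm_num)

end Cfsg.Agent.PLocal.S4FreeChar
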