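/-
An involution inverting an element of odd prime power order outside a given maximal overgroup.
-/
import Cfsg.Agent.PLocal.S4FreeChar.Basic
import Cfsg.Agent.Coprime.Generation
import Cfsg.Agent.Core.MinimalNormal
import Cfsg.Agent.Core.PiSeparable
import Cfsg.Agent.Core.Cores

set_option linter.unusedSectionVars false
set_option linter.style.haveILetI false
set_option linter.unusedVariables false
set_option linter.deprecated false

namespace Cfsg.Agent.PLocal.S4FreeChar

open Subgroup Cfsg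
open scoped commutatorElement

variable {G : Type*} [Group G] [Finite G]

theorem odd_of_pPrimeCore (G : Type*) [Group G] [Finite G] : Odd (Nat.card (pPrimeCore 2 G)) := by
  rw [← Nat.not_even_iff_odd, even_iff_two_dvd]
  haveI : Fact (Nat.Prime 2) := ⟨Nat.prime_two⟩
  exact Core.not_dvd_card_pPrimeCore 2 G

theorem coprime_two_group {A X : Subgroup G} (hA : IsPGroup 2 A) (hX : Odd (Nat.card X)) :
    (Nat.card A).Coprime (Nat.card X) := by
  haveI : Fact (Nat.Prime 2) := ⟨Nat.prime_two⟩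
  obtain ⟨k, hk⟩ := IsPGroup.iff_card.mp hA
  rw [hk]; exact (Nat.coprime_two_left.mpr hX).pow_left k

/-- If the centralizers of all hyperplanes are moved into `K`, so is everything. -/
theorem commutator_mem_of_hyperplanes {K : Subgroup G} :
    ∀ (n : ℕ) (A X : Subgroup G), Nat.card A = n → IsElementaryAbelian 2 A →
      A ≤ normalizer (X : Set G) → Odd (Nat.card X) → X ≤ normalizer (K : Set G) →
      (∀ B : Subgroup G, B ≤ A → Nat.card A = 2 * Nat.card B → ∀ a ∈ A, a ∉ B →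
        ∀ f ∈ X ⊓ centralizer (B : Set G), ⁅a, f⁆ ∈ K) →
      ∀ a ∈ A, ∀ f ∈ X, ⁅a, f⁆ ∈ K := by
  intro n
  induction n using Nat.strong_induction_on with
  | _ n ih =>
  intro A X hn hA hAX hX hXK hyp a ha f hf
  by_cases ha1 : a = 1
  · rw [ha1, commutatorElement_one_left]; exact one_mem _
  by_cases hcyc : IsCyclic A
  · have h2 : Nat.card A = 2 := by
      obtain ⟨g, hg⟩ := hcyc.exists_ofOrder_eq_natCard
      have hd : Nat.card A ∣ 2 := hg ▸ orderOf_dvd_of_pow_eq_one (Subtype.ext (hA.2 g g.2))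
      refine ((Nat.dvd_prime Nat.prime_two).mp hd).resolve_left fun h1 => ha1 ?_
      haveI := (Nat.card_eq_one_iff_unique.mp h1).1
      exact congrArg Subtype.val (Subsingleton.elim (⟨a, ha⟩ : A) 1)
    refine hyp ⊥ bot_le (by rw [h2, Subgroup.card_bot]) a ha (by simpa using ha1) f ⟨hf, ?_⟩
    simp [Subgroup.mem_centralizer_iff]
  haveI := hA.1
  have hgen := Coprime.eq_centralizerJoin hcyc hAX (coprime_two_group (isPGroup_of_EA hA) hX)
  let T : Subgroup G :=
    { carrier := {g | g ∈ X ∧ ∀ a ∈ A, ⁅a, g⁆ ∈ K}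
      one_mem' := ⟨one_mem _, fun a _ => by rw [commutatorElement_one_right]; exact one_mem _⟩
      mul_mem' := by
        rintro g h ⟨hg, hg'⟩ ⟨hh, hh'⟩
        refine ⟨mul_mem hg hh, fun a ha => ?_⟩
        rw [commutatorElement_mul_right_eq_mul_conj, mul_assoc, mul_assoc]
        exact mul_mem (hg' a ha) (by simpa [mul_assoc] using conj_mem_of_norm (hXK hg) (hh' a ha))
      inv_mem' := by
        rintro g ⟨hg, hg'⟩
        refine ⟨inv_mem hg, fun a ha => ?_⟩
        have h := conj_mem_of_norm (inv_mem (hXK hg)) (inv_mem (hg' a ha))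
        rwa [show g⁻¹ * ⁅a, g⁆⁻¹ * g⁻¹⁻¹ = ⁅a, g⁻¹⁆ by simp only [commutatorElement_def]; group] at h }
  suffices hT : X ≤ T by exact (hT hf).2 a ha
  rw [← hgen]
  refine iSup_le fun e => ?_
  rintro g ⟨hgX, hge⟩
  refine ⟨hgX, ?_⟩
  obtain ⟨e, he, he1⟩ := e
  obtain ⟨A', ⟨hA'A, heA'⟩, hmax⟩ := Set.Finite.exists_maximalFor id
    {B : Subgroup G | B ≤ A ∧ e ∉ B} (Set.toFinite _) ⟨⊥, bot_le, by simpa using he1⟩
  have hee : IsElementaryAbelian 2 (zpowers e) := isEA_zpowers (hA.2 e he)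
  have hnz : zpowers e ≤ normalizer (A' : Set G) := (show zpowers e ≤ centralizer (A' : Set G) from
    zpowers_le.mpr (mem_centralizer_iff.mpr fun b hb => comm_of_EA hA (hA'A hb) he)).trans (centralizer_le_normalizer _)
  have hnz' : ∀ u ∈ A, zpowers u ≤ normalizer (A' : Set G) := fun u hu =>
    (show zpowers u ≤ centralizer (A' : Set G) from
      zpowers_le.mpr (mem_centralizer_iff.mpr fun b hb => comm_of_EA hA (hA'A hb) hu)).trans (centralizer_le_normalizer _)
  have hz2 : ∀ {w z : G}, w ^ 2 = 1 → z ∈ zpowers w → z = 1 ∨ z = w := fun {w z} hw hz => by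
    obtain ⟨k, rfl⟩ := mem_zpowers_iff.mp hz
    rcases Int.even_or_odd k with ⟨j, rfl⟩ | ⟨j, rfl⟩
    · left; rw [← two_mul, zpow_mul, zpow_ofNat, hw, one_zpow]
    · right; rw [zpow_add, zpow_mul, zpow_ofNat, hw, one_zpow, one_mul, zpow_one]
  have hsplit : ∀ u ∈ A, u ∈ A' ∨ e * u ∈ A' := by
    intro u hu
    by_contra hcon
    push Not at hcon
    have hnotle : ¬ zpowers u ≤ A' := fun hc => hcon.1 (hc (mem_zpowers u))
    have hmem : e ∈ A' ⊔ zpowers u := by
      by_contra hne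
      exact hnotle ((le_sup_right : zpowers u ≤ A' ⊔ zpowers u).trans
        (hmax (j := A' ⊔ zpowers u) ⟨sup_le hA'A (zpowers_le.mpr hu), hne⟩ le_sup_left))
    obtain ⟨b, hb, z, hz, hbz⟩ := Coprime.exists_mul_of_mem_sup (hnz' u hu) hmem
    rcases hz2 (hA.2 u hu) hz with rfl | rfl
    · exact heA' (hbz ▸ by simpa using hb)
    · refine hcon.2 ?_
      rw [← hbz, mul_assoc, sq_of_EA hA hu, mul_one]; exact hb
  have hsup : A' ⊔ zpowers e = A := by
    refine le_antisymm (sup_le hA'A (zpowers_le.mpr he)) fun u hu => ?_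
    rcases hsplit u hu with h | h
    · exact mem_sup_left h
    · rw [show u = e⁻¹ * (e * u) by group]
      exact mul_mem (mem_sup_right (inv_mem (mem_zpowers e))) (mem_sup_left h)
  have hze : Nat.card (zpowers e) = 2 := by
    rw [Nat.card_zpowers, orderOf_eq_prime (hA.2 e he) he1]
  have hcard : ∀ B : Subgroup G, B ≤ A' → Nat.card (B ⊔ zpowers e : Subgroup G) = 2 * Nat.card B := by
    intro B hB
    have hn : zpowers e ≤ normalizer (B : Set G) := (show zpowers e ≤ centralizer (B : Set G) from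
      zpowers_le.mpr (mem_centralizer_iff.mpr fun b hb => comm_of_EA hA (hA'A (hB hb)) he)).trans
      (centralizer_le_normalizer _)
    rw [Coprime.card_sup hn ?_, hze, mul_comm]
    rw [eq_bot_iff]
    rintro z ⟨hzB, hz⟩
    rcases hz2 (hA.2 e he) hz with rfl | rfl
    · exact one_mem _
    · exact absurd (hB hzB) heA'
  have hlt : Nat.card A' < n := by
    have h := hcard A' le_rfl
    rw [hsup, hn] at h
    have := Nat.card_pos (α := A')
    omega
  set Xe := X ⊓ centralizer ({e} : Set G)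
  have hA'Xe : A' ≤ normalizer (Xe : Set G) := fun u hu => Coprime.mem_normalizer_of_conj_mem fun g hg => by
    refine ⟨conj_mem_of_norm (hAX (hA'A hu)) hg.1, mem_centralizer_singleton_iff.mpr ?_⟩
    have h1 : Commute g e := mem_centralizer_singleton_iff.mp hg.2
    have h2 : Commute u e := comm_of_EA hA (hA'A hu) he
    exact ((h2.mul_left h1).mul_left h2.inv_left).eq
  have hIH := ih (Nat.card A') hlt A' Xe rfl (isEA_mono hA hA'A) hA'Xe
    (hX.of_dvd_nat (Subgroup.card_dvd_of_le inf_le_left)) (inf_le_left.trans hXK)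
    (fun B hB hB2 u hu huB f hf => hyp (B ⊔ zpowers e) (sup_le (hB.trans hA'A) (zpowers_le.mpr he))
      (by rw [hcard B hB, ← hB2, ← hcard A' le_rfl, hsup]) u (hA'A hu)
      (fun hmem => by
        obtain ⟨b, hb, z, hz, hbz⟩ := Coprime.exists_mul_of_mem_sup
          ((zpowers_le.mpr (mem_centralizer_iff.mpr fun b hb => comm_of_EA hA (hA'A (hB hb)) he) :
            zpowers e ≤ centralizer (B : Set G)).trans (centralizer_le_normalizer _)) hmem
        rcases hz2 (hA.2 e he) hz with rfl | rfl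
        · exact huB (hbz ▸ by simpa using hb)
        · refine heA' ?_
          rw [show z = b⁻¹ * u by rw [← hbz]; group]
          exact mul_mem (inv_mem (hB hb)) hu)
      f ⟨hf.1.1, le_centralizer_iff.mp (sup_le (le_centralizer_iff.mp (inf_le_right :
          Xe ⊓ centralizer (B : Set G) ≤ centralizer (B : Set G)))
        (zpowers_le.mpr (mem_centralizer_iff.mpr fun w hw => mem_centralizer_singleton_iff.mp hw.1.2))) hf⟩)
  have hgXe : g ∈ Xe := ⟨hgX, hge⟩
  have hc : ⁅e, g⁆ = 1 :=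
    commutatorElement_eq_one_iff_mul_comm.mpr (mem_centralizer_singleton_iff.mp hge).symm
  intro u hu
  rw [← hsup] at hu
  obtain ⟨b, hb, z, hz, rfl⟩ := Coprime.exists_mul_of_mem_sup hnz hu
  rcases hz2 (hA.2 e he) hz with rfl | rfl
  · rw [mul_one]; exact hIH b hb g hgXe
  · rw [commutatorElement_mul_left_eq_conj_mul, hc, mul_one, mul_inv_cancel, one_mul]
    exact hIH b hb g hgXe

/-- A subgroup containing the prime power parts of `g` contains `g`. -/
theorem exists_prime_pow_power {K : Subgroup G} :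
    ∀ (n : ℕ) (g : G), orderOf g = n → g ∉ K → ∃ p k j : ℕ, p.Prime ∧ p ∣ n ∧ (g ^ j) ^ p ^ k = 1 ∧ g ^ j ∉ K := by
  intro n
  induction n using Nat.strong_induction_on with
  | _ n ih =>
  intro g hn hg
  have hn1 : n ≠ 1 := fun h => hg (by rw [orderOf_eq_one_iff.mp (hn.trans h)]; exact one_mem _)
  have hn0 : n ≠ 0 := hn ▸ (orderOf_pos g).ne'
  obtain ⟨p, hp, hpn⟩ := Nat.exists_prime_and_dvd hn1
  obtain ⟨k, m, hm, hnm⟩ := Nat.exists_eq_pow_mul_and_not_dvd hn0 p hp.ne_one
  by_cases h : g ^ m ∈ K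
  · have hk : k ≠ 0 := by rintro rfl; rw [pow_zero, one_mul] at hnm; exact hm (hnm ▸ hpn)
    have h' : g ^ p ^ k ∉ K := by
      intro h2
      refine hg ?_
      have hc : Int.gcd ((m : ℤ)) ((p ^ k : ℕ) : ℤ) = 1 := by
        rw [Int.gcd_natCast_natCast]
        exact ((hp.coprime_iff_not_dvd.mpr hm).pow_left k).symm
      have e := Int.gcd_eq_gcd_ab (m : ℤ) ((p ^ k : ℕ) : ℤ)
      rw [hc, Nat.cast_one] at e
      rw [← zpow_one g, e, zpow_add, zpow_mul, zpow_mul, zpow_natCast, zpow_natCast]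
      exact mul_mem (zpow_mem h _) (zpow_mem h2 _)
    have hord : orderOf (g ^ p ^ k) = m := by
      rw [orderOf_pow' _ (pow_ne_zero _ hp.ne_zero), hn, hnm, Nat.gcd_eq_right (Dvd.intro m rfl),
        Nat.mul_div_cancel_left _ (pow_pos hp.pos k)]
    have hlt : m < n := by
      rw [hnm]
      exact lt_mul_of_one_lt_left (Nat.pos_of_ne_zero fun e => hm (e ▸ dvd_zero p)) (Nat.one_lt_pow hk hp.one_lt)
    obtain ⟨q, l, j, hq, hqm, h1, h2⟩ := ih m hlt _ hord h'
    exact ⟨q, l, p ^ k * j, hq, hqm.trans (hnm ▸ Dvd.intro_left _ rfl), by rwa [pow_mul], by rwa [pow_mul]⟩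
  · exact ⟨p, k, m, hp, hpn, by rw [← pow_mul, mul_comm, ← hnm, ← hn, pow_orderOf_eq_one], h⟩

/-- The configuration extracted from a commutator outside `K`. -/
theorem exists_inverted {A X K : Subgroup G} (hA : IsElementaryAbelian 2 A)
    (hAX : A ≤ normalizer (X : Set G)) (hX : Odd (Nat.card X)) (hXK : X ≤ normalizer (K : Set G))
    (hne : ∃ a ∈ A, ∃ f ∈ X, ⁅a, f⁆ ∉ K) :
    ∃ (B : Subgroup G) (a y : G) (p k : ℕ), B ≤ A ∧ Nat.card A = 2 * Nat.card B ∧ a ∈ A ∧ a ∉ B ∧
      p.Prime ∧ p ≠ 2 ∧ y ^ p ^ k = 1 ∧ y ∈ X ∧ y ∉ K ∧ a * y * a⁻¹ = y⁻¹ ∧ y ∈ centralizer (B : Set G) := by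
  obtain ⟨a₀, ha₀, f₀, hf₀, hbad⟩ := hne
  by_contra hcon
  refine hbad (commutator_mem_of_hyperplanes _ A X rfl hA hAX hX hXK ?_ a₀ ha₀ f₀ hf₀)
  intro B hB hB2 a ha haB f hf
  by_contra hfK
  obtain ⟨g, eg⟩ : ∃ g, ⁅a, f⁆ = g := ⟨_, rfl⟩
  rw [eg] at hfK
  have hgX : g ∈ X := by
    rw [← eg, commutatorElement_def]
    exact mul_mem (conj_mem_of_norm (hAX ha) hf.1) (inv_mem hf.1)
  have hga : a * g * a⁻¹ = g⁻¹ := by
    have ha2 := sq_of_EA hA ha
    rw [← eg, commutatorElement_def, inv_eq_of_mul_eq_one_right ha2]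
    simp only [mul_inv_rev, inv_inv, inv_eq_of_mul_eq_one_right ha2]
    calc a * (a * f * a * f⁻¹) * a = a * a * (f * a * f⁻¹ * a) := by group
      _ = f * a * f⁻¹ * a := by rw [ha2, one_mul]
      _ = _ := by group
  have hgB : g ∈ centralizer (B : Set G) := by
    rw [← eg, commutatorElement_def]
    have h1 : a ∈ centralizer (B : Set G) := mem_centralizer_iff.mpr fun b hb => comm_of_EA hA (hB hb) ha
    exact mul_mem (mul_mem (mul_mem h1 hf.2) (inv_mem h1)) (inv_mem hf.2)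
  obtain ⟨p, k, j, hp, hpn, hpow, hgj⟩ := exists_prime_pow_power _ g rfl hfK
  refine hcon ⟨B, a, g ^ j, p, k, hB, hB2, ha, haB, hp, ?_, hpow, pow_mem hgX j, hgj, ?_, pow_mem hgB j⟩
  · rintro rfl
    exact Nat.not_even_iff_odd.mpr (hX.of_dvd_nat (hpn.trans (Subgroup.orderOf_dvd_natCard X hgX))) even_two
  · rw [← conj_pow, hga, inv_pow]

/-- The hypotheses on an overgroup `M` of the Sylow subgroup containing all proper overgroups. -/
structure UniqueOver (S : Sylow 2 G) (M : Subgroup G) : Prop where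
  le : (S : Subgroup G) ≤ M
  ne : M ≠ ⊤
  above : ∀ K : Subgroup G, (S : Subgroup G) ≤ K → K ≠ ⊤ → K ≤ M

theorem UniqueOver.map {S : Sylow 2 G} {M : Subgroup G} (h : UniqueOver S M) {G' : Type*} [Group G'] [Finite G']
    {π : G →* G'} (hπ : Function.Surjective π) (hker : π.ker ≤ M) :
    UniqueOver (S.mapSurjective hπ) (M.map π) := by
  refine ⟨by rw [Sylow.coe_mapSurjective]; exact Subgroup.map_mono h.le, fun e => h.ne ?_, fun K hK hK' => ?_⟩
  · rw [← Subgroup.comap_map_eq_self hker, e, Subgroup.comap_top]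
  · rw [← Subgroup.map_comap_eq_self_of_surjective hπ K]
    refine Subgroup.map_mono (h.above _ ?_ fun e => hK' ?_)
    · rw [← Subgroup.map_le_iff_le_comap]; rwa [Sylow.coe_mapSurjective] at hK
    · rw [← Subgroup.map_comap_eq_self_of_surjective hπ K, e, Subgroup.map_top_of_surjective π hπ]

theorem pCore_le_of_uniqueOver {S : Sylow 2 G} {M : Subgroup G} (h : UniqueOver S M) : pCore 2 G ≤ M :=
  haveI : Fact (Nat.Prime 2) := ⟨Nat.prime_two⟩
  (Core.pCore_le_sylow S).trans h.le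

theorem centralizer_pPrimeCore_le_of_solvable [Group.IsSolvable G] (h : pCore 2 G = ⊥) :
    centralizer (pPrimeCore 2 G : Set G) ≤ pPrimeCore 2 G := by
  haveI : Fact (Nat.Prime 2) := ⟨Nat.prime_two⟩
  rw [Core.pPrimeCore_eq_piCore]
  refine Core.centralizer_piCore_le Core.isPiSeparable_of_isSolvable ?_
  rw [compl_compl, ← Core.pCore_eq_piCore]
  exact h

/-- In a group without normal 2-subgroups some member of an invariant family inverts something
outside `M`. -/
theorem exists_inverted_unique [Group.IsSolvable G] (hO : pCore 2 G = ⊥) {S : Sylow 2 G} {M : Subgroup G}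
    (h : UniqueOver S M) {𝔄 : Set (Subgroup G)}
    (hEA : ∀ A ∈ 𝔄, IsElementaryAbelian 2 A) (hle : ∀ A ∈ 𝔄, A ≤ (S : Subgroup G))
    (hinv : ∀ A ∈ 𝔄, ∀ s ∈ (S : Subgroup G), A.map (MulAut.conj s).toMonoidHom ∈ 𝔄)
    (hne : ∃ A ∈ 𝔄, A ≠ ⊥) :
    ∃ A ∈ 𝔄, ∃ (B : Subgroup G) (a y : G) (p k : ℕ), B ≤ A ∧ Nat.card A = 2 * Nat.card B ∧ a ∈ A ∧
      a ∉ B ∧ p.Prime ∧ p ≠ 2 ∧ y ^ p ^ k = 1 ∧ y ∉ M ∧ a * y * a⁻¹ = y⁻¹ ∧
      y ∈ centralizer (B : Set G) := by
  classical
  haveI : Fact (Nat.Prime 2) := ⟨Nat.prime_two⟩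
  set F := pPrimeCore 2 G with hF
  haveI : F.Normal := by rw [hF]; infer_instance
  set S' := (S : Subgroup G) with hS'
  have hFodd : Odd (Nat.card F) := odd_of_pPrimeCore G
  have hSF : S' ≤ normalizer (F : Set G) := by rw [Subgroup.normalizer_eq_top]; exact le_top
  have hcop := coprime_two_group S.isPGroup' hFodd
  haveI hSsol : Group.IsSolvable S' := inferInstance
  -- `F` is not inside `M`
  have hFM : ¬ F ≤ M := by
    intro hFM
    by_cases hFtop : F = ⊤
    · exact h.ne (eq_top_iff.mpr (hFtop ▸ hFM))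
    set π := QuotientGroup.mk' F
    have hπ := QuotientGroup.mk'_surjective F
    haveI : Nontrivial (G ⧸ F) := QuotientGroup.nontrivial_iff.mpr hFtop
    have hO2 : pCore 2 (G ⧸ F) ≠ ⊥ := by
      intro e
      have hc := centralizer_pPrimeCore_le_of_solvable (G := G ⧸ F) e
      have e2 : pPrimeCore 2 (G ⧸ F) = ⊥ := Core.pPrimeCore_quotient_pPrimeCore 2 G
      rw [e2] at hc
      have htop : (⊤ : Subgroup (G ⧸ F)) ≤ ⊥ := le_trans (fun g _ => mem_centralizer_iff.mpr fun v hv => by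
        rw [Subgroup.mem_bot.mp hv, one_mul, mul_one]) hc
      exact bot_ne_top (le_bot_iff.mp htop).symm
    set P := (pCore 2 (G ⧸ F)).comap π with hP
    haveI : P.Normal := Subgroup.Normal.comap inferInstance _
    set T := S' ⊓ P
    have hPT : P ≤ F ⊔ T := by
      intro g hg
      have h1 : π g ∈ ((S.mapSurjective hπ : Sylow 2 (G ⧸ F)) : Subgroup (G ⧸ F)) :=
        Core.pCore_le_sylow _ hg
      rw [Sylow.coe_mapSurjective] at h1
      obtain ⟨s, hs, e⟩ := h1
      have hf : g * s⁻¹ ∈ F := by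
        rw [← QuotientGroup.eq_one_iff]
        show π (g * s⁻¹) = 1
        rw [map_mul, map_inv, e, mul_inv_cancel]
      have hsP : s ∈ P := by
        show π s ∈ pCore 2 (G ⧸ F)
        rw [e]; exact hg
      rw [show g = g * s⁻¹ * s by group]
      exact mul_mem (mem_sup_left hf) (mem_sup_right ⟨hs, hsP⟩)
    have hTS : S' ≤ normalizer (T : Set G) := fun s hs => Coprime.mem_normalizer_of_conj_mem fun t ht =>
      ⟨S'.mul_mem (S'.mul_mem hs ht.1) (S'.inv_mem hs), Subgroup.Normal.conj_mem inferInstance t ht.2 s⟩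
    -- Frattini
    let T' : Sylow 2 P :=
      { toSubgroup := T.subgroupOf P
        isPGroup' := (S.isPGroup'.to_le inf_le_left).comap_subtype
        is_maximal' := by
          intro Q hQ hle'
          refine le_antisymm (fun q hq => ?_) hle'
          have hTn : T ≤ normalizer (F : Set G) := inf_le_left.trans hSF
          obtain ⟨f, hf, t, ht, e⟩ := Coprime.exists_mul_of_mem_sup hTn (hPT q.2)
          have hfP : f ∈ P := by
            show π f ∈ pCore 2 (G ⧸ F)
            rw [show π f = 1 from (QuotientGroup.eq_one_iff f).mpr hf]; exact one_mem _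
          have htQ : (⟨t, ht.2⟩ : P) ∈ Q := hle' (show t ∈ T from ht)
          have hfQ : (⟨f, hfP⟩ : P) ∈ Q := by
            rw [show (⟨f, hfP⟩ : P) = q * (⟨t, ht.2⟩ : P)⁻¹ from Subtype.ext (by
              show f = (q : G) * t⁻¹
              rw [← e]; group)]
            exact mul_mem hq (inv_mem htQ)
          have hf1 : f = 1 := by
            obtain ⟨i, hi⟩ := hQ ⟨⟨f, hfP⟩, hfQ⟩
            have hf2 : f ^ 2 ^ i = 1 := congrArg Subtype.val (congrArg Subtype.val hi)
            refine orderOf_eq_one_iff.mp (Nat.eq_one_of_dvd_coprimes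
              ((Nat.coprime_two_left.mpr hFodd).pow_left i) (orderOf_dvd_of_pow_eq_one hf2)
              (Subgroup.orderOf_dvd_natCard F hf))
          show (q : G) ∈ T
          rw [← e, hf1, one_mul]; exact ht }
    have hfr : normalizer (T : Set G) ⊔ P = ⊤ := by
      have h0 := Sylow.normalizer_sup_eq_top T'
      rwa [show (T' : Subgroup P).map P.subtype = T from Subgroup.map_subgroupOf_eq_of_le inf_le_right] at h0
    have hNtop : normalizer (T : Set G) ≠ ⊤ := by
      intro e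
      have hTn : T.Normal := Subgroup.normalizer_eq_top_iff.mp e
      have hT1 : T = ⊥ := le_bot_iff.mp (hO ▸ Core.le_pCore hTn (S.isPGroup'.to_le inf_le_left))
      refine hO2 (eq_bot_iff.mpr ?_)
      rw [← Subgroup.map_comap_eq_self_of_surjective hπ (pCore 2 (G ⧸ F)), ← hP]
      refine (Subgroup.map_mono hPT).trans ?_
      rw [hT1, sup_bot_eq, QuotientGroup.map_mk'_self]
    refine h.ne (eq_top_iff.mpr ?_)
    rw [← hfr]
    exact sup_le (h.above _ hTS hNtop) (hPT.trans (sup_le hFM (inf_le_left.trans h.le)))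
  -- a Sylow subgroup of `F` covers
  obtain ⟨q, hq, hqM⟩ : ∃ q, q.Prime ∧ ∀ P : Subgroup G, P ≤ F → ¬ q ∣ P.relIndex F → ¬ P ≤ M := by
    by_contra hcon
    push Not at hcon
    exact hFM (Coprime.le_of_forall_invariant_sylow fun p hp => by
      obtain ⟨P, h1, h2, h3⟩ := hcon p hp
      exact ⟨P, h1, h3, h2⟩)
  haveI := Fact.mk hq
  obtain ⟨P, hPF, hPq, hPi, hPS⟩ := Coprime.exists_invariant_sylow hSF hcop q
  have hsupP : ∀ X : Subgroup G, X ≤ F → S' ≤ normalizer (X : Set G) → ¬ X ≤ M → F ≤ X := by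
    intro X hXF hXS hXM f hf
    have htop : X ⊔ S' = ⊤ := by
      by_contra e
      exact hXM (le_sup_left.trans (h.above _ le_sup_right e))
    obtain ⟨y, hy, s, hs, e⟩ := Coprime.exists_mul_of_mem_sup hXS (htop ▸ Subgroup.mem_top f)
    have hsF : s ∈ F := by
      rw [show s = y⁻¹ * f by rw [← e]; group]; exact mul_mem (inv_mem (hXF hy)) hf
    have hs1 : s = 1 := by
      have hb := Subgroup.inf_eq_bot_of_coprime (H := S') (K := F) hcop
      have hmem : s ∈ S' ⊓ F := ⟨hs, hsF⟩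
      rwa [hb, Subgroup.mem_bot] at hmem
    rw [← e, hs1, mul_one]; exact hy
  have hFP : F = P := le_antisymm (hsupP P hPF hPS (hqM P hPF hPi)) hPF
  set K := M ⊓ F with hK
  have hFK : F ≤ normalizer (K : Set G) := by
    haveI : Group.IsNilpotent F := hFP ▸ IsPGroup.isNilpotent hPq
    have hKlt : K.subgroupOf F < ⊤ := by
      refine lt_top_iff_ne_top.mpr fun e => hFM ?_
      rw [Subgroup.subgroupOf_eq_top] at e
      exact e.trans inf_le_left
    have hgrow := Group.normalizerCondition_of_isNilpotent (K.subgroupOf F) hKlt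
    have hSK : S' ≤ normalizer ((F ⊓ normalizer (K : Set G) : Subgroup G) : Set G) := by
      have hsK : S' ≤ normalizer (K : Set G) := fun s hs => Coprime.mem_normalizer_of_conj_mem fun g hg =>
        ⟨M.mul_mem (M.mul_mem (h.le hs) hg.1) (M.inv_mem (h.le hs)), conj_mem_of_norm (hSF hs) hg.2⟩
      exact fun s hs => Coprime.mem_normalizer_of_conj_mem fun g hg =>
        ⟨conj_mem_of_norm (hSF hs) hg.1, (normalizer (K : Set G)).mul_mem ((normalizer (K : Set G)).mul_mem (hsK hs) hg.2) ((normalizer (K : Set G)).inv_mem (hsK hs))⟩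
    refine (hsupP _ inf_le_left hSK fun hle' => ?_).trans inf_le_right
    obtain ⟨g, hg1, hg2⟩ := SetLike.exists_of_lt hgrow
    refine hg2 ?_
    show (g : G) ∈ K
    refine ⟨hle' ⟨g.2, Coprime.mem_normalizer_of_conj_mem fun y hy => ?_⟩, g.2⟩
    exact (Subgroup.mem_normalizer_iff.mp hg1 ⟨y, hy.2⟩).mp (show y ∈ K from hy)
  obtain ⟨A, hA, hbad⟩ : ∃ A ∈ 𝔄, ∃ a ∈ A, ∃ f ∈ F, ⁅a, f⁆ ∉ K := by
    by_contra hcon
    push Not at hcon
    refine hFM ?_
    set J := sSup 𝔄 with hJ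
    have hJS : J ≤ S' := sSup_le hle
    have hJn : S' ≤ normalizer (J : Set G) := fun s hs => Coprime.mem_normalizer_of_conj_mem fun g hg => by
      have hle' : J ≤ J.comap (MulAut.conj s).toMonoidHom :=
        sSup_le fun A hA => Subgroup.map_le_iff_le_comap.mp (le_sSup (hinv A hA s hs))
      exact hle' hg
    have hJK : ∀ j ∈ J, j ∈ normalizer (K : Set G) := fun j hj => Coprime.mem_normalizer_of_conj_mem fun g hg =>
      ⟨M.mul_mem (M.mul_mem (h.le (hJS hj)) hg.1) (M.inv_mem (h.le (hJS hj))), conj_mem_of_norm (hSF (hJS hj)) hg.2⟩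
    let T : Subgroup G :=
      { carrier := {j | j ∈ J ∧ ∀ f ∈ F, ⁅j, f⁆ ∈ K}
        one_mem' := ⟨one_mem _, fun f _ => by rw [commutatorElement_one_left]; exact one_mem _⟩
        mul_mem' := by
          rintro i j ⟨hi, hi'⟩ ⟨hj, hj'⟩
          refine ⟨mul_mem hi hj, fun f hf => ?_⟩
          rw [commutatorElement_mul_left_eq_conj_mul]
          exact mul_mem (conj_mem_of_norm (hJK i hi) (hj' f hf)) (hi' f hf)
        inv_mem' := by
          rintro i ⟨hi, hi'⟩
          refine ⟨inv_mem hi, fun f hf => ?_⟩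
          have := conj_mem_of_norm (inv_mem (hJK i hi)) (inv_mem (hi' f hf))
          rwa [show i⁻¹ * ⁅i, f⁆⁻¹ * i⁻¹⁻¹ = ⁅i⁻¹, f⁆ by simp only [commutatorElement_def]; group] at this }
    have hJT : J ≤ T := sSup_le fun A hA a ha => ⟨le_sSup hA ha, hcon A hA a ha⟩
    have hcomm : ⁅F, J⁆ ≤ K := by
      rw [Subgroup.commutator_comm, Subgroup.commutator_le]
      exact fun j hj f hf => (hJT hj).2 f hf
    haveI : Group.IsSolvable J := solvable_of_solvable_injective (Subgroup.subtype_injective J)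
    rw [Coprime.eq_commutator_sup_centralizer (N := F) (A := J) (hJS.trans hSF)
      (coprime_two_group (S.isPGroup'.to_le hJS) hFodd)]
    refine sup_le (hcomm.trans inf_le_left) ?_
    by_contra hCM
    have hCS : S' ≤ normalizer ((F ⊓ centralizer (J : Set G) : Subgroup G) : Set G) := fun s hs =>
      Coprime.mem_normalizer_of_conj_mem fun g hg => by
        refine ⟨conj_mem_of_norm (hSF hs) hg.1, mem_centralizer_iff.mpr fun j hj => ?_⟩
        have hj' : s⁻¹ * j * s ∈ J := by simpa only [inv_inv] using conj_mem_of_norm (inv_mem (hJn hs)) hj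
        have hc := mem_centralizer_iff.mp hg.2 _ hj'
        calc j * (s * g * s⁻¹) = s * (s⁻¹ * j * s * g) * s⁻¹ := by group
          _ = s * (g * (s⁻¹ * j * s)) * s⁻¹ := by rw [hc]
          _ = s * g * s⁻¹ * j := by group
    have hJF : J ≤ F := fun j hj => centralizer_pPrimeCore_le_of_solvable hO (mem_centralizer_iff.mpr fun f hf =>
      ((mem_centralizer_iff.mp ((hsupP _ inf_le_left hCS hCM) hf).2) j hj).symm)
    obtain ⟨A, hA, hA1⟩ := hne
    refine hA1 (le_bot_iff.mp ?_)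
    rw [← Subgroup.inf_eq_bot_of_coprime (H := S') (K := F) hcop]
    exact le_inf (hle A hA) ((le_sSup hA).trans hJF)
  obtain ⟨B, a, y, p, k, hB, hB2, ha, haB, hp, hp2, hy, hyX, hyK, hay, hyB⟩ :=
    exists_inverted (hEA A hA) ((hle A hA).trans hSF) hFodd hFK hbad
  exact ⟨A, hA, B, a, y, p, k, hB, hB2, ha, haB, hp, hp2, hy, fun hyM => hyK ⟨hyM, hyX⟩, hay, hyB⟩

/-- Lifting the configuration through a normal 2-subgroup. -/
theorem lift_inverted {R : Subgroup G} [R.Normal] (hR : IsPGroup 2 R) {A : Subgroup G}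
    (hA : IsElementaryAbelian 2 A) {B' : Subgroup (G ⧸ R)} {a' y : G ⧸ R} {p k : ℕ}
    (hB' : B' ≤ A.map (QuotientGroup.mk' R))
    (hB2 : Nat.card (A.map (QuotientGroup.mk' R)) = 2 * Nat.card B') (ha' : a' ∈ A.map (QuotientGroup.mk' R))
    (haB : a' ∉ B') (hp2 : p ≠ 2) (hp : p.Prime) (hy : y ^ p ^ k = 1) (hay : a' * y * a'⁻¹ = y⁻¹)
    (hyB : y ∈ centralizer (B' : Set (G ⧸ R))) {M' : Subgroup (G ⧸ R)} (hyM : y ∉ M') :
    ∃ (B : Subgroup G) (a x : G) (n : ℕ), B ≤ A ∧ A ⊓ R ≤ B ∧ Nat.card A = 2 * Nat.card B ∧ a ∈ A ∧ a ∉ B ∧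
      x ^ p ^ n = 1 ∧ a * x * a⁻¹ * x = 1 ∧ QuotientGroup.mk' R x ∉ M' ∧
      x ∈ normalizer ((R ⊔ B : Subgroup G) : Set G) := by
  set π := QuotientGroup.mk' R
  obtain ⟨a, ha, rfl⟩ := ha'
  obtain ⟨g, rfl⟩ := QuotientGroup.mk'_surjective R y
  set B := A ⊓ B'.comap π with hB
  have hBmap : B.map π = B' := by
    refine le_antisymm (Subgroup.map_le_iff_le_comap.mpr inf_le_right) fun w hw => ?_
    obtain ⟨u, hu, rfl⟩ := hB' hw
    exact ⟨u, ⟨hu, hw⟩, rfl⟩
  have hcardB : Nat.card A = 2 * Nat.card B := by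
    have h1 := Subgroup.card_mul_index (π.comp A.subtype).ker
    have h2 := Subgroup.card_mul_index (π.comp B.subtype).ker
    rw [Subgroup.index_ker, MonoidHom.range_comp, Subgroup.range_subtype] at h1 h2
    rw [hB2] at h1
    rw [hBmap] at h2
    have hk : Nat.card (π.comp A.subtype).ker = Nat.card (π.comp B.subtype).ker := by
      refine Nat.card_congr
        { toFun := fun u => ⟨⟨u.1.1, u.1.2, by
            show π u.1.1 ∈ B'
            rw [show π u.1.1 = 1 from u.2]; exact one_mem _⟩, u.2⟩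
          invFun := fun u => ⟨⟨u.1.1, u.1.2.1⟩, u.2⟩
          left_inv := fun u => rfl
          right_inv := fun u => rfl }
    rw [← h1, ← h2, hk]; ring
  have ha2 : a * a = 1 := sq_of_EA hA ha
  have hainv : a⁻¹ = a := inv_eq_of_mul_eq_one_right ha2
  obtain ⟨x₁, hx₁⟩ : ∃ x₁, a * g⁻¹ * a * g = x₁ := ⟨_, rfl⟩
  have hπ₁ : π x₁ = π g * π g := by
    have hg' : π a * (π g)⁻¹ * π a = π g := by
      have := congrArg Inv.inv hay
      rw [mul_inv_rev, mul_inv_rev, inv_inv, inv_inv, ← map_inv π a, hainv, ← mul_assoc] at this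
      exact this
    rw [← hx₁, map_mul, map_mul, map_mul, map_inv, hg']
  have hx₁inv : a * x₁ * a⁻¹ * x₁ = 1 := by
    rw [← hx₁, hainv]
    calc a * (a * g⁻¹ * a * g) * a * (a * g⁻¹ * a * g)
        = a * a * g⁻¹ * a * g * (a * a) * g⁻¹ * a * g := by group
      _ = g⁻¹ * a * g * g⁻¹ * a * g := by rw [ha2, one_mul, mul_one]
      _ = g⁻¹ * (a * a) * g := by group
      _ = 1 := by rw [ha2]; group
  have hx₁R : x₁ ^ p ^ k ∈ R := by
    rw [← QuotientGroup.eq_one_iff]
    show π (x₁ ^ p ^ k) = 1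
    rw [map_pow, hπ₁, (Commute.refl _).mul_pow, hy, one_mul]
  obtain ⟨i, hi⟩ := hR ⟨_, hx₁R⟩
  have hi' : (x₁ ^ p ^ k) ^ 2 ^ i = 1 := congrArg Subtype.val hi
  refine ⟨B, a, x₁ ^ 2 ^ i, k, inf_le_left, ?_, hcardB, ha, fun h => haB h.2, ?_, ?_, ?_, ?_⟩
  · rintro u ⟨hu, huR⟩
    refine ⟨hu, ?_⟩
    show π u ∈ B'
    rw [show π u = 1 from (QuotientGroup.eq_one_iff u).mpr huR]; exact one_mem _
  · rw [← pow_mul, mul_comm, pow_mul, hi']
  · have e : a * x₁ * a⁻¹ = x₁⁻¹ := eq_inv_of_mul_eq_one_left hx₁inv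
    rw [← conj_pow, e, inv_pow, inv_mul_cancel]
  · intro hmem
    rw [map_pow, hπ₁, ← pow_two, ← pow_mul, ← pow_succ'] at hmem
    refine hyM ?_
    have hcp : Nat.Coprime (2 ^ (i + 1)) (p ^ k) :=
      (((Nat.coprime_primes Nat.prime_two hp).mpr (Ne.symm hp2)).pow _ _)
    have hc : Int.gcd ((2 ^ (i + 1) : ℕ) : ℤ) ((p ^ k : ℕ) : ℤ) = 1 := by
      rw [Int.gcd_natCast_natCast]; exact hcp
    have e := Int.gcd_eq_gcd_ab ((2 ^ (i + 1) : ℕ) : ℤ) ((p ^ k : ℕ) : ℤ)
    rw [hc, Nat.cast_one] at e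
    rw [← zpow_one (π g), e, zpow_add, zpow_mul, zpow_mul, zpow_natCast, zpow_natCast, hy, one_zpow, mul_one]
    exact zpow_mem hmem _
  · have hxB : π (x₁ ^ 2 ^ i) ∈ centralizer (B' : Set (G ⧸ R)) := by
      rw [map_pow, hπ₁]; exact pow_mem (mul_mem hyB hyB) _
    have hcom : (R ⊔ B : Subgroup G) = B'.comap π := by
      rw [← hBmap, Subgroup.comap_map_eq, QuotientGroup.ker_mk', sup_comm]
    rw [hcom]
    refine Coprime.mem_normalizer_of_conj_mem fun u hu => ?_
    show π (x₁ ^ 2 ^ i * u * (x₁ ^ 2 ^ i)⁻¹) ∈ B'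
    rw [map_mul, map_mul, map_inv,
      mul_inv_eq_iff_eq_mul.mpr ((mem_centralizer_iff.mp hxB) _ hu).symm]
    exact hu

end Cfsg.Agent.PLocal.S4FreeChar
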