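/-
Good subgroups under injective homomorphisms.
-/
import Cfsg.Agent.PLocal.S4FreeChar.Bad

set_option linter.unusedSectionVars false
set_option linter.style.haveILetI false
set_option linter.unusedVariables false

namespace Cfsg.Agent.PLocal.S4FreeChar

open Subgroup Cfsg
open scoped commutatorElement

variable {Γ Γ' : Type*} [Group Γ] [Finite Γ] [Group Γ'] [Finite Γ'] {f : Γ →* Γ'}

theorem map_mem_centralizer_iff (hf : Function.Injective f) {V : Subgroup Γ} {g : Γ} :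
    f g ∈ centralizer (V.map f : Set Γ') ↔ g ∈ centralizer (V : Set Γ) := by
  rw [mem_centralizer_iff, mem_centralizer_iff]
  constructor
  · intro h v hv
    exact hf (by rw [map_mul, map_mul]; exact h _ ⟨v, hv, rfl⟩)
  · rintro h _ ⟨v, hv, rfl⟩
    rw [← map_mul, h v hv, map_mul]

theorem map_le_normalizer_iff (hf : Function.Injective f) {V P : Subgroup Γ} :
    P.map f ≤ normalizer (V.map f : Set Γ') ↔ P ≤ normalizer (V : Set Γ) := by
  constructor
  · intro h p hp
    refine Coprime.mem_normalizer_of_conj_mem fun v hv => ?_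
    obtain ⟨w, hw, e⟩ := conj_mem_of_norm (h ⟨p, hp, rfl⟩) (Subgroup.mem_map_of_mem f hv)
    rw [← map_inv, ← map_mul, ← map_mul] at e
    exact hf e ▸ hw
  · rintro h _ ⟨p, hp, rfl⟩
    refine Coprime.mem_normalizer_of_conj_mem ?_
    rintro _ ⟨v, hv, rfl⟩
    exact ⟨_, conj_mem_of_norm (h hp) hv, by rw [map_mul, map_mul, map_inv]⟩

theorem fix_map (hf : Function.Injective f) (V P : Subgroup Γ) :
    fix (V.map f) (P.map f) = (fix V P).map f := by
  ext z
  rw [mem_fix, Subgroup.mem_map]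
  constructor
  · rintro ⟨⟨v, hv, rfl⟩, h⟩
    refine ⟨v, mem_fix.mpr ⟨hv, fun p hp => hf ?_⟩, rfl⟩
    rw [map_mul, map_mul, map_inv]; exact h _ ⟨p, hp, rfl⟩
  · rintro ⟨v, hv, rfl⟩
    obtain ⟨hv, h⟩ := mem_fix.mp hv
    refine ⟨⟨v, hv, rfl⟩, ?_⟩
    rintro _ ⟨p, hp, rfl⟩
    rw [← map_inv, ← map_mul, ← map_mul, h p hp]

theorem img_map (hf : Function.Injective f) (V P : Subgroup Γ) :
    img (V.map f) (P.map f) = img V P := by
  have e : centralizer (V.map f : Set Γ') ⊓ P.map f = (centralizer (V : Set Γ) ⊓ P).map f := by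
    ext z
    constructor
    · rintro ⟨hz, p, hp, rfl⟩
      exact ⟨p, ⟨(map_mem_centralizer_iff hf).mp hz, hp⟩, rfl⟩
    · rintro ⟨p, hp, rfl⟩
      exact ⟨(map_mem_centralizer_iff hf).mpr hp.1, p, hp.2, rfl⟩
  rw [img, img, ← Subgroup.inf_relIndex_right, e, Subgroup.relIndex_map_map_of_injective _ _ hf,
    Subgroup.inf_relIndex_right]

theorem actEA_map (hf : Function.Injective f) {V P : Subgroup Γ} :
    ActEA (V.map f) (P.map f) ↔ ActEA V P := by
  have key : ∀ p q v : Γ, f p * (f q * f v * (f q)⁻¹) * (f p)⁻¹ = f (p * (q * v * q⁻¹) * p⁻¹) := by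
    intros; simp
  constructor
  · intro h
    refine ⟨(map_le_normalizer_iff hf).mp h.norm, fun p hp q hq v hv => hf ?_, fun p hp v hv => hf ?_⟩
    · rw [← key, ← key]; exact h.comm _ ⟨p, hp, rfl⟩ _ ⟨q, hq, rfl⟩ _ ⟨v, hv, rfl⟩
    · rw [← key]; exact h.sq _ ⟨p, hp, rfl⟩ _ ⟨v, hv, rfl⟩
  · intro h
    refine ⟨(map_le_normalizer_iff hf).mpr h.norm, ?_, ?_⟩
    · rintro _ ⟨p, hp, rfl⟩ _ ⟨q, hq, rfl⟩ _ ⟨v, hv, rfl⟩
      rw [key, key, h.comm p hp q hq v hv]
    · rintro _ ⟨p, hp, rfl⟩ _ ⟨v, hv, rfl⟩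
      rw [key, h.sq p hp v hv]

theorem isBad_map (hf : Function.Injective f) {V P : Subgroup Γ} :
    IsBad (V.map f) (P.map f) ↔ IsBad V P := by
  have hc : ∀ X : Subgroup Γ, Nat.card (X.map f) = Nat.card X := fun X => Subgroup.card_map_of_injective hf
  have hcent : P.map f ≤ centralizer (V.map f : Set Γ') ↔ P ≤ centralizer (V : Set Γ) :=
    ⟨fun h p hp => (map_mem_centralizer_iff hf).mp (h ⟨p, hp, rfl⟩),
      fun h => by rintro _ ⟨p, hp, rfl⟩; exact (map_mem_centralizer_iff hf).mpr (h hp)⟩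
  have hsingle : ∀ p : Γ, (V.map f ⊓ centralizer ({f p} : Set Γ') : Subgroup Γ') =
      (V ⊓ centralizer ({p} : Set Γ)).map f := by
    intro p
    ext z
    constructor
    · rintro ⟨⟨v, hv, rfl⟩, h⟩
      refine ⟨v, ⟨hv, mem_centralizer_singleton_iff.mpr (hf ?_)⟩, rfl⟩
      rw [map_mul, map_mul]; exact mem_centralizer_singleton_iff.mp h
    · rintro ⟨v, ⟨hv, h⟩, rfl⟩
      exact ⟨⟨v, hv, rfl⟩, mem_centralizer_singleton_iff.mpr
        (by rw [← map_mul, ← map_mul, mem_centralizer_singleton_iff.mp h])⟩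
  unfold IsBad IsOff IsNear
  rw [actEA_map hf, hcent, hc, img_map hf, fix_map hf, hc]
  refine or_congr Iff.rfl (and_congr_right fun _ => and_congr_right fun _ => and_congr_right fun _ =>
    and_congr ⟨?_, ?_⟩ ⟨?_, ?_⟩)
  · rintro ⟨U, hU, hU2, hcU, hreg⟩
    have hUe : (U.comap f).map f = U := by
      rw [Subgroup.map_comap_eq]; exact inf_eq_right.mpr (hU.trans (Subgroup.map_le_range f V))
    refine ⟨U.comap f, fun v hv => ?_, by rw [← hc (U.comap f), hUe]; exact hU2, fun v hv p hp => ?_,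
      fun v hv hvU p hp h => ?_⟩
    · obtain ⟨w, hw, e⟩ := hU hv
      exact hf e ▸ hw
    · rw [Subgroup.mem_comap, map_commutatorElement]; exact hcU _ ⟨v, hv, rfl⟩ _ ⟨p, hp, rfl⟩
    · refine (map_mem_centralizer_iff hf).mp (hreg _ ⟨v, hv, rfl⟩ hvU _ ⟨p, hp, rfl⟩ ?_)
      rw [← map_commutatorElement]; exact ⟨_, h, rfl⟩
  · rintro ⟨U, hU, hU2, hcU, hreg⟩
    refine ⟨U.map f, Subgroup.map_mono hU, by rw [hc]; exact hU2, ?_, ?_⟩
    · rintro _ ⟨v, hv, rfl⟩ _ ⟨p, hp, rfl⟩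
      exact ⟨_, hcU v hv p hp, map_commutatorElement f p v⟩
    · rintro _ ⟨v, hv, rfl⟩ hvU _ ⟨p, hp, rfl⟩ h
      refine (map_mem_centralizer_iff hf).mpr (hreg v hv (fun e => hvU ⟨v, e, rfl⟩) p hp ?_)
      rw [← map_commutatorElement] at h
      obtain ⟨w, hw, e⟩ := h
      exact hf e ▸ hw
  · intro h p hp hpc
    have := h (f p) ⟨p, hp, rfl⟩ fun e => hpc ((map_mem_centralizer_iff hf).mp e)
    rwa [hsingle, hc] at this
  · rintro h _ ⟨p, hp, rfl⟩ hpc
    rw [hsingle, hc]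
    exact h p hp fun e => hpc ((map_mem_centralizer_iff hf).mpr e)

theorem maxIn_map (hf : Function.Injective f) {S A : Subgroup Γ}
    (hA : A ∈ maxIn (IsElementaryAbelian 2) S) : A.map f ∈ maxIn (IsElementaryAbelian 2) (S.map f) := by
  refine ⟨Subgroup.map_mono hA.1, isEA_map hA.2.1 f, fun C hC hC' => ?_⟩
  have hCe : (C.comap f).map f = C := by
    rw [Subgroup.map_comap_eq]; exact inf_eq_right.mpr (hC.trans (Subgroup.map_le_range f S))
  rw [← hCe, Subgroup.card_map_of_injective hf, Subgroup.card_map_of_injective hf]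
  refine hA.2.2 _ ?_ (isEA_comap hC' f hf)
  intro z hz
  obtain ⟨w, hw, e⟩ := hC hz
  exact hf e ▸ hw

theorem maxIn_comap (hf : Function.Injective f) {S : Subgroup Γ} {A : Subgroup Γ'}
    (hA : A ∈ maxIn (IsElementaryAbelian 2) (S.map f)) :
    A.comap f ∈ maxIn (IsElementaryAbelian 2) S ∧ (A.comap f).map f = A := by
  have hAe : (A.comap f).map f = A := by
    rw [Subgroup.map_comap_eq]; exact inf_eq_right.mpr (hA.1.trans (Subgroup.map_le_range f S))
  refine ⟨⟨fun z hz => ?_, isEA_comap hA.2.1 f hf, fun C hC hC' => ?_⟩, hAe⟩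
  · obtain ⟨w, hw, e⟩ := hA.1 hz
    exact hf e ▸ hw
  · rw [← Subgroup.card_map_of_injective hf (K := C), ← Subgroup.card_map_of_injective hf (K := A.comap f), hAe]
    exact hA.2.2 _ (Subgroup.map_mono hC) (isEA_map hC' f)

theorem good_map (hf : Function.Injective f) {S D : Subgroup Γ} :
    Good (S.map f) (D.map f) ↔ Good S D := by
  constructor
  · intro h
    refine ⟨(Subgroup.map_le_map_iff_of_injective hf).mp h.le, fun A hA => ?_,
      (map_le_normalizer_iff hf).mp h.norm, fun P hP hb => h.notBad _ (Subgroup.map_mono hP) ((isBad_map hf).mpr hb)⟩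
    exact (Subgroup.map_le_map_iff_of_injective hf).mp (h.maxEA _ (maxIn_map hf hA))
  · intro h
    refine ⟨Subgroup.map_mono h.le, fun A hA => ?_, (map_le_normalizer_iff hf).mpr h.norm, fun P hP hb => ?_⟩
    · obtain ⟨h1, h2⟩ := maxIn_comap hf hA
      rw [← h2]; exact Subgroup.map_mono (h.maxEA _ h1)
    · have hPe : (P.comap f).map f = P := by
        rw [Subgroup.map_comap_eq]; exact inf_eq_right.mpr (hP.trans (Subgroup.map_le_range f S))
      rw [← hPe] at hb
      refine h.notBad _ ?_ ((isBad_map hf).mp hb)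
      intro z hz
      obtain ⟨w, hw, e⟩ := hP hz
      exact hf e ▸ hw

end Cfsg.Agent.PLocal.S4FreeChar
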