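/-
A good subgroup lies in `O₂` of every `S₄`-free solvable group of characteristic 2.
-/
import Cfsg.Agent.PLocal.S4FreeChar.Bad
import Cfsg.Agent.PLocal.S4FreeChar.Cand
import Cfsg.Agent.PLocal.S4FreeChar.Transport

set_option linter.unusedSectionVars false
set_option linter.style.haveILetI false
set_option linter.unusedVariables false
set_option linter.deprecated false

namespace Cfsg.Agent.PLocal.S4FreeChar

open Subgroup Cfsg
open scoped commutatorElement

variable {H : Type*} [Group H] [Finite H]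

/-- Two elementary abelian subgroups exchanged by a dihedral group, with their intersections with a
common normalized 2-group. -/
structure Pair (V V' B B' : Subgroup H) (a a' : H) : Prop where
  eaV : IsElementaryAbelian 2 V
  eaV' : IsElementaryAbelian 2 V'
  leB : B ≤ V
  leB' : B' ≤ V'
  amem : a ∈ V
  amem' : a' ∈ V'
  cover : ∀ v ∈ V, v ∈ B ∨ a * v ∈ B
  comB : ∀ t ∈ B', ∀ v ∈ V, ⁅t, v⁆ ∈ B
  comB' : ∀ u ∈ B, ∀ v ∈ V', ⁅u, v⁆ ∈ B'
  fixed : ∀ z ∈ fix B B', ∀ v ∈ V', v * z = z * v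
  odd : ∃ m, Odd m ∧ (a' * a) ^ m = 1
  back : ∀ t ∈ B', a' * a * t * (a' * a)⁻¹ = t → t ∈ V

namespace Pair

variable {V V' B B' : Subgroup H} {a a' : H} (h : Pair V V' B B' a a')
include h

/-- The commutator map from `B'` is injective modulo the fixed points. -/
theorem regular {v t : H} (hv : v ∈ V) (hvB : v ∉ B) (ht : t ∈ B') (hc : ⁅t, v⁆ ∈ fix B B') :
    ∀ w ∈ V, t * w = w * t := by
  obtain ⟨b, hb, rfl⟩ : ∃ b ∈ B, v = a * b := by
    refine ⟨a * v, (h.cover v hv).resolve_left hvB, ?_⟩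
    rw [← mul_assoc, sq_of_EA h.eaV h.amem, one_mul]
  have hta : ⁅t, a⁆ ∈ B := h.comB t ht a h.amem
  have htb : ⁅t, b⁆ ∈ fix B B' := by
    refine mem_fix.mpr ⟨h.comB t ht b (h.leB hb), fun s hs => ?_⟩
    have h2 : ⁅t, b⁆ ∈ B' := by
      have := inv_mem (h.comB' b hb t (h.leB' ht))
      rwa [commutatorElement_inv] at this
    exact mul_inv_eq_iff_eq_mul.mpr (comm_of_EA h.eaV' (h.leB' hs) (h.leB' h2))
  have e : ⁅t, a * b⁆ = ⁅t, a⁆ * ⁅t, b⁆ := by
    rw [commutatorElement_mul_right_eq_mul_conj, mul_assoc ⁅t, a⁆ a,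
      comm_of_EA h.eaV h.amem (h.leB (mem_fix.mp htb).1), ← mul_assoc ⁅t, a⁆, mul_inv_cancel_right]
  rw [e] at hc
  have hz : ⁅t, a⁆ ∈ fix B B' := by
    have := mul_mem hc (inv_mem htb); rwa [mul_inv_cancel_right] at this
  obtain ⟨z, ez⟩ : ∃ z, ⁅t, a⁆ = z := ⟨_, rfl⟩
  rw [ez] at hz
  have hzB := (mem_fix.mp hz).1
  have hza : a * z = z * a := comm_of_EA h.eaV h.amem (h.leB hzB)
  have hza' : a' * z = z * a' := h.fixed z hz a' h.amem'
  have hz2 := sq_of_EA h.eaV (h.leB hzB)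
  have htt : t * t = 1 := sq_of_EA h.eaV' (h.leB' ht)
  have haa : a * a = 1 := sq_of_EA h.eaV h.amem
  have hzt : t * z = z * t := mul_inv_eq_iff_eq_mul.mp ((mem_fix.mp hz).2 t ht)
  have hat : a * t * a⁻¹ = z * t := by
    rw [← ez, commutatorElement_def, inv_eq_of_mul_eq_one_right htt, inv_eq_of_mul_eq_one_right haa] at hzt ⊢
    calc a * t * a = t * t * (a * t * a) := by rw [htt, one_mul]
      _ = t * (t * a * t * a) := by group
      _ = t * a * t * a * t := hzt
  have ha't : a' * t * a'⁻¹ = t :=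
    mul_inv_eq_iff_eq_mul.mpr (comm_of_EA h.eaV' h.amem' (h.leB' ht))
  have hg : a' * a * t * (a' * a)⁻¹ = z * t := by
    rw [show a' * a * t * (a' * a)⁻¹ = a' * (a * t * a⁻¹) * a'⁻¹ by group, hat,
      show a' * (z * t) * a'⁻¹ = a' * z * a'⁻¹ * (a' * t * a'⁻¹) by group, ha't,
      mul_inv_eq_iff_eq_mul.mpr hza']
  obtain ⟨m, hm, hgm⟩ := h.odd
  have hz1 : z = 1 := eq_one_of_translate hm (by rw [hgm]; group) hg
    (by rw [show a' * a * z * (a' * a)⁻¹ = a' * (a * z * a⁻¹) * a'⁻¹ by group,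
      mul_inv_eq_iff_eq_mul.mpr hza, mul_inv_eq_iff_eq_mul.mpr hza']) hz2
  rw [hz1, one_mul] at hg
  have htV := h.back t ht hg
  exact fun w hw => comm_of_EA h.eaV htV hw

/-- Some coset of `B` consists of commutators, or the symmetric group of degree four is involved. -/
theorem four (hswap : Pair V' V B' B a' a) (hS4 : ¬ Involves (Equiv.Perm (Fin 4)) H) {t : H} (ht : t ∈ B')
    (htV : ¬ ∀ w ∈ V, t * w = w * t) (haB : a ∉ B) (haB' : a' ∉ B') (hfixB : ∀ z ∈ fix B B', ∀ v ∈ V, v * z = z * v) :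
    4 * Nat.card (fix B B') ≤ Nat.card (V ⊓ centralizer ({t} : Set H) : Subgroup H) := by
  obtain ⟨u, eu⟩ : ∃ u, ⁅t, a⁆ = u := ⟨_, rfl⟩
  have huB : u ∈ B := eu ▸ h.comB t ht a h.amem
  have huV := h.leB huB
  have huZ : u ∉ fix B B' := fun e => htV (h.regular h.amem haB ht (eu ▸ e))
  obtain ⟨t₁, et₁⟩ : ∃ t₁, ⁅u, a'⁆ = t₁ := ⟨_, rfl⟩
  have ht₁B : t₁ ∈ B' := et₁ ▸ h.comB' u huB a' h.amem'
  have ht₁V : ¬ ∀ w ∈ V, t₁ * w = w * t₁ := by
    intro hall
    refine huZ (mem_fix.mpr ⟨huB, fun s hs => mul_inv_eq_iff_eq_mul.mpr ?_⟩)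
    have hc : ⁅u, a'⁆ ∈ fix B' B := by
      rw [et₁]
      exact mem_fix.mpr ⟨ht₁B, fun w hw => mul_inv_eq_iff_eq_mul.mpr (hall w (h.leB hw)).symm⟩
    exact (hswap.regular h.amem' haB' huB hc s (h.leB' hs)).symm
  obtain ⟨u₂, eu₂⟩ : ∃ u₂, ⁅t₁, a⁆ = u₂ := ⟨_, rfl⟩
  have hu₂B : u₂ ∈ B := eu₂ ▸ h.comB t₁ ht₁B a h.amem
  have hu₂V := h.leB hu₂B
  have hself : ∀ {s w c : H}, s * s = 1 → w * w = 1 → ⁅s, w⁆ = c → c * c = 1 → s * c * s⁻¹ = c := by
    intro s w c hs hw e hc
    rw [← e, commutatorElement_def, inv_eq_of_mul_eq_one_right hs, inv_eq_of_mul_eq_one_right hw] at hc ⊢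
    calc s * (s * w * s * w) * s = s * s * (w * s * w * s) := by group
      _ = w * s * w * s := by rw [hs, one_mul]
      _ = (s * w * s * w)⁻¹ := by
        rw [mul_inv_rev, mul_inv_rev, mul_inv_rev, inv_eq_of_mul_eq_one_right hs,
          inv_eq_of_mul_eq_one_right hw]; simp [mul_assoc]
      _ = s * w * s * w := inv_eq_of_mul_eq_one_right hc
  have hEA : ∀ {x : H}, x ∈ V → x * x = 1 := fun hx => sq_of_EA h.eaV hx
  have hEA' : ∀ {x : H}, x ∈ V' → x * x = 1 := fun hx => sq_of_EA h.eaV' hx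
  have htu : t * u * t⁻¹ = u := hself (hEA' (h.leB' ht)) (hEA h.amem) eu (hEA huV)
  have ht₁u₂ : t₁ * u₂ * t₁⁻¹ = u₂ := hself (hEA' (h.leB' ht₁B)) (hEA h.amem) eu₂ (hEA hu₂V)
  have hut₁ : u * t₁ * u⁻¹ = t₁ := hself (hEA huV) (hEA' h.amem') et₁ (hEA' (h.leB' ht₁B))
  have ht₁u : t₁ * u * t₁⁻¹ = u :=
    mul_inv_eq_iff_eq_mul.mpr (mul_inv_eq_iff_eq_mul.mp hut₁).symm
  -- `t` fixes `u₂`
  obtain ⟨e, ee⟩ : ∃ e, ⁅t, u₂⁆ = e := ⟨_, rfl⟩
  have heB : e ∈ B := ee ▸ h.comB t ht u₂ hu₂V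
  have heB' : e ∈ B' := by
    have := inv_mem (h.comB' u₂ hu₂B t (h.leB' ht))
    rwa [commutatorElement_inv, ee] at this
  have htt₁ : (t * t₁) * (t * t₁) = 1 := by
    have hm : t * t₁ ∈ V' := mul_mem (h.leB' ht) (h.leB' ht₁B)
    exact hEA' hm
  have hw : ⁅t * t₁, a⁆ = e * u₂ * u := by
    rw [commutatorElement_mul_left_eq_conj_mul, eu₂, eu, show t * u₂ * t⁻¹ = e * u₂ by rw [← ee, commutatorElement_def]; group]
  have hwV : e * u₂ * u ∈ V := mul_mem (mul_mem (h.leB heB) hu₂V) huV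
  have hfix := hself htt₁ (hEA h.amem) hw (hEA hwV)
  have he1 : e = 1 := by
    have hte : t * e * t⁻¹ = e := mul_inv_eq_iff_eq_mul.mpr (comm_of_EA h.eaV' (h.leB' ht) (h.leB' heB'))
    have ht₁e : t₁ * e * t₁⁻¹ = e := mul_inv_eq_iff_eq_mul.mpr (comm_of_EA h.eaV' (h.leB' ht₁B) (h.leB' heB'))
    rw [show t * t₁ * (e * u₂ * u) * (t * t₁)⁻¹ =
      t * ((t₁ * e * t₁⁻¹) * (t₁ * u₂ * t₁⁻¹) * (t₁ * u * t₁⁻¹)) * t⁻¹ by group, ht₁e, ht₁u₂, ht₁u,
      show t * (e * u₂ * u) * t⁻¹ = (t * e * t⁻¹) * (t * u₂ * t⁻¹) * (t * u * t⁻¹) by group, hte, htu,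
      show t * u₂ * t⁻¹ = e * u₂ by rw [← ee, commutatorElement_def]; group] at hfix
    exact mul_left_cancel (a := e) (mul_right_cancel (b := u₂ * u) (by
      simpa [mul_assoc] using hfix.trans (show e * u₂ * u = e * 1 * (u₂ * u) by group)))
  have htu₂ : t * u₂ = u₂ * t := commutatorElement_eq_one_iff_mul_comm.mp (ee.trans he1)
  set K := V ⊓ centralizer ({t} : Set H)
  have hZK : fix B B' ≤ K := fun z hz => ⟨h.leB (mem_fix.mp hz).1,
    mem_centralizer_singleton_iff.mpr (mul_inv_eq_iff_eq_mul.mp ((mem_fix.mp hz).2 t ht)).symm⟩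
  have huK : u ∈ K := ⟨huV, mem_centralizer_singleton_iff.mpr (mul_inv_eq_iff_eq_mul.mp htu).symm⟩
  have hu₂K : u₂ ∈ K := ⟨hu₂V, mem_centralizer_singleton_iff.mpr htu₂.symm⟩
  set J := fix B B' ⊔ zpowers u
  have hJK : J ≤ K := sup_le hZK (zpowers_le.mpr huK)
  have hnJ : zpowers u ≤ normalizer (fix B B' : Set H) :=
    le_normalizer_in h.eaV (zpowers_le.mpr huV) ((fix_le _ _).trans h.leB)
  have hzu : ∀ z ∈ zpowers u, z = 1 ∨ z = u := by
    intro z hz
    obtain ⟨k, rfl⟩ := mem_zpowers_iff.mp hz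
    have hu2 : u ^ 2 = 1 := by rw [pow_two]; exact hEA huV
    rcases Int.even_or_odd k with ⟨j, rfl⟩ | ⟨j, rfl⟩
    · left; rw [← two_mul, zpow_mul, zpow_ofNat, hu2, one_zpow]
    · right; rw [zpow_add, zpow_mul, zpow_ofNat, hu2, one_zpow, one_mul, zpow_one]
  have hu₂J : u₂ ∉ J := by
    intro hmem
    obtain ⟨z, hz, w, hw', e'⟩ := Coprime.exists_mul_of_mem_sup hnJ hmem
    rcases hzu w hw' with rfl | rfl
    · rw [mul_one] at e'
      exact ht₁V (h.regular h.amem haB ht₁B (by rw [eu₂, ← e']; exact hz))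
    · -- the four-group
      refine hS4 ?_
      have hza' : a' * z = z * a' := h.fixed z hz a' h.amem'
      have e3 : ⁅u₂, a'⁆ = t₁ := by
        rw [← e', commutatorElement_mul_left_eq_conj_mul, et₁,
          show ⁅z, a'⁆ = 1 from commutatorElement_eq_one_iff_mul_comm.mpr hza'.symm, mul_one]
        exact mul_inv_eq_iff_eq_mul.mpr (h.fixed z hz t₁ (h.leB' ht₁B)).symm
      have hcom : u₂ * t₁ = t₁ * u₂ := (mul_inv_eq_iff_eq_mul.mp ht₁u₂).symm
      have hu₂1 : u₂ ≠ 1 := fun e0 => ht₁V (h.regular h.amem haB ht₁B (by rw [eu₂, e0]; exact one_mem _))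
      have ht₁1 : t₁ ≠ 1 := fun e0 => ht₁V fun w _ => by rw [e0, one_mul, mul_one]
      refine FusionZJ.involves_of_four_group (u := a) (w := a') hcom (hEA hu₂V) (hEA' (h.leB' ht₁B)) hu₂1 ht₁1
        (mul_inv_eq_iff_eq_mul.mpr (comm_of_EA h.eaV h.amem hu₂V)) ?_
        (mul_inv_eq_iff_eq_mul.mpr (comm_of_EA h.eaV' h.amem' (h.leB' ht₁B))) ?_
      · have h1 := hEA' (h.leB' ht₁B)
        rw [hcom, ← eu₂, commutatorElement_def, inv_eq_of_mul_eq_one_right h1,
          inv_eq_of_mul_eq_one_right (hEA h.amem)]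
        calc a * t₁ * a = t₁ * t₁ * (a * t₁ * a) := by rw [h1, one_mul]
          _ = _ := by group
      · have h1 := hEA hu₂V
        rw [← hcom, ← e3, commutatorElement_def, inv_eq_of_mul_eq_one_right h1,
          inv_eq_of_mul_eq_one_right (hEA' h.amem')]
        calc a' * u₂ * a' = u₂ * u₂ * (a' * u₂ * a') := by rw [h1, one_mul]
          _ = _ := by group
  have hJ : Nat.card J = 2 * Nat.card (fix B B') := by
    rw [Coprime.card_sup hnJ ?_, Nat.card_zpowers, orderOf_eq_prime (p := 2) (by rw [pow_two]; exact hEA huV)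
      (fun e0 => huZ (by rw [e0]; exact one_mem _)), mul_comm]
    rw [eq_bot_iff]
    rintro z ⟨hz1, hz2⟩
    rcases hzu z hz2 with rfl | rfl
    · exact one_mem _
    · exact absurd hz1 huZ
  obtain ⟨i, hi⟩ := card_ea (isEA_mono h.eaV (inf_le_left : K ≤ V))
  obtain ⟨j, hj⟩ := card_ea (isEA_mono h.eaV (hJK.trans inf_le_left))
  have hlt : Nat.card J < Nat.card K := by
    by_contra hge
    push Not at hge
    exact hu₂J ((Subgroup.eq_of_le_of_card_ge hJK hge).ge hu₂K)
  rw [hi, hj, Nat.pow_lt_pow_iff_right (by norm_num)] at hlt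
  calc 4 * Nat.card (fix B B') = 2 * Nat.card J := by rw [hJ]; ring
    _ = 2 ^ (j + 1) := by rw [hj, pow_succ']
    _ ≤ 2 ^ i := Nat.pow_le_pow_right (by norm_num) hlt
    _ = Nat.card K := hi.symm

end Pair

variable [Group.IsSolvable H] {S : Sylow 2 H}

set_option maxHeartbeats 800000 in
/-- Good subgroups lie in `O₂`. -/
theorem Good.le_pCore (hS4 : ¬ Involves (Equiv.Perm (Fin 4)) H)
    (hchar : centralizer (pCore 2 H : Set H) ≤ pCore 2 H) {V : Subgroup H}
    (hV : Good (S : Subgroup H) V) : V ≤ pCore 2 H := by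
  classical
  haveI : Fact (Nat.Prime 2) := ⟨Nat.prime_two⟩
  by_contra hVQ
  set Q := pCore 2 H with hQ
  haveI : Q.Normal := by rw [hQ]; infer_instance
  have hQp : IsPGroup 2 Q := Core.isPGroup_pCore 2 H
  have hQS : Q ≤ (S : Subgroup H) := Core.pCore_le_sylow S
  have hVE := hV.ea
  set π := QuotientGroup.mk' Q
  set F := pPrimeCore 2 (H ⧸ Q)
  have hVb : IsElementaryAbelian 2 (V.map π) := isEA_map hVE π
  have hnF : V.map π ≤ normalizer (F : Set (H ⧸ Q)) := by rw [Subgroup.normalizer_eq_top]; exact le_top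
  have hbad : ∃ u ∈ V.map π, ∃ f ∈ F, ⁅u, f⁆ ∉ (⊥ : Subgroup (H ⧸ Q)) := by
    by_contra hcon
    push Not at hcon
    refine hVQ fun v hv => ?_
    rw [← QuotientGroup.eq_one_iff]
    have hF : π v ∈ F := centralizer_pPrimeCore_le_of_solvable (Core.pCore_quotient_pCore 2 H)
      (mem_centralizer_iff.mpr fun f hf =>
        (commutatorElement_eq_one_iff_mul_comm.mp (Subgroup.mem_bot.mp (hcon _ ⟨v, hv, rfl⟩ f hf))).symm)
    have hb := Subgroup.inf_eq_bot_of_coprime (H := V.map π) (K := F)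
      (coprime_two_group (isPGroup_of_EA hVb) (odd_of_pPrimeCore (H ⧸ Q)))
    exact Subgroup.mem_bot.mp (hb ▸ (⟨⟨v, hv, rfl⟩, hF⟩ : π v ∈ V.map π ⊓ F))
  obtain ⟨B₁, a₁, y, p, k, hB₁, hB₁2, ha₁, ha₁B, hp, hp2, hy, hyF, hy1, hay, hyB⟩ :=
    exists_inverted (K := ⊥) hVb hnF (odd_of_pPrimeCore _) (by rw [Subgroup.normalizer_eq_top]; exact le_top) hbad
  obtain ⟨B, a, x, n, hBV, hVQB, hB2, ha, haB, hxp, hinv, hxQ, hxR⟩ :=
    lift_inverted hQp hVE hB₁ hB₁2 ha₁ ha₁B hp2 hp hy hay hyB hy1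
  have hxQ' : x ∉ Q := fun h => hxQ (by
    rw [Subgroup.mem_bot]; exact (QuotientGroup.eq_one_iff x).mpr h)
  set R := Q ⊔ B with hR
  have hVS : V ≤ (S : Subgroup H) := hV.le
  have hRS : R ≤ (S : Subgroup H) := sup_le hQS (hBV.trans hVS)
  have hBn : B ≤ normalizer (Q : Set H) := by rw [Subgroup.normalizer_eq_top]; exact le_top
  have hBR : B = V ⊓ R := by
    refine le_antisymm (le_inf hBV le_sup_right) ?_
    rintro v ⟨hv, hvR⟩
    obtain ⟨q, hq, b, hb, e⟩ := Coprime.exists_mul_of_mem_sup hBn hvR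
    have hqV : q ∈ V := by
      rw [show q = v * b⁻¹ by rw [← e]; group]; exact mul_mem hv (inv_mem (hBV hb))
    rw [← e]; exact mul_mem (hVQB ⟨hqV, hq⟩) hb
  set c : H →* H := (MulAut.conj x).toMonoidHom with hc
  set V' := V.map c
  set B' := B.map c
  set a' := x * a * x⁻¹
  have hxRe : R.map c = R := Subgroup.mem_normalizer_iff_map_conj_eq.mp hxR
  have hB'R : B' = V' ⊓ R := by
    show B.map c = V.map c ⊓ R
    rw [← hxRe, ← Subgroup.map_inf _ _ _ (MulAut.conj x).injective, ← hBR]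
  have hV'E : IsElementaryAbelian 2 V' := isEA_map hVE c
  have hRV : R ≤ normalizer (V : Set H) := hRS.trans hV.norm
  have hRV' : R ≤ normalizer (V' : Set H) := by
    rw [← hxRe]
    rintro _ ⟨r, hr, rfl⟩
    refine Coprime.mem_normalizer_of_conj_mem ?_
    rintro _ ⟨v, hv, rfl⟩
    exact ⟨_, conj_mem_of_norm (hRV hr) hv, by rw [map_mul, map_mul, map_inv]⟩
  have hVR : V ≤ normalizer (R : Set H) := fun v hv => by
    refine Coprime.mem_normalizer_of_conj_mem fun r hr => ?_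
    obtain ⟨q, hq, b, hb, rfl⟩ := Coprime.exists_mul_of_mem_sup hBn hr
    rw [show v * (q * b) * v⁻¹ = v * q * v⁻¹ * (v * b * v⁻¹) by group,
      mul_inv_eq_iff_eq_mul.mpr (comm_of_EA hVE hv (hBV hb))]
    exact mul_mem (mem_sup_left (Subgroup.Normal.conj_mem inferInstance q hq v)) (mem_sup_right hb)
  have hV'R : V' ≤ normalizer (R : Set H) := by
    rw [← hxRe]
    rintro _ ⟨v, hv, rfl⟩
    refine Coprime.mem_normalizer_of_conj_mem ?_
    rintro _ ⟨r, hr, rfl⟩
    exact ⟨_, conj_mem_of_norm (hVR hv) hr, by rw [map_mul, map_mul, map_inv]⟩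
  have haa : a * a = 1 := sq_of_EA hVE ha
  have hai : a⁻¹ = a := inv_eq_of_mul_eq_one_right haa
  have hinv' : a * x * a⁻¹ = x⁻¹ := eq_inv_of_mul_eq_one_left hinv
  rw [hai] at hinv'
  have hga : a' * a = x * x := by
    show x * a * x⁻¹ * a = x * x
    have : a * x⁻¹ * a = x := by
      rw [← hinv']
      calc a * (a * x * a) * a = a * a * x * (a * a) := by group
        _ = x := by rw [haa, one_mul, mul_one]
    rw [show x * a * x⁻¹ * a = x * (a * x⁻¹ * a) by group, this]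
  set m := p ^ n
  have hm : Odd m := odd_prime_pow hp hp2 n
  have hxm : x ^ m = 1 := hxp
  have hgodd : ∃ m, Odd m ∧ (a' * a) ^ m = 1 := ⟨m, hm, by
    rw [hga, (Commute.refl x).mul_pow, hxm, one_mul]⟩
  -- the exchanging element
  set w := x * a
  have hw : ∀ h : H, w * (w * h * w⁻¹) * w⁻¹ = h := by
    intro h
    have e1 : w * w = 1 := by
      show x * a * (x * a) = 1
      rw [show x * a * (x * a) = x * (a * x * a) by group, hinv', mul_inv_cancel]
    rw [show w * (w * h * w⁻¹) * w⁻¹ = w * w * h * (w * w)⁻¹ by group, e1, one_mul, inv_one, mul_one]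
  set cw : H →* H := (MulAut.conj w).toMonoidHom
  have hcw : ∀ h, cw h = w * h * w⁻¹ := fun h => rfl
  have hVw : V.map cw = V' := by
    have hmap : cw = c.comp (MulAut.conj a).toMonoidHom := by
      ext h; simp [cw, c, w, mul_assoc]
    rw [hmap, ← Subgroup.map_map,
      show V.map (MulAut.conj a).toMonoidHom = V from
        Subgroup.mem_normalizer_iff_map_conj_eq.mp (Subgroup.le_normalizer ha)]
  have hV'w : V'.map cw = V := by
    rw [← hVw, Subgroup.map_map]
    convert Subgroup.map_id V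
    ext h; exact hw h
  have hRw : R.map cw = R := Subgroup.mem_normalizer_iff_map_conj_eq.mp (mul_mem hxR (hVR ha))
  have hBw : B.map cw = B' := by
    rw [hBR, Subgroup.map_inf _ _ _ (MulAut.conj w).injective, hVw, hRw, hB'R]
  have hB'w : B'.map cw = B := by
    rw [hB'R, Subgroup.map_inf _ _ _ (MulAut.conj w).injective, hV'w, hRw, ← hBR]
  have haw : cw a = a' := by
    show x * a * a * (x * a)⁻¹ = x * a * x⁻¹
    rw [mul_inv_rev, hai, mul_assoc x a a, haa, mul_one, ← mul_assoc]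
  -- `V ∩ V'` inside `R` is fixed
  have hcover : ∀ v ∈ V, v ∈ B ∨ a * v ∈ B := by
    intro v hv
    by_contra hcon
    push Not at hcon
    have hi : (B.subgroupOf V).index = 2 := by
      have e := Subgroup.card_mul_index (B.subgroupOf V)
      rw [Nat.card_congr (Subgroup.subgroupOfEquivOfLe hBV).toEquiv, hB2, mul_comm 2] at e
      exact Nat.eq_of_mul_eq_mul_left Nat.card_pos e
    have := (Subgroup.mul_mem_iff_of_index_two hi (a := ⟨a, ha⟩) (b := ⟨v, hv⟩)).mpr
      (iff_of_false haB hcon.1)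
    exact hcon.2 this
  have hcomB : ∀ t ∈ B', ∀ v ∈ V, ⁅t, v⁆ ∈ B := by
    intro t ht v hv
    have htR : t ∈ R := (hB'R.le ht).2
    rw [hBR, commutatorElement_def]
    exact ⟨V.mul_mem (conj_mem_of_norm (hRV htR) hv) (V.inv_mem hv), by
      rw [show t * v * t⁻¹ * v⁻¹ = t * (v * t⁻¹ * v⁻¹) by group]
      exact R.mul_mem htR (conj_mem_of_norm (hVR hv) (R.inv_mem htR))⟩
  have hcomB' : ∀ u ∈ B, ∀ v ∈ V', ⁅u, v⁆ ∈ B' := by
    intro u hu v hv
    have huR : u ∈ R := (hBR.le hu).2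
    rw [hB'R, commutatorElement_def]
    exact ⟨V'.mul_mem (conj_mem_of_norm (hRV' huR) hv) (V'.inv_mem hv), by
      rw [show u * v * u⁻¹ * v⁻¹ = u * (v * u⁻¹ * v⁻¹) by group]
      exact R.mul_mem huR (conj_mem_of_norm (hV'R hv) (R.inv_mem huR))⟩
  by_cases hB'V : B' ≤ centralizer (V : Set H)
  · -- stabilization of `Q`
    refine hxQ' ?_
    have hBV' : ∀ b ∈ B, ∀ v ∈ V', v * b = b * v := by
      intro b hb v hv
      obtain ⟨b', hb', eb⟩ := hB'w.ge hb
      obtain ⟨v', hv', ev⟩ := hVw.ge hv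
      rw [← eb, ← ev, ← map_mul, ← map_mul, mem_centralizer_iff.mp (hB'V hb') v' hv']
    have ha'V' : a' ∈ V' := ⟨a, ha, rfl⟩
    have hx2 : x * x ∈ centralizer (Q : Set H) := by
      rw [mem_centralizer_iff]
      intro q hq
      refine (mul_inv_eq_iff_eq_mul.mp (?_ : x * x * q * (x * x)⁻¹ = q)).symm
      obtain ⟨e₁, he₁⟩ : ∃ e, a * q * a⁻¹ * q⁻¹ = e := ⟨_, rfl⟩
      obtain ⟨e₂, he₂⟩ : ∃ e, a' * q * a'⁻¹ * q⁻¹ = e := ⟨_, rfl⟩
      have hVn : Q ≤ normalizer (V : Set H) := le_sup_left.trans hRV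
      have hV'n : Q ≤ normalizer (V' : Set H) := le_sup_left.trans hRV'
      have he₁B : e₁ ∈ B := by
        rw [hBR, ← he₁]
        refine ⟨?_, mem_sup_left (mul_mem (Subgroup.Normal.conj_mem inferInstance q hq a) (inv_mem hq))⟩
        rw [show a * q * a⁻¹ * q⁻¹ = a * (q * a⁻¹ * q⁻¹) by group]
        exact V.mul_mem ha (conj_mem_of_norm (hVn hq) (V.inv_mem ha))
      have he₂B : e₂ ∈ B' := by
        rw [hB'R, ← he₂]
        refine ⟨?_, mem_sup_left (mul_mem (Subgroup.Normal.conj_mem inferInstance q hq a') (inv_mem hq))⟩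
        rw [show a' * q * a'⁻¹ * q⁻¹ = a' * (q * a'⁻¹ * q⁻¹) by group]
        exact V'.mul_mem ha'V' (conj_mem_of_norm (hV'n hq) (V'.inv_mem ha'V'))
      have c1 : Commute a e₁ := comm_of_EA hVE ha (hBV he₁B)
      have c2 : Commute a e₂ := mem_centralizer_iff.mp (hB'V he₂B) a ha
      have c3 : Commute a' e₁ := hBV' e₁ he₁B a' ha'V'
      have c4 : Commute a' e₂ := comm_of_EA hV'E ha'V' (hB'R.le he₂B).1
      have hwsq : e₁ * e₂ * (e₁ * e₂) = 1 := by
        have c5 : Commute e₁ e₂ := mem_centralizer_iff.mp (hB'V he₂B) e₁ (hBV he₁B)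
        rw [c5.symm.mul_mul_mul_comm, sq_of_EA hVE (hBV he₁B), sq_of_EA hV'E (hB'R.le he₂B).1, one_mul]
      have hg : x * x * q * (x * x)⁻¹ = e₁ * e₂ * q := by
        rw [← hga, show a' * a * q * (a' * a)⁻¹ = a' * (a * q * a⁻¹) * a'⁻¹ by group,
          show a * q * a⁻¹ = e₁ * q by rw [← he₁]; group,
          show a' * (e₁ * q) * a'⁻¹ = a' * e₁ * a'⁻¹ * (a' * q * a'⁻¹) by group,
          mul_inv_eq_iff_eq_mul.mpr c3.eq, show a' * q * a'⁻¹ = e₂ * q by rw [← he₂]; group, ← mul_assoc]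
      have hgw : x * x * (e₁ * e₂) * (x * x)⁻¹ = e₁ * e₂ := by
        rw [← hga]
        exact mul_inv_eq_iff_eq_mul.mpr ((c3.mul_left c1).mul_right (c4.mul_left c2)).eq
      have h1 := eq_one_of_translate (g := x * x) hm
        (by rw [(Commute.refl x).mul_pow, hxm]; group) hg hgw hwsq
      rw [hg, h1, one_mul]
    have h2Q : x * x ∈ Q := hchar hx2
    obtain ⟨j, hj⟩ := hm
    have e : x = (x * x) ^ (j + 1) := by
      rw [← pow_two, ← pow_mul, show 2 * (j + 1) = m + 1 by omega, pow_succ, hxm, one_mul]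
    rw [e]; exact pow_mem h2Q _
  · -- a near offender
    have hB'S : B' ≤ (S : Subgroup H) := (hB'R.le.trans inf_le_right).trans hRS
    have hactT : ActEA V B' :=
      actEA_of_EA (isEA_mono hV'E (hB'R.le.trans inf_le_left)) (hB'S.trans hV.norm)
    have hnoOff : img V B' * Nat.card (fix V B') < Nat.card V := by
      by_contra hle
      push Not at hle
      exact hV.notBad B' hB'S (Or.inl ⟨hactT, hB'V, hle⟩)
    set Z := fix B B'
    have hZfix : Z ≤ fix V B' := fix_mono _ hBV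
    have hZw : Nat.card (fix B' B) = Nat.card Z := by
      have e := fix_map (f := cw) (MulAut.conj w).injective B B'
      rw [hBw, hB'w] at e
      rw [e]; exact Subgroup.card_map_of_injective (MulAut.conj w).injective
    have hcBB : Nat.card B' = Nat.card B := Subgroup.card_map_of_injective (MulAut.conj x).injective
    have hKB : centralizer (V : Set H) ⊓ B' ≤ fix B' B := fun t ht =>
      ⟨ht.2, centralizer_le hBV ht.1⟩
    have himg : img V B' * Nat.card (centralizer (V : Set H) ⊓ B' : Subgroup H) = Nat.card B := by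
      rw [← hcBB, img, ← Subgroup.inf_relIndex_right, mul_comm, Core.card_mul_relIndex inf_le_right]
    have hi := card_ea hVE
    obtain ⟨i, hi⟩ := hi
    obtain ⟨j, hj⟩ := img_two_pow (V := V) (S.isPGroup'.to_le hB'S)
    obtain ⟨l, hl⟩ := card_ea (isEA_mono hVE (fix_le V B'))
    have hlow : 2 * (img V B' * Nat.card (fix V B')) ≤ Nat.card V := by
      have h0 := hnoOff
      rw [hi, hj, hl, ← pow_add] at h0 ⊢
      rw [← pow_succ']
      exact Nat.pow_le_pow_right two_pos ((Nat.pow_lt_pow_iff_right one_lt_two).mp h0)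
    have hup : Nat.card V ≤ 2 * (img V B' * Nat.card Z) := by
      rw [hB2, ← himg]
      exact Nat.mul_le_mul_left _ (Nat.mul_le_mul_left _ (hZw ▸ Subgroup.card_le_of_le hKB))
    have hZeq : fix V B' = Z := (Subgroup.eq_of_le_of_card_ge hZfix
      (Nat.le_of_mul_le_mul_left (Nat.le_of_mul_le_mul_left (hlow.trans hup) two_pos) (img_pos _ _))).symm
    have hKeq : centralizer (V : Set H) ⊓ B' = fix B' B := by
      refine Subgroup.eq_of_le_of_card_ge hKB ?_
      rw [hZw]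
      refine Nat.le_of_mul_le_mul_left (Nat.le_of_mul_le_mul_left ?_ two_pos) (img_pos V B')
      rw [himg, ← hB2]
      exact le_trans (by rw [hZeq]) hlow
    -- fixed points of `B'` in `B` centralize `V'`
    have hfixed : ∀ z ∈ fix B B', ∀ v ∈ V', v * z = z * v := by
      intro z hz v hv
      have e := fix_map (f := cw) (MulAut.conj w).injective B' B
      rw [hB'w, hBw] at e
      obtain ⟨z', hz', ez⟩ := e.le hz
      obtain ⟨v', hv', ev⟩ := hVw.ge hv
      rw [← ez, ← ev, ← map_mul, ← map_mul, mem_centralizer_iff.mp (hKeq.ge hz').1 v' hv']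
    have hback : ∀ t ∈ B', a' * a * t * (a' * a)⁻¹ = t → t ∈ V := by
      intro t ht hfix
      rw [hga, ← pow_two] at hfix
      have hxt : x * t * x⁻¹ = t := fix_of_sq_fix hm (by rw [hxm]; group) hfix
      obtain ⟨v, hv, e⟩ := (hB'R.le ht).1
      have : v = t := by
        have e' : x * v * x⁻¹ = t := e
        rw [← hxt] at e'
        exact mul_left_cancel (mul_right_cancel e')
      rw [← this]; exact hv
    have hpair : Pair V V' B B' a a' :=
      { eaV := hVE, eaV' := hV'E, leB := hBV, leB' := hB'R.le.trans inf_le_left, amem := ha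
        amem' := ⟨a, ha, rfl⟩, cover := hcover, comB := hcomB, comB' := hcomB', fixed := hfixed
        odd := hgodd, back := hback }
    have haa' : a'⁻¹ = a' := inv_eq_of_mul_eq_one_right (sq_of_EA hV'E ⟨a, ha, rfl⟩)
    have hswap : Pair V' V B' B a' a :=
      { eaV := hV'E, eaV' := hVE, leB := hB'R.le.trans inf_le_left, leB' := hBV, amem := ⟨a, ha, rfl⟩
        amem' := ha
        cover := fun v hv => by
          obtain ⟨u, hu, rfl⟩ := hVw.ge hv
          rcases hcover u hu with h | h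
          · left; exact hBw.le ⟨u, h, rfl⟩
          · right; rw [← haw, ← map_mul]; exact hBw.le ⟨_, h, rfl⟩
        comB := hcomB', comB' := hcomB
        fixed := fun z hz v hv => mem_centralizer_iff.mp (hKeq.ge hz).1 v hv
        odd := by
          obtain ⟨k, hk, e⟩ := hgodd
          refine ⟨k, hk, ?_⟩
          rw [show a * a' = (a' * a)⁻¹ by rw [mul_inv_rev, hai, haa'], inv_pow, e, inv_one]
        back := fun u hu hfix => by
          rw [show a * a' = (a' * a)⁻¹ by rw [mul_inv_rev, hai, haa']] at hfix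
          have h2 : a' * a * u * (a' * a)⁻¹ = u := by
            conv_lhs => rw [← hfix]
            group
          rw [hga, ← pow_two] at h2
          have hxu : x * u * x⁻¹ = u := fix_of_sq_fix hm (by rw [hxm]; group) h2
          exact ⟨u, hBV hu, hxu⟩ }
    refine hV.notBad B' hB'S (Or.inr ⟨hactT, hB'V, by rw [hZeq]; exact hup, ⟨B, hBV, hB2,
      fun v hv t ht => hcomB t ht v hv, fun v hv hvB t ht hc => mem_centralizer_iff.mpr fun u hu => ?_⟩,
      fun t ht htV => ?_⟩)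
    · rw [hZeq] at hc
      exact (hpair.regular hv hvB ht hc u hu).symm
    · rw [hZeq]
      refine hpair.four hswap hS4 ht (fun hall => htV (mem_centralizer_iff.mpr fun u hu => (hall u hu).symm)) haB ?_
        fun z hz v hv => comm_of_EA hVE hv (hBV (mem_fix.mp hz).1)
      intro h
      rw [← hBw] at h
      obtain ⟨b, hb, e⟩ := h
      rw [← haw] at e
      exact haB ((MulAut.conj w).injective e ▸ hb)

end Cfsg.Agent.PLocal.S4FreeChar
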