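/-
An elementary abelian group with a hyperplane normalizing the conjugates of `D` yields an offender on
`D` or the symmetric group of degree four.
-/
import Cfsg.Agent.PLocal.S4FreeChar.Bad

set_option linter.unusedSectionVars false
set_option linter.style.haveILetI false
set_option linter.unusedVariables false

namespace Cfsg.Agent.PLocal.S4FreeChar

open Subgroup Cfsg
open scoped commutatorElement

variable {Γ : Type*} [Group Γ] [Finite Γ]

/-- Counting orbits of an element of prime power order on a subgroup it normalizes. -/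
theorem card_modEq_fixed {G : Type*} [Group G] [Finite G] {p n : ℕ} (hp : p.Prime) {g : G}
    (hg : g ^ p ^ n = 1) {K : Subgroup G} (hn : g ∈ normalizer (K : Set G)) :
    Nat.card K ≡ Nat.card (K ⊓ centralizer ({g} : Set G) : Subgroup G) [MOD p] := by
  haveI : Fact p.Prime := ⟨hp⟩
  set N := normalizer (K : Set G)
  set Z := zpowers (⟨g, hn⟩ : N)
  letI : MulAction Z K := MulAction.compHom K ((K.normalizerMonoidHom).comp Z.subtype)
  have hZ : IsPGroup p Z := by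
    obtain ⟨j, -, hj⟩ := (Nat.dvd_prime_pow hp).mp
      (orderOf_dvd_of_pow_eq_one (show (⟨g, hn⟩ : N) ^ p ^ n = 1 from Subtype.ext hg))
    exact IsPGroup.of_card (n := j) (by rw [Nat.card_zpowers, hj])
  have hsmul : ∀ (z : Z) (v : K), ((z • v : K) : G) = ((z : N) : G) * v * ((z : N) : G)⁻¹ := fun _ _ => rfl
  refine (hZ.card_modEq_card_fixedPoints K).trans ?_
  refine congrArg (· % p) (Nat.card_congr ?_)
  refine
    { toFun := fun v => ⟨v.1.1, v.1.2, mem_centralizer_singleton_iff.mpr ?_⟩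
      invFun := fun v => ⟨⟨v.1, v.2.1⟩, fun z => Subtype.ext ?_⟩
      left_inv := fun v => rfl
      right_inv := fun v => rfl }
  · have h := congrArg Subtype.val (v.2 ⟨_, mem_zpowers (⟨g, hn⟩ : N)⟩)
    rw [hsmul] at h
    exact (mul_inv_eq_iff_eq_mul.mp h).symm
  · rw [hsmul]
    obtain ⟨k, hk⟩ := mem_zpowers_iff.mp z.2
    rw [← hk]
    show g ^ k * (v : G) * (g ^ k)⁻¹ = v
    rw [mul_inv_eq_iff_eq_mul]
    exact ((show Commute (v : G) g from mem_centralizer_singleton_iff.mp v.2.2).zpow_right k).symm.eq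

theorem inv_conj_eq {G : Type*} [Group G] {g v : G} (h : g * v * g⁻¹ = v) : g⁻¹ * v * g = v := by
  calc g⁻¹ * v * g = g⁻¹ * (g * v * g⁻¹) * g := by rw [h]
    _ = v := by group

/-- The conjugate of `D` by the `i`-th power of `x`. -/
abbrev conjPow (D : Subgroup Γ) (x : Γ) (i : ℕ) : Subgroup Γ :=
  D.map (MulAut.conj (x ^ i)).toMonoidHom

theorem mem_conjPow {D : Subgroup Γ} {x v : Γ} {i : ℕ} :
    v ∈ conjPow D x i ↔ (x ^ i)⁻¹ * v * x ^ i ∈ D := Coprime.map_conj_mem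

/-- The hypotheses. -/
structure CoreHyp (V D A₀ : Subgroup Γ) (a x : Γ) : Prop where
  dih : Dih V a x
  act : ActEA V (A₀ ⊔ zpowers a)
  p2 : IsPGroup 2 A₀
  DC : D ≤ fix V (A₀ ⊔ zpowers a)
  normD : ∀ i : ℕ, A₀ ≤ normalizer (conjPow D x i : Set Γ)
  card : Nat.card V = 2 * img V A₀ * Nat.card (fix V (A₀ ⊔ zpowers a))
  move : x ∉ normalizer (D : Set Γ)
  cover : ∀ i : ℕ, x ^ i ∉ normalizer (D : Set Γ) → V ≤ conjPow D x i ⊔ fix V (A₀ ⊔ zpowers a)

/-- Automorphisms stabilizing the series `1 ≤ F ≤ V`. -/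
def stabSeries {V : Type*} [CommGroup V] (F : Subgroup V) : Subgroup (MulAut V) where
  carrier := {f | (∀ v ∈ F, f v = v) ∧ ∀ v, f v * v⁻¹ ∈ F}
  one_mem' := ⟨fun _ _ => rfl, fun v => by simp⟩
  mul_mem' := by
    rintro f g ⟨f1, f2⟩ ⟨g1, g2⟩
    refine ⟨fun v hv => by rw [MulAut.mul_apply, g1 v hv, f1 v hv], fun v => ?_⟩
    rw [MulAut.mul_apply, show f (g v) * v⁻¹ = f (g v) * (g v)⁻¹ * (g v * v⁻¹) by group]
    exact mul_mem (f2 _) (g2 v)
  inv_mem' := by
    rintro f ⟨f1, f2⟩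
    have hinv : ∀ v, f⁻¹ v = f.symm v := fun v => rfl
    refine ⟨fun v hv => ?_, fun v => ?_⟩
    · rw [hinv, MulEquiv.symm_apply_eq, f1 v hv]
    · have h := inv_mem (f2 (f.symm v))
      rwa [MulEquiv.apply_symm_apply, mul_inv_rev, inv_inv] at h

theorem stabSeries_comm {V : Type*} [CommGroup V] {F : Subgroup V} {f g : MulAut V}
    (hf : f ∈ stabSeries F) (hg : g ∈ stabSeries F) : f * g = g * f := by
  refine MulEquiv.ext fun v => ?_
  rw [MulAut.mul_apply, MulAut.mul_apply]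
  have e1 : g v = g v * v⁻¹ * v := (inv_mul_cancel_right _ _).symm
  have e2 : f v = f v * v⁻¹ * v := (inv_mul_cancel_right _ _).symm
  conv_lhs => rw [e1, map_mul, hf.1 _ (hg.2 v), e2]
  conv_rhs => rw [e2, map_mul, hg.1 _ (hf.2 v), e1]
  exact mul_left_comm _ _ _

theorem stabSeries_sq {V : Type*} [CommGroup V] {F : Subgroup V} (hV : ∀ v : V, v * v = 1) {f : MulAut V}
    (hf : f ∈ stabSeries F) : f * f = 1 := by
  refine MulEquiv.ext fun v => ?_
  rw [MulAut.mul_apply, MulAut.one_apply]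
  have e2 : f v = f v * v⁻¹ * v := (inv_mul_cancel_right _ _).symm
  have e := congrArg f e2
  rw [map_mul, hf.1 _ (hf.2 v)] at e
  rw [e, mul_right_comm, hV, one_mul, inv_eq_of_mul_eq_one_right (hV v)]

variable {V D A₀ : Subgroup Γ} {a x : Γ}

set_option maxHeartbeats 1600000 in
/-- Either the symmetric group of degree four is involved or some subgroup of the conjugates of the
hyperplane is an offender on `D`. -/

theorem CoreHyp.main (h : CoreHyp V D A₀ a x) :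
    Involves (Equiv.Perm (Fin 4)) Γ ∨
      ∃ P : Subgroup Γ, P ≤ (⨆ i : ℕ, conjPow A₀ x i) ∧ IsOff D P := by
  classical
  haveI : Fact (Nat.Prime 2) := ⟨Nat.prime_two⟩
  obtain ⟨p, n, hp, hp2, hxp⟩ := h.dih.pow
  set m := p ^ n with hm
  have hodd : Odd m := odd_prime_pow hp hp2 n
  have hV := h.dih.ea
  have hxn := h.dih.xn
  set C := fix V (A₀ ⊔ zpowers a) with hC
  set s := img V A₀ with hs
  have haC : ∀ c ∈ C, a * c * a⁻¹ = c := fun c hc =>
    (mem_fix.mp hc).2 a (mem_sup_right (mem_zpowers a))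
  have hDV : D ≤ V := h.DC.trans (fix_le _ _)
  have hxVi : ∀ (k : ℕ) {v : Γ}, v ∈ V → (x ^ k)⁻¹ * v * x ^ k ∈ V := fun k v hv => by
    simpa only [inv_inv] using conj_mem_of_norm (inv_mem (pow_mem hxn k)) hv
  have hsqnot : x ^ 2 ∉ normalizer (D : Set Γ) := by
    intro h2
    obtain ⟨k, hk⟩ := hodd
    refine h.move ?_
    have e : x = (x ^ 2) ^ (k + 1) := by
      rw [← pow_mul, show 2 * (k + 1) = m + 1 by omega, pow_succ, hxp, one_mul]
    rw [e]; exact pow_mem h2 _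
  set C₁ := conjPow C x 1 with hC₁
  set F := C ⊓ C₁ with hF
  have hC₁V : C₁ ≤ V := by
    rintro _ ⟨c, hc, rfl⟩
    exact conj_mem_of_norm (pow_mem hxn 1) hc.1
  have hcov : V = C ⊔ C₁ := by
    refine le_antisymm ((h.cover 1 (by rw [pow_one]; exact h.move)).trans ?_) (sup_le (fix_le _ _) hC₁V)
    exact sup_le ((Subgroup.map_mono h.DC).trans le_sup_right) le_sup_left
  have hxF : ∀ f ∈ F, x * f * x⁻¹ = f := by
    rintro f ⟨hf, hf₁⟩
    refine h.dih.fix_of_fix_pair hf.1 (haC f hf) ?_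
    have h1 := mem_conjPow.mp hf₁
    rw [pow_one] at h1
    exact haC _ h1
  have hVC : Nat.card V * Nat.card F = Nat.card C * Nat.card C := by
    have e := card_sup_mul_card_inf (le_normalizer_in hV (fix_le _ _) hC₁V : C ≤ normalizer (C₁ : Set Γ))
    rw [← hcov] at e
    rw [e, hC₁, conjPow, Coprime.card_map_conj]
  set G₀ := V ⊓ centralizer ({a} : Set Γ) with hG₀
  have hCG : C ≤ G₀ := fun c hc =>
    ⟨hc.1, mem_centralizer_singleton_iff.mpr (mul_inv_eq_iff_eq_mul.mp (haC c hc)).symm⟩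
  have haG : ∀ g ∈ G₀, a * g * a⁻¹ = g := fun g hg =>
    mul_inv_eq_iff_eq_mul.mpr (mem_centralizer_singleton_iff.mp hg.2).symm
  have hG₀C : G₀ = C := by
    set G₁ := conjPow G₀ x 1
    have hG₁V : G₁ ≤ V := by
      rintro _ ⟨g, hg, rfl⟩
      exact conj_mem_of_norm (pow_mem hxn 1) hg.1
    have hCF₀ : C ⊓ (G₀ ⊓ G₁) ≤ F := by
      rintro v ⟨hvC, hvG, hvG₁⟩
      refine ⟨hvC, ?_⟩
      have h1 := mem_conjPow.mp hvG₁
      rw [pow_one] at h1
      have hxv := h.dih.fix_of_fix_pair hvC.1 (haG v hvG) (haG _ h1)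
      have hxv' : x⁻¹ * v * x = v := inv_conj_eq hxv
      refine mem_conjPow.mpr ?_
      rw [pow_one, hxv']
      exact hvC
    have e1 := card_sup_mul_card_inf (le_normalizer_in hV (fix_le _ _) (inf_le_left.trans inf_le_left) :
      C ≤ normalizer ((G₀ ⊓ G₁ : Subgroup Γ) : Set Γ))
    have e2 := card_sup_mul_card_inf (le_normalizer_in hV inf_le_left hG₁V : G₀ ≤ normalizer (G₁ : Set Γ))
    have e3 : Nat.card G₁ = Nat.card G₀ := Coprime.card_map_conj _ _
    have h1 : Nat.card C * Nat.card (G₀ ⊓ G₁ : Subgroup Γ) ≤ Nat.card G₀ * Nat.card F := by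
      rw [← e1]
      exact Nat.mul_le_mul (Subgroup.card_le_of_le (sup_le hCG inf_le_left)) (Subgroup.card_le_of_le hCF₀)
    have h2 : Nat.card G₀ * Nat.card G₀ ≤ Nat.card V * Nat.card (G₀ ⊓ G₁ : Subgroup Γ) := by
      calc Nat.card G₀ * Nat.card G₀ = Nat.card (G₀ ⊔ G₁ : Subgroup Γ) * Nat.card (G₀ ⊓ G₁ : Subgroup Γ) := by
            rw [e2, e3]
        _ ≤ _ := Nat.mul_le_mul_right _ (Subgroup.card_le_of_le (sup_le inf_le_left hG₁V))
    refine (Subgroup.eq_of_le_of_card_ge hCG ?_).symm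
    refine Nat.le_of_mul_le_mul_right ?_ (Nat.mul_pos (Nat.card_pos (α := C)) (Nat.card_pos (α := G₀)))
    calc Nat.card G₀ * (Nat.card C * Nat.card G₀) = Nat.card C * (Nat.card G₀ * Nat.card G₀) := by ring
      _ ≤ Nat.card C * (Nat.card V * Nat.card (G₀ ⊓ G₁ : Subgroup Γ)) := Nat.mul_le_mul_left _ h2
      _ = Nat.card V * (Nat.card C * Nat.card (G₀ ⊓ G₁ : Subgroup Γ)) := by ring
      _ ≤ Nat.card V * (Nat.card G₀ * Nat.card F) := Nat.mul_le_mul_left _ h1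
      _ = Nat.card V * Nat.card F * Nat.card G₀ := by ring
      _ = Nat.card C * (Nat.card C * Nat.card G₀) := by rw [hVC]; ring
  -- displacements of `a` meeting `F` are trivial
  have hdisp : ∀ v ∈ V, a * v * a⁻¹ * v⁻¹ ∈ F → a * v * a⁻¹ = v := by
    intro v hv hw
    obtain ⟨c, hc, c', hc', rfl⟩ := Coprime.exists_mul_of_mem_sup
      (le_normalizer_in hV hC₁V (fix_le _ _)) (hcov.le hv)
    obtain ⟨w, ew⟩ : ∃ w, a * (c * c') * a⁻¹ * (c * c')⁻¹ = w := ⟨_, rfl⟩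
    rw [ew] at hw
    have hwV : w ∈ V := hw.1.1
    have hc'V : c' ∈ V := hC₁V hc'
    have e1 : a * c' * a⁻¹ = w * c' := by
      rw [← ew, show a * (c * c') * a⁻¹ = a * c * a⁻¹ * (a * c' * a⁻¹) by group, haC c hc]
      rw [show c * (a * c' * a⁻¹) = a * c' * a⁻¹ * c from comm_of_EA hV hc.1 (conj_mem_of_norm h.dih.an hc'V)]
      rw [show c * c' = c' * c from comm_of_EA hV hc.1 hc'V]
      group
    have hxc : a * (x⁻¹ * c' * x) * a⁻¹ = x⁻¹ * c' * x := by
      have h1 := mem_conjPow.mp hc'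
      rw [pow_one] at h1
      exact haC _ h1

    have h2 : x ^ 2 * c' * (x ^ 2)⁻¹ = w * c' := by
      have hu : x⁻¹ * c' * x ∈ V := by simpa only [pow_one] using hxVi 1 hc'V
      have e := h.dih.a_x hu
      rw [show x * (x⁻¹ * c' * x) * x⁻¹ = c' by group, hxc, e1] at e
      have e' := congrArg (fun t => x * (x * t * x⁻¹) * x⁻¹) e

      rw [show x * (x * (x⁻¹ * (x⁻¹ * c' * x) * x) * x⁻¹) * x⁻¹ = c' by group] at e'
      have hxw : x * w * x⁻¹ = w := hxF w hw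
      rw [show x * (x * (w * c') * x⁻¹) * x⁻¹ =
        x * (x * w * x⁻¹) * x⁻¹ * (x ^ 2 * c' * (x ^ 2)⁻¹) by rw [pow_two]; group, hxw, hxw] at e'
      rw [eq_inv_mul_of_mul_eq e', inv_of_EA hV hwV]
    have hw1 : w = 1 := eq_one_of_translate hodd
      (by rw [← pow_mul, mul_comm, pow_mul, hxp, one_pow, inv_one, mul_one, one_mul]) h2
      (by rw [show x ^ 2 * w * (x ^ 2)⁻¹ = x * (x * w * x⁻¹) * x⁻¹ by rw [pow_two]; group, hxF w hw, hxF w hw])
      (sq_of_EA hV hwV)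
    rw [hw1] at ew
    exact mul_inv_eq_one.mp ew
  -- fixed points of `x`
  have hZF : V ⊓ centralizer ({x} : Set Γ) = F := by
    refine le_antisymm ?_ fun f hf =>
      ⟨hf.1.1, mem_centralizer_singleton_iff.mpr (mul_inv_eq_iff_eq_mul.mp (hxF f hf)).symm⟩
    rintro v ⟨hv, hvx⟩
    have hxv : x * v * x⁻¹ = v := mul_inv_eq_iff_eq_mul.mpr (mem_centralizer_singleton_iff.mp hvx).symm
    have hav := conj_mem_of_norm h.dih.an hv
    obtain ⟨w, ew⟩ : ∃ w, a * v * a⁻¹ * v⁻¹ = w := ⟨_, rfl⟩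
    have hxa : x * (a * v * a⁻¹) * x⁻¹ = a * v * a⁻¹ := by
      have e := h.dih.a_x hv
      rw [hxv] at e
      calc x * (a * v * a⁻¹) * x⁻¹ = x * (x⁻¹ * (a * v * a⁻¹) * x) * x⁻¹ := by rw [← e]
        _ = _ := by group
    have hwV : w ∈ V := ew ▸ mul_mem hav (inv_mem hv)
    have hwG : w ∈ G₀ := by
      refine ⟨hwV, mem_centralizer_singleton_iff.mpr (mul_inv_eq_iff_eq_mul.mp ?_).symm⟩
      rw [← ew, inv_of_EA hV hv, show a * (a * v * a⁻¹ * v) * a⁻¹ = a * (a * v * a⁻¹) * a⁻¹ * (a * v * a⁻¹) by group,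
        h.dih.a_sq hv, comm_of_EA hV hv hav]
    have hwx : x * w * x⁻¹ = w := by
      rw [← ew, show x * (a * v * a⁻¹ * v⁻¹) * x⁻¹ = x * (a * v * a⁻¹) * x⁻¹ * (x * v * x⁻¹)⁻¹ by group, hxa, hxv]
    have hwF : w ∈ F := by
      refine ⟨hG₀C ▸ hwG, mem_conjPow.mpr ?_⟩
      rw [pow_one, inv_conj_eq hwx]
      exact hG₀C ▸ hwG
    have hvC : v ∈ C := hG₀C ▸ (⟨hv, mem_centralizer_singleton_iff.mpr
      (mul_inv_eq_iff_eq_mul.mp (hdisp v hv (ew ▸ hwF))).symm⟩ : v ∈ G₀)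
    refine ⟨hvC, mem_conjPow.mpr ?_⟩
    rw [pow_one, inv_conj_eq hxv]
    exact hvC
  -- the hyperplane moves `V` into `F`
  have hA₀F : ∀ b ∈ A₀, ∀ v ∈ V, b * v * b⁻¹ * v⁻¹ ∈ F := by
    intro b hb v hv
    have hmem : ∀ i : ℕ, x ^ i ∉ normalizer (D : Set Γ) → b * v * b⁻¹ * v⁻¹ ∈ conjPow D x i := by
      intro i hi
      obtain ⟨c, hc, d, hd, rfl⟩ := Coprime.exists_mul_of_mem_sup (le_normalizer_in hV
        (show conjPow D x i ≤ V from fun y hy => by
          obtain ⟨d, hd, rfl⟩ := hy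
          exact conj_mem_of_norm (pow_mem hxn i) (hDV hd)) (fix_le _ _))
        (sup_comm (conjPow D x i) C ▸ h.cover i hi hv)
      have hbc : b * c * b⁻¹ = c := (mem_fix.mp hc).2 b (mem_sup_left hb)
      rw [show b * (c * d) * b⁻¹ * (c * d)⁻¹ = b * c * b⁻¹ * (b * d * b⁻¹ * d⁻¹) * c⁻¹ by group, hbc]
      have hd' : b * d * b⁻¹ * d⁻¹ ∈ conjPow D x i :=
        mul_mem (conj_mem_of_norm (h.normD i hb) hd) (inv_mem hd)
      have hdV : b * d * b⁻¹ * d⁻¹ ∈ V := by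
        obtain ⟨e, he, e'⟩ := hd'
        rw [← e']; exact conj_mem_of_norm (pow_mem hxn i) (hDV he)
      rwa [comm_of_EA hV hc.1 hdV, mul_inv_cancel_right]
    obtain ⟨z, ez⟩ : ∃ z, b * v * b⁻¹ * v⁻¹ = z := ⟨_, rfl⟩
    have h1 := hmem 1 (by rw [pow_one]; exact h.move)
    have h2 := hmem 2 hsqnot
    rw [ez] at h1 h2 ⊢
    rw [mem_conjPow, pow_one] at h1
    rw [mem_conjPow] at h2
    have hzC := h.DC h1
    have hzC2 := h.DC h2
    have hxz : x * (x⁻¹ * z * x) * x⁻¹ = x⁻¹ * z * x := by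
      refine h.dih.fix_of_fix_pair (hDV h1) (haC _ hzC) ?_
      rw [show x⁻¹ * (x⁻¹ * z * x) * x = (x ^ 2)⁻¹ * z * x ^ 2 by rw [pow_two]; group]

      exact haC _ hzC2
    rw [show x * (x⁻¹ * z * x) * x⁻¹ = z by group] at hxz
    refine ⟨hxz ▸ hzC, mem_conjPow.mpr ?_⟩
    rw [pow_one]; exact hzC
  -- orders
  have hCF : Nat.card C = 2 * s * Nat.card F := by
    refine Nat.eq_of_mul_eq_mul_left (Nat.card_pos (α := C)) ?_
    rw [← hVC, h.card]; ring
  have hVF : Nat.card V = 4 * s * s * Nat.card F := by rw [h.card, hCF]; ring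
  obtain ⟨fi, hfi⟩ := card_ea (isEA_mono hV (inf_le_left.trans (fix_le _ _)) : IsElementaryAbelian 2 F)
  have hcopF : Nat.Coprime p (Nat.card F) := by
    rw [hfi]; exact ((Nat.coprime_primes hp Nat.prime_two).mpr hp2).pow_right fi
  have hmod : 4 * s * s ≡ 1 [MOD p] := by
    have e := card_modEq_fixed hp hxp hxn
    rw [hZF, hVF] at e
    exact Nat.ModEq.cancel_right_of_coprime (c := Nat.card F) hcopF (by rwa [one_mul])
  -- pass to the automorphism group of `V`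
  haveI := hV.1
  letI : CommGroup V := { (inferInstance : Group V) with mul_comm := fun u v => Subtype.ext (comm_of_EA hV u.2 v.2) }
  set N := normalizer (V : Set Γ) with hN
  set ρ : N →* MulAut V := V.normalizerMonoidHom with hρ
  have hρv : ∀ (g : N) (v : V), ((ρ g v : V) : Γ) = g * v * (g : Γ)⁻¹ := fun g v => rfl
  have hker : ρ.ker = (centralizer (V : Set Γ)).subgroupOf N := Subgroup.normalizerMonoidHom_ker V
  have himgρ : ∀ P : Subgroup Γ, P ≤ N → img V P = Nat.card ((P.subgroupOf N).map ρ) := fun P hP => by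
    rw [← Subgroup.relIndex_ker, hker, img, Subgroup.relIndex_subgroupOf hP]
  have hA₀N : A₀ ≤ N := le_sup_left.trans h.act.norm
  set αa := ρ ⟨a, h.dih.an⟩ with hαa
  set ξ := ρ ⟨x, hxn⟩ with hξ
  have hξk : ∀ k : ℕ, ρ ⟨x ^ k, pow_mem hxn k⟩ = ξ ^ k := fun k => by
    rw [hξ, ← map_pow]; rfl
  have hξm : ξ ^ m = 1 := by
    rw [← hξk, ← map_one ρ]; exact congrArg ρ (Subtype.ext hxp)
  set R := (⨆ i : ℕ, conjPow A₀ x i) with hR
  have hRN : R ≤ N := iSup_le fun i => by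
    rintro _ ⟨b, hb, rfl⟩
    exact mul_mem (mul_mem (pow_mem hxn i) (hA₀N hb)) (inv_mem (pow_mem hxn i))
  set Rh := (R.subgroupOf N).map ρ with hRh
  set FV := F.subgroupOf V
  have hFdef : ∀ v : V, v ∈ FV ↔ (v : Γ) ∈ F := fun v => Iff.rfl
  have hgen : Rh = closure {f | ∃ b : N, (b : Γ) ∈ A₀ ∧ ∃ i : ℕ, ξ ^ i * ρ b * (ξ ^ i)⁻¹ = f} := by
    refine le_antisymm ?_ ((closure_le _).mpr ?_)
    · rw [hRh, Subgroup.map_le_iff_le_comap]
      intro g hg
      have key : R ≤ ((closure {f | ∃ b : N, (b : Γ) ∈ A₀ ∧ ∃ i : ℕ, ξ ^ i * ρ b * (ξ ^ i)⁻¹ = f}).comap ρ).map N.subtype := by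
        refine iSup_le fun i => ?_
        rintro _ ⟨b, hb, rfl⟩
        refine ⟨⟨x ^ i, pow_mem hxn i⟩ * ⟨b, hA₀N hb⟩ * ⟨x ^ i, pow_mem hxn i⟩⁻¹, ?_, rfl⟩
        rw [SetLike.mem_coe, Subgroup.mem_comap, map_mul, map_mul, map_inv, hξk]
        exact subset_closure ⟨⟨b, hA₀N hb⟩, hb, i, rfl⟩
      obtain ⟨g', hg', e⟩ := key hg
      rwa [show g = g' from Subtype.ext e.symm]
    · rintro _ ⟨b, hb, i, rfl⟩
      refine ⟨⟨x ^ i, pow_mem hxn i⟩ * b * ⟨x ^ i, pow_mem hxn i⟩⁻¹, ?_, by rw [map_mul, map_mul, map_inv, hξk]⟩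
      exact mem_iSup_of_mem i ⟨b, hb, rfl⟩
  have hξv : ∀ (k : ℕ) (v : V), ((ξ ^ k) v : Γ) = x ^ k * v * (x ^ k)⁻¹ := fun k v => by
    rw [← hξk, hρv]
  have hξF : ∀ (k : ℕ) (v : V), (v : Γ) ∈ F → (ξ ^ k) v = v := by
    intro k v hv
    induction k with
    | zero => rfl
    | succ k ih =>
      rw [pow_succ', MulAut.mul_apply, ih]
      exact Subtype.ext (hxF _ hv)
  have hstab : Rh ≤ stabSeries FV := by
    rw [hgen, closure_le]
    rintro _ ⟨b, hb, i, rfl⟩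
    have hbF : ∀ v : V, (v : Γ) ∈ F → ρ b v = v := fun v hv =>
      Subtype.ext ((mem_fix.mp hv.1).2 _ (mem_sup_left hb))
    refine ⟨fun v hv => ?_, fun v => ?_⟩
    · rw [MulAut.mul_apply, MulAut.mul_apply, show (ξ ^ i)⁻¹ v = v from
        (MulEquiv.symm_apply_eq _).mpr (hξF i v hv).symm, hbF v hv, hξF i v hv]
    · rw [MulAut.mul_apply, MulAut.mul_apply]
      obtain ⟨u, hu⟩ : ∃ u, (ξ ^ i)⁻¹ v = u := ⟨_, rfl⟩
      have hu' : (ξ ^ i) u = v := by rw [← hu]; exact MulEquiv.apply_symm_apply _ v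
      rw [hu, ← hu']
      have hF' : (ρ b u * u⁻¹ : V) ∈ FV := hA₀F _ hb _ u.2
      have hm' : (ρ b u * u⁻¹ : V) ∈ FV := hF'
      have e3 : (ξ ^ i) (ρ b u) * ((ξ ^ i) u)⁻¹ = ρ b u * u⁻¹ := by
        rw [← map_inv, ← map_mul]; exact hξF i _ hm'
      rw [e3]
      exact hm'
  have hRc : ∀ f ∈ Rh, ∀ g ∈ Rh, f * g = g * f := fun f hf g hg => stabSeries_comm (hstab hf) (hstab hg)
  have hVsq : ∀ v : V, v * v = 1 := fun v => Subtype.ext (sq_of_EA hV v.2)
  have hRsq : ∀ f ∈ Rh, f * f = 1 := fun f hf => stabSeries_sq hVsq (hstab hf)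
  have hREA : IsElementaryAbelian 2 Rh :=
    ⟨⟨⟨fun f g => Subtype.ext (hRc f f.2 g g.2)⟩⟩, fun f hf => by rw [pow_two]; exact hRsq f hf⟩
  have hαinv : αa⁻¹ = αa := by
    refine inv_eq_of_mul_eq_one_right (MulEquiv.ext fun v => Subtype.ext ?_)
    rw [MulAut.mul_apply, hρv, hρv]
    exact h.dih.a_sq v.2
  have hαξ : ∀ k : ℕ, αa * ξ ^ k * αa⁻¹ = (ξ ^ k)⁻¹ := by
    intro k
    refine eq_inv_of_mul_eq_one_left ?_
    rw [← hξk, ← map_inv, ← map_mul, ← map_mul, ← map_mul, ← MonoidHom.mem_ker, hker]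
    exact h.dih.inv_pow k
  have hαb : ∀ b : N, (b : Γ) ∈ A₀ → αa * ρ b * αa⁻¹ = ρ b := by
    intro b hb
    rw [mul_inv_eq_iff_eq_mul]
    refine MulEquiv.ext fun v => Subtype.ext ?_
    rw [MulAut.mul_apply, MulAut.mul_apply, hρv, hρv, hρv, hρv]
    exact h.act.comm a (mem_sup_right (mem_zpowers a)) _ (mem_sup_left hb) _ v.2
  have hξR : ξ ∈ normalizer (Rh : Set (MulAut V)) := by
    refine Coprime.mem_normalizer_of_conj_mem fun f hf => ?_
    have : Rh ≤ Rh.comap (MulAut.conj ξ).toMonoidHom := by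
      nth_rewrite 1 [hgen]
      rw [closure_le]
      rintro _ ⟨b, hb, i, rfl⟩
      show ξ * (ξ ^ i * ρ b * (ξ ^ i)⁻¹) * ξ⁻¹ ∈ Rh
      rw [hgen, show ξ * (ξ ^ i * ρ b * (ξ ^ i)⁻¹) * ξ⁻¹ = ξ ^ (i + 1) * ρ b * (ξ ^ (i + 1))⁻¹ by group]
      exact subset_closure ⟨b, hb, i + 1, rfl⟩
    exact this hf
  have hαR : αa ∈ normalizer (Rh : Set (MulAut V)) := by
    refine Coprime.mem_normalizer_of_conj_mem fun f hf => ?_
    have : Rh ≤ Rh.comap (MulAut.conj αa).toMonoidHom := by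
      nth_rewrite 1 [hgen]
      rw [closure_le]
      rintro _ ⟨b, hb, i, rfl⟩
      show αa * (ξ ^ i * ρ b * (ξ ^ i)⁻¹) * αa⁻¹ ∈ Rh
      rw [show αa * (ξ ^ i * ρ b * (ξ ^ i)⁻¹) * αa⁻¹ =
        αa * ξ ^ i * αa⁻¹ * (αa * ρ b * αa⁻¹) * (αa * ξ ^ i * αa⁻¹)⁻¹ by group, hαξ, hαb b hb, hgen]
      obtain ⟨j, hj⟩ : ∃ j : ℕ, ξ ^ j = (ξ ^ i)⁻¹ := ⟨i * (m - 1), eq_inv_of_mul_eq_one_left (by
        rw [← pow_add, show i * (m - 1) + i = m * i by
          obtain ⟨k, hk⟩ := hodd; rw [hk, Nat.add_sub_cancel]; ring, pow_mul, hξm, one_pow])⟩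
      exact subset_closure ⟨b, hb, j, by rw [hj]⟩
    exact this hf
  have hξ2 : ∀ g : MulAut V, g ^ m = 1 → ∀ f, g ^ 2 * f * (g ^ 2)⁻¹ = f → g * f * g⁻¹ = f :=
    fun g hg f hf => fix_of_sq_fix hodd (by rw [hg]; group) hf
  -- the displacements of `x` cover `V` modulo `F`
  have hfixx : Rh ⊓ centralizer ({ξ} : Set (MulAut V)) = ⊥ := by
    rw [eq_bot_iff]
    rintro f ⟨hf, hfξ⟩
    rw [Subgroup.mem_bot]
    have hcom : f * ξ = ξ * f := mem_centralizer_singleton_iff.mp hfξ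
    obtain ⟨hf1, hf2⟩ := hstab hf
    let τ : V →* V := ξ.toMonoidHom * (MonoidHom.id V)⁻¹
    have hτ : ∀ v, τ v = ξ v * v⁻¹ := fun v => rfl
    have hfτ : ∀ v, f (τ v) = τ v := by
      intro v
      rw [hτ, map_mul, map_inv, ← MulAut.mul_apply, hcom, MulAut.mul_apply]
      have e : ξ (f v * v⁻¹) = f v * v⁻¹ := by
        have := hξF 1 (f v * v⁻¹) (hf2 v)

        rwa [pow_one] at this
      rw [map_mul, map_inv] at e
      rw [mul_inv_eq_iff_eq_mul.mp e, mul_right_comm, mul_comm (f v) v⁻¹, mul_inv_cancel_right, mul_comm]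
    have hker' : τ.ker = FV := by
      ext v
      rw [MonoidHom.mem_ker, hτ, mul_inv_eq_one, hFdef, ← hZF, Subgroup.mem_inf,
        mem_centralizer_singleton_iff, Subtype.ext_iff, hξ, hρv]
      exact ⟨fun e => ⟨v.2, (mul_inv_eq_iff_eq_mul.mp e).symm⟩, fun e => mul_inv_eq_iff_eq_mul.mpr e.2.symm⟩
    have hint : τ.range ⊓ FV = ⊥ := by
      rw [eq_bot_iff]
      rintro _ ⟨⟨v, rfl⟩, hv⟩
      rw [Subgroup.mem_bot]
      refine Subtype.ext (eq_one_of_translate (v := (v : Γ)) hodd (by rw [hxp]; group) ?_ (hxF _ hv)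
        (sq_of_EA hV (τ v).2))
      show x * (v : Γ) * x⁻¹ = ((τ v : V) : Γ) * v
      rw [hτ]
      show _ = ((ξ v : V) : Γ) * (v : Γ)⁻¹ * v
      rw [inv_mul_cancel_right, hρv]
    have htop : τ.range ⊔ FV = ⊤ := by
      refine Subgroup.eq_top_of_le_card _ ?_
      have e := card_sup_mul_card_inf (A := τ.range) (B := FV) (by
        rw [Subgroup.normalizer_eq_top]; exact le_top)
      rw [hint, Subgroup.card_bot, mul_one] at e
      rw [e, ← hker', ← Subgroup.card_mul_index τ.ker, Subgroup.index_ker, mul_comm]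
    refine MulEquiv.ext fun v => ?_
    have hv : v ∈ τ.range ⊔ FV := htop ▸ Subgroup.mem_top v
    rw [Subgroup.mem_sup] at hv
    obtain ⟨_, ⟨u, rfl⟩, w, hw, rfl⟩ := hv
    rw [map_mul, hfτ, hf1 w hw, MulAut.one_apply]
  -- the centralizer of `a` in the stabilizer
  set Ph := Rh ⊓ centralizer ({αa} : Set (MulAut V)) with hPh
  set Ph₁ := Ph.map (MulAut.conj ξ).toMonoidHom with hPh₁
  have hPh₁le : Ph₁ ≤ Rh := by
    rintro _ ⟨f, hf, rfl⟩
    exact conj_mem_of_norm hξR hf.1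
  have hdis : Ph ⊓ Ph₁ = ⊥ := by
    rw [eq_bot_iff, ← hfixx]
    rintro f ⟨⟨hfR, hfa⟩, hf1⟩
    refine ⟨hfR, mem_centralizer_singleton_iff.mpr ?_⟩
    replace hf1 := Coprime.map_conj_mem.mp hf1
    have c1 : Commute f αa := mem_centralizer_singleton_iff.mp hfa
    have c2 : Commute f (ξ * αa * ξ⁻¹) := by
      have c := (show Commute (ξ⁻¹ * f * ξ) αa from mem_centralizer_singleton_iff.mp hf1.2).map
        (MulAut.conj ξ).toMonoidHom
      simpa [mul_assoc] using c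
    have c3 : Commute f (ξ ^ 2) := by
      have e : ξ ^ 2 = ξ * αa * ξ⁻¹ * αa⁻¹ := by
        have := hαξ 1
        rw [pow_one] at this
        rw [show ξ * αa * ξ⁻¹ * αa⁻¹ = ξ * (αa * ξ * αa⁻¹)⁻¹ by group, this, inv_inv, pow_two]
      rw [e]; exact c2.mul_right c1.inv_right
    exact (mul_inv_eq_iff_eq_mul.mp (hξ2 ξ hξm f (mul_inv_eq_iff_eq_mul.mpr c3.eq.symm))).symm
  have hRP : Nat.card Rh = Nat.card Ph * Nat.card Ph := by
    have e := card_sup_mul_card_inf (le_normalizer_in hREA inf_le_left hPh₁le : Ph ≤ normalizer (Ph₁ : Set (MulAut V)))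
    rw [hdis, Subgroup.card_bot, mul_one, hPh₁, Coprime.card_map_conj] at e
    refine le_antisymm ?_ (e ▸ Subgroup.card_le_of_le (sup_le inf_le_left hPh₁le))
    let θ : Rh →* MulAut V :=
      { toFun := fun r => αa * r * αa⁻¹ * (r : MulAut V)⁻¹
        map_one' := by simp
        map_mul' := fun r r' => by
          have hA : αa * (r' : MulAut V) * αa⁻¹ ∈ Rh := conj_mem_of_norm hαR r'.2
          show αa * ((r : MulAut V) * r') * αa⁻¹ * ((r : MulAut V) * r')⁻¹ = _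
          have e1 : (r : MulAut V)⁻¹ * (αa * r' * αa⁻¹ * (r' : MulAut V)⁻¹) =
              αa * r' * αa⁻¹ * (r' : MulAut V)⁻¹ * (r : MulAut V)⁻¹ :=
            hRc _ (inv_mem r.2) _ (mul_mem hA (inv_mem r'.2))
          calc _ = αa * r * αa⁻¹ * (αa * r' * αa⁻¹ * (r' : MulAut V)⁻¹ * (r : MulAut V)⁻¹) := by group
            _ = αa * r * αa⁻¹ * ((r : MulAut V)⁻¹ * (αa * r' * αa⁻¹ * (r' : MulAut V)⁻¹)) := by rw [e1]
            _ = _ := by group }
    have hrange : θ.range ≤ Ph := by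
      rintro _ ⟨r, rfl⟩
      have hA : αa * (r : MulAut V) * αa⁻¹ ∈ Rh := conj_mem_of_norm hαR r.2
      refine ⟨Rh.mul_mem hA (Rh.inv_mem r.2), mem_centralizer_singleton_iff.mpr (mul_inv_eq_iff_eq_mul.mp ?_).symm⟩
      show αa * (αa * r * αa⁻¹ * (r : MulAut V)⁻¹) * αa⁻¹ = αa * r * αa⁻¹ * (r : MulAut V)⁻¹
      have ha2 : αa * αa = 1 := by rw [← mul_inv_cancel αa, hαinv]
      have hri : (r : MulAut V)⁻¹ = r := inv_eq_of_mul_eq_one_right (hRsq _ r.2)
      rw [hri, show αa * (αa * r * αa⁻¹ * (r : MulAut V)) * αa⁻¹ =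
        αa * αa * r * (αa * αa)⁻¹ * (αa * r * αa⁻¹) by group, ha2, inv_one, mul_one, one_mul]
      exact hRc _ r.2 _ hA
    have hker' : θ.ker.map Rh.subtype ≤ Ph := by
      rintro _ ⟨r, hr, rfl⟩
      refine ⟨r.2, mem_centralizer_singleton_iff.mpr (mul_inv_eq_iff_eq_mul.mp ?_).symm⟩
      exact mul_inv_eq_one.mp hr
    rw [← Subgroup.card_mul_index θ.ker, Subgroup.index_ker,
      ← Subgroup.card_map_of_injective Rh.subtype_injective (K := θ.ker)]
    exact Nat.mul_le_mul (Subgroup.card_le_of_le hker') (Subgroup.card_le_of_le hrange)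
  have hA₀P : s ≤ Nat.card Ph := by
    rw [hs, himgρ A₀ hA₀N]
    refine Subgroup.card_le_of_le ?_
    rintro _ ⟨b, hb, rfl⟩
    refine ⟨?_, mem_centralizer_singleton_iff.mpr (mul_inv_eq_iff_eq_mul.mp (hαb b hb)).symm⟩
    rw [hgen]
    exact subset_closure ⟨b, hb, 0, by simp⟩
  obtain ⟨si, hsi⟩ := img_two_pow (V := V) h.p2
  obtain ⟨pi', hpi⟩ := card_ea (isEA_mono hREA (inf_le_left : Ph ≤ Rh))
  rcases Nat.lt_or_ge si pi' with hlt | hge
  · -- offender on `D`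
    right
    set P := ((R.subgroupOf N) ⊓ Ph₁.comap ρ).map N.subtype with hP
    have hPR : P ≤ R := by rintro _ ⟨g, hg, rfl⟩; exact hg.1
    have hPN : P ≤ N := hPR.trans hRN
    have hPimg : (P.subgroupOf N).map ρ = Ph₁ := by
      rw [hP, Subgroup.subgroupOf, Subgroup.comap_map_eq_self_of_injective N.subtype_injective]
      refine le_antisymm (Subgroup.map_le_iff_le_comap.mpr inf_le_right) fun f hf => ?_
      obtain ⟨g, hg, rfl⟩ := hPh₁le hf
      exact ⟨g, ⟨hg, hf⟩, rfl⟩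
    have hPact : ActEA V P := by
      refine ⟨hPN, fun g hg g' hg' v hv => ?_, fun g hg v hv => ?_⟩
      · have h1 : ρ ⟨g, hPN hg⟩ ∈ Rh := ⟨⟨g, hPN hg⟩, hPR hg, rfl⟩
        have h2 : ρ ⟨g', hPN hg'⟩ ∈ Rh := ⟨⟨g', hPN hg'⟩, hPR hg', rfl⟩
        exact congrArg Subtype.val (MulEquiv.ext_iff.mp (hRc _ h1 _ h2) ⟨v, hv⟩)
      · have h1 : ρ ⟨g, hPN hg⟩ ∈ Rh := ⟨⟨g, hPN hg⟩, hPR hg, rfl⟩
        exact congrArg Subtype.val (MulEquiv.ext_iff.mp (hRsq _ h1) ⟨v, hv⟩)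
    have hDnorm : R ≤ normalizer (D : Set Γ) := by
      refine iSup_le fun i => ?_
      rintro _ ⟨b, hb, rfl⟩
      refine Coprime.mem_normalizer_of_conj_mem fun d hd => ?_
      obtain ⟨j, hj⟩ : ∃ j : ℕ, x ^ j = (x ^ i)⁻¹ := ⟨i * (m - 1), eq_inv_of_mul_eq_one_left (by
        rw [← pow_add, show i * (m - 1) + i = m * i by
          obtain ⟨k, hk⟩ := hodd; rw [hk, Nat.add_sub_cancel]; ring, pow_mul, hxp, one_pow])⟩
      have hd' : (x ^ i)⁻¹ * d * x ^ i ∈ conjPow D x j := by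
        rw [mem_conjPow, hj]; simpa [mul_assoc] using hd
      have h2 := conj_mem_of_norm (h.normD j hb) hd'
      rw [mem_conjPow, hj] at h2
      show x ^ i * b * (x ^ i)⁻¹ * d * (x ^ i * b * (x ^ i)⁻¹)⁻¹ ∈ D
      rw [show x ^ i * b * (x ^ i)⁻¹ * d * (x ^ i * b * (x ^ i)⁻¹)⁻¹ =
        ((x ^ i)⁻¹)⁻¹ * (b * ((x ^ i)⁻¹ * d * x ^ i) * b⁻¹) * (x ^ i)⁻¹ by group]
      exact h2
    -- elements of `P` fix `C₁`
    have hkill : ∀ f ∈ Ph, ∀ v : V, (v : Γ) ∈ C → f v = v := by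
      rintro f ⟨hfR, hfa⟩
      obtain ⟨hf1, hf2⟩ := hstab hfR
      let τ : V →* V := αa.toMonoidHom * (MonoidHom.id V)⁻¹
      have hτ : ∀ v, τ v = αa v * v⁻¹ := fun v => rfl
      set CV := C.subgroupOf V
      have hker' : τ.ker = CV := by
        ext v
        rw [MonoidHom.mem_ker, hτ, mul_inv_eq_one, show v ∈ CV ↔ (v : Γ) ∈ C from Iff.rfl, ← hG₀C,
          hG₀, Subgroup.mem_inf, mem_centralizer_singleton_iff, Subtype.ext_iff, hαa, hρv]
        exact ⟨fun e => ⟨v.2, (mul_inv_eq_iff_eq_mul.mp e).symm⟩, fun e => mul_inv_eq_iff_eq_mul.mpr e.2.symm⟩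
      have hrange : τ.range ⊔ FV = CV := by
        refine Subgroup.eq_of_le_of_card_ge (sup_le ?_ fun v hv => hv.1) ?_
        · rintro _ ⟨v, rfl⟩
          rw [← hker', MonoidHom.mem_ker, hτ, hτ, map_mul, map_inv, ← MulAut.mul_apply,
            show αa * αa = 1 by rw [← mul_inv_cancel αa, hαinv], MulAut.one_apply, mul_inv_rev, inv_inv]
          exact hVsq _
        · have e := card_sup_mul_card_inf (A := τ.range) (B := FV) (by
            rw [Subgroup.normalizer_eq_top]; exact le_top)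
          have hint : τ.range ⊓ FV = ⊥ := by
            rw [eq_bot_iff]
            rintro _ ⟨⟨v, rfl⟩, hv⟩
            have hav : αa v = v := Subtype.ext (hdisp v v.2 hv)
            rw [Subgroup.mem_bot, hτ, hav, mul_inv_cancel]
          rw [hint, Subgroup.card_bot, mul_one] at e
          rw [e, Nat.card_congr (Subgroup.subgroupOfEquivOfLe
              (show C ≤ V from fix_le _ _)).toEquiv, hCF,
            Nat.card_congr (Subgroup.subgroupOfEquivOfLe
              (show F ≤ V from inf_le_left.trans (fix_le _ _))).toEquiv]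
          refine Nat.mul_le_mul_right _ (le_of_eq ?_)
          have e2 := Subgroup.card_mul_index τ.ker
          rw [Subgroup.index_ker, hker', Nat.card_congr (Subgroup.subgroupOfEquivOfLe
            (show C ≤ V from fix_le _ _)).toEquiv, h.card, mul_comm] at e2
          exact (Nat.eq_of_mul_eq_mul_right (Nat.card_pos (α := C)) e2).symm
      intro v hv
      have hv' : v ∈ τ.range ⊔ FV := hrange.ge hv
      rw [Subgroup.mem_sup] at hv'
      obtain ⟨_, ⟨u, rfl⟩, w, hw, rfl⟩ := hv'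
      have hcom : f * αa = αa * f := mem_centralizer_singleton_iff.mp hfa
      have haF : αa (f u * u⁻¹) = f u * u⁻¹ := Subtype.ext (haC _ (show ((f u * u⁻¹ : V) : Γ) ∈ C from (hf2 u).1))
      rw [map_mul, hf1 w hw, hτ, map_mul, map_inv, ← MulAut.mul_apply, hcom, MulAut.mul_apply]
      rw [map_mul, map_inv] at haF
      rw [mul_inv_eq_iff_eq_mul.mp haF, mul_right_comm (f u * u⁻¹), mul_comm (f u) u⁻¹,
        mul_inv_cancel_right, mul_comm u⁻¹]
    have hkill₁ : C₁ ≤ fix V P := by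
      intro v hv
      refine mem_fix.mpr ⟨hC₁V hv, fun g hg => ?_⟩
      have hgP : ρ ⟨g, hPN hg⟩ ∈ Ph₁ := hPimg ▸ ⟨⟨g, hPN hg⟩, hg, rfl⟩
      obtain ⟨f, hf, e⟩ := hgP
      obtain ⟨c, hc, rfl⟩ := hv
      have hcV : c ∈ V := hc.1
      have e2 := congrArg Subtype.val (MulEquiv.ext_iff.mp e.symm (ξ ⟨c, hcV⟩))
      rw [show (MulAut.conj ξ).toMonoidHom f (ξ ⟨c, hcV⟩) = ξ (f (ξ⁻¹ (ξ ⟨c, hcV⟩))) from rfl,
        show ξ⁻¹ (ξ ⟨c, hcV⟩) = ⟨c, hcV⟩ from MulEquiv.symm_apply_apply _ _, hkill f hf ⟨c, hcV⟩ hc,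
        hρv, hρv] at e2
      simpa using e2
    -- `V` is covered by `D` and `C₁`
    have hcov' : V = D ⊔ C₁ := by
      obtain ⟨k, hk⟩ := hodd
      have hinv : x ^ (m - 1) = x⁻¹ := by
        rw [eq_inv_iff_mul_eq_one, ← pow_succ, Nat.sub_add_cancel (by omega), hxp]
      have hmv : x ^ (m - 1) ∉ normalizer (D : Set Γ) := by rw [hinv, inv_mem_iff]; exact h.move
      have e := Subgroup.map_mono (f := (MulAut.conj x).toMonoidHom) (h.cover (m - 1) hmv)
      have e0 : V.map (MulAut.conj x).toMonoidHom = V := Subgroup.mem_normalizer_iff_map_conj_eq.mp hxn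
      rw [Subgroup.map_sup, e0, conjPow, Subgroup.map_map] at e
      refine le_antisymm (e.trans (sup_le_sup (le_of_eq ?_) (le_of_eq ?_))) (sup_le hDV hC₁V)
      · rw [show (MulAut.conj x).toMonoidHom.comp (MulAut.conj (x ^ (m - 1))).toMonoidHom =
          MonoidHom.id Γ by ext y; simp [hinv, mul_assoc], Subgroup.map_id]
      · rw [hC₁, conjPow, pow_one]
    have hPimgcard : img V P = Nat.card Ph := by
      rw [himgρ P hPN, hPimg, hPh₁, Coprime.card_map_conj]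
    have hPlow : 2 * s ≤ Nat.card Ph := by
      rw [hs, hsi, hpi, ← pow_succ']; exact Nat.pow_le_pow_right (by norm_num) hlt
    have hCD : P ⊓ centralizer (D : Set Γ) ≤ centralizer (V : Set Γ) := fun g hg =>
      (le_centralizer_iff.mp (show V ≤ centralizer ((P ⊓ centralizer (D : Set Γ) : Subgroup Γ) : Set Γ) from
        hcov'.le.trans (sup_le (le_centralizer_iff.mp inf_le_right)
          (hkill₁.trans (inf_le_right.trans (centralizer_le inf_le_left)))))) hg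
    have himgD : img D P = Nat.card Ph := by
      rw [← hPimgcard, ← img_mul_img (V := V) (P := P) hDV, img_eq_one.mpr hCD, one_mul]
    refine ⟨P, hPR, hPact.restrict hDV (hPR.trans hDnorm), fun hc => ?_, ?_⟩
    · rw [img_eq_one.mpr hc] at himgD
      have := img_pos V A₀
      omega
    · rw [himgD]
      have e := card_sup_mul_card_inf (le_normalizer_in hV hDV hC₁V : D ≤ normalizer (C₁ : Set Γ))
      rw [← hcov', hC₁, conjPow, Coprime.card_map_conj, h.card] at e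
      have e' : Nat.card D = 2 * s * Nat.card (D ⊓ conjPow C x 1 : Subgroup Γ) :=
        Nat.eq_of_mul_eq_mul_right (Nat.card_pos (α := C)) (by rw [← e]; ring)
      rw [e']
      refine Nat.mul_le_mul hPlow (Subgroup.card_le_of_le fun v hv => ?_)
      exact mem_fix.mpr ⟨hv.1, (mem_fix.mp (hkill₁ hv.2)).2⟩
  · -- the prime is three
    left
    have hPs : Nat.card Ph = s := le_antisymm
      (by rw [hs, hsi, hpi]; exact Nat.pow_le_pow_right (by norm_num) hge) hA₀P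
    have hR1 : Nat.card Rh ≡ 1 [MOD p] := by
      have e := card_modEq_fixed hp hξm hξR
      rwa [hfixx, Subgroup.card_bot] at e
    rw [hRP, hPs] at hR1
    have h41 : 4 ≡ 1 [MOD p] := by
      have e : 4 * s * s ≡ 4 * 1 [MOD p] := by rw [mul_assoc]; exact hR1.mul_left 4
      rw [mul_one] at e
      exact e.symm.trans hmod
    have hp3 : p = 3 := by
      have hd := (Nat.modEq_iff_dvd' (by norm_num : 1 ≤ 4)).mp h41.symm
      norm_num at hd
      exact (Nat.prime_dvd_prime_iff_eq hp Nat.prime_three).mp hd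
    subst hp3
    obtain ⟨j, hjC, hjmin⟩ : ∃ j, x ^ 3 ^ j ∈ centralizer (V : Set Γ) ∧
        ∀ i < j, x ^ 3 ^ i ∉ centralizer (V : Set Γ) :=
      ⟨Nat.find (p := fun j => x ^ 3 ^ j ∈ centralizer (V : Set Γ)) ⟨n, by rw [hxp]; exact one_mem _⟩,
        Nat.find_spec (p := fun j => x ^ 3 ^ j ∈ centralizer (V : Set Γ)) _,
        fun i hi => Nat.find_min (p := fun j => x ^ 3 ^ j ∈ centralizer (V : Set Γ)) _ hi⟩
    rcases j with _ | j
    · refine absurd ?_ h.move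
      rw [pow_zero, pow_one] at hjC
      exact centralizer_le_normalizer _ (centralizer_le hDV hjC)
    set y := x ^ 3 ^ j with hy
    have hy3 : y ^ 3 ∈ centralizer (V : Set Γ) := by rw [hy, ← pow_mul, ← pow_succ]; exact hjC
    have hyV : y ∉ centralizer (V : Set Γ) := hjmin j (Nat.lt_succ_self j)
    have hdy : Dih V a y := h.dih.pow_dih _ (h.dih.inv_pow _)
    obtain ⟨u, hu, huy⟩ : ∃ u ∈ C, y * u * y⁻¹ ≠ u := by
      by_contra hall
      push Not at hall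
      refine hyV ?_
      have hC₁y : ∀ v ∈ C₁, y * v * y⁻¹ = v := by
        rintro _ ⟨c, hc, rfl⟩
        show y * (x ^ 1 * c * (x ^ 1)⁻¹) * y⁻¹ = x ^ 1 * c * (x ^ 1)⁻¹
        rw [show y * (x ^ 1 * c * (x ^ 1)⁻¹) * y⁻¹ = x ^ 1 * (y * c * y⁻¹) * (x ^ 1)⁻¹ by rw [hy]; group,
          hall c hc]
      refine le_centralizer_iff.mp (show V ≤ centralizer (zpowers y : Set Γ) from hcov.le.trans
        (sup_le ?_ ?_)) (mem_zpowers y)
      · intro c hc
        refine mem_centralizer_iff.mpr fun w hw => ?_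
        obtain ⟨k, rfl⟩ := mem_zpowers_iff.mp hw
        exact ((show Commute y c from mul_inv_eq_iff_eq_mul.mp (hall c hc)).zpow_left k).eq
      · intro c hc
        refine mem_centralizer_iff.mpr fun w hw => ?_
        obtain ⟨k, rfl⟩ := mem_zpowers_iff.mp hw
        exact ((show Commute y c from mul_inv_eq_iff_eq_mul.mp (hC₁y c hc)).zpow_left k).eq
    exact hdy.involves_of_three hy3 hu.1 (haC u hu) huy

end Cfsg.Agent.PLocal.S4FreeChar
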