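/-
A minimal offender moved by an element of odd order is impossible.
-/
import Cfsg.Agent.PLocal.S4FreeChar.Core
import Cfsg.Agent.PLocal.S4FreeChar.Transport

set_option linter.unusedSectionVars false
set_option linter.style.haveILetI false
set_option linter.unusedVariables false

namespace Cfsg.Agent.PLocal.S4FreeChar

open Subgroup Cfsg
open scoped commutatorElement

variable {H : Type*} [Group H] [Finite H]

theorem isOff_map {Γ Γ' : Type*} [Group Γ] [Finite Γ] [Group Γ'] [Finite Γ'] {f : Γ →* Γ'}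
    (hf : Function.Injective f) {V P : Subgroup Γ} : IsOff (V.map f) (P.map f) ↔ IsOff V P := by
  have hcent : P.map f ≤ centralizer (V.map f : Set Γ') ↔ P ≤ centralizer (V : Set Γ) :=
    ⟨fun h p hp => (map_mem_centralizer_iff hf).mp (h ⟨p, hp, rfl⟩),
      fun h => by rintro _ ⟨p, hp, rfl⟩; exact (map_mem_centralizer_iff hf).mpr (h hp)⟩
  unfold IsOff
  rw [actEA_map hf, hcent, img_map hf, fix_map hf, Subgroup.card_map_of_injective hf,
    Subgroup.card_map_of_injective hf]

theorem map_conj_eq {V : Subgroup H} {g : H} (hg : g ∈ normalizer (V : Set H)) :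
    V.map (MulAut.conj g).toMonoidHom = V :=
  Subgroup.mem_normalizer_iff_map_conj_eq.mp hg

theorem mem_sup_norm {g : H} {ι : Sort*} {f : ι → Subgroup H}
    (h : ∀ i, ∀ v ∈ f i, g * v * g⁻¹ ∈ ⨆ j, f j) : g ∈ normalizer ((⨆ j, f j : Subgroup H) : Set H) := by
  refine Coprime.mem_normalizer_of_conj_mem fun v hv => ?_
  have hle : (⨆ j, f j) ≤ (⨆ j, f j).comap (MulAut.conj g).toMonoidHom := iSup_le fun i w hw => h i w hw
  exact hle hv

/-- An element of a power of odd order lies where its square lies. -/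
theorem mem_of_sq_mem {N : Subgroup H} {x : H} {m : ℕ} (hm : Odd m) (hx : x ^ m = 1) {i : ℕ}
    (h : x ^ i * x ^ i ∈ N) : x ^ i ∈ N := by
  obtain ⟨k, rfl⟩ := hm
  have e : x ^ i = (x ^ i * x ^ i) ^ (k + 1) := by
    rw [← pow_two, ← pow_mul, show 2 * (k + 1) = 2 * k + 1 + 1 by omega, pow_succ, ← pow_mul,
      mul_comm i (2 * k + 1), pow_mul x (2 * k + 1) i, hx, one_pow, one_mul]
  rw [e]; exact pow_mem h _

theorem conjPow_zero (D : Subgroup H) (x : H) : conjPow D x 0 = D := by
  rw [conjPow, pow_zero]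
  exact map_conj_eq (one_mem _)

theorem conjPow_mem_add {D : Subgroup H} {x v : H} {i j : ℕ} (hv : v ∈ conjPow D x j) :
    x ^ i * v * (x ^ i)⁻¹ ∈ conjPow D x (i + j) := by
  rw [mem_conjPow] at hv ⊢
  rw [pow_add, show (x ^ i * x ^ j)⁻¹ * (x ^ i * v * (x ^ i)⁻¹) * (x ^ i * x ^ j) = (x ^ j)⁻¹ * v * x ^ j by group]
  exact hv

theorem conjPow_eq_of_mem {D : Subgroup H} {x : H} {i : ℕ} (h : x ^ i ∈ normalizer (D : Set H)) :
    conjPow D x i = D := map_conj_eq h

theorem conjPow_of_norm {R : Subgroup H} {x : H} (hx : x ∈ normalizer (R : Set H)) (i : ℕ) :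
    conjPow R x i = R := conjPow_eq_of_mem (pow_mem hx i)

theorem good_conjPow {S W : Subgroup H} (hW : Good S W) (x : H) (i : ℕ) :
    Good (conjPow S x i) (conjPow W x i) :=
  (good_map (MulAut.conj (x ^ i)).injective).mpr hW

theorem conjPow_centralizer {V : Subgroup H} {x : H} (hx : x ∈ normalizer (V : Set H)) (i : ℕ) :
    conjPow (centralizer (V : Set H)) x i = centralizer (V : Set H) :=
  conjPow_of_norm (le_normalizer_centralizer (zpowers_le.mpr hx) (mem_zpowers x)) i

/-- A conjugate of `D` by a power of `x` is not normalized by an element inverting `x`. -/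
theorem twist {V D : Subgroup H} {a x : H} (hd : Dih V a x) (hD : D ≤ V) (ha : a ∈ normalizer (D : Set H))
    {i : ℕ} (hi : ∀ v ∈ conjPow D x i, a * v * a⁻¹ ∈ conjPow D x i) : x ^ i ∈ normalizer (D : Set H) := by
  obtain ⟨m, hm, hxm⟩ := hd.x_odd
  refine mem_of_sq_mem hm hxm (inv_mem_iff.mp (Coprime.mem_normalizer_of_conj_mem fun w hw => ?_))
  have hv : a⁻¹ * w * a ∈ D := by simpa only [inv_inv] using conj_mem_of_norm (inv_mem ha) hw
  have h1 := hi (x ^ i * (a⁻¹ * w * a) * (x ^ i)⁻¹)
    (mem_conjPow.mpr (by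
      rw [show (x ^ i)⁻¹ * (x ^ i * (a⁻¹ * w * a) * (x ^ i)⁻¹) * x ^ i = a⁻¹ * w * a by group]
      exact hv))
  rw [hd.a_pow i (hD hv), mem_conjPow, show a * (a⁻¹ * w * a) * a⁻¹ = w by group] at h1
  rw [inv_inv, mul_inv_rev]
  rwa [show (x ^ i)⁻¹ * (x ^ i)⁻¹ * w * (x ^ i * x ^ i) = (x ^ i)⁻¹ * ((x ^ i)⁻¹ * w * x ^ i) * x ^ i by group]

/-- An involution inverting `x` maps conjugates of `D` to conjugates. -/
theorem twist_mem {V D : Subgroup H} {a x : H} (hd : Dih V a x) (hD : D ≤ V) (ha : a ∈ normalizer (D : Set H))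
    {i : ℕ} {v : H} (hv : v ∈ conjPow D x i) : a * v * a⁻¹ ∈ ⨆ j, conjPow D x j := by
  obtain ⟨m, hm, hxm⟩ := hd.x_odd
  obtain ⟨u, hu, rfl⟩ := hv
  show a * (x ^ i * u * (x ^ i)⁻¹) * a⁻¹ ∈ _
  rw [hd.a_pow i (hD hu)]
  refine mem_iSup_of_mem ((m - 1) * i) (mem_conjPow.mpr ?_)
  have e : x ^ ((m - 1) * i) * x ^ i = 1 := by
    rw [← pow_add, show (m - 1) * i + i = m * i by
      conv_rhs => rw [show m = m - 1 + 1 from (Nat.succ_pred_eq_of_pos hm.pos).symm, add_mul, one_mul]]
    rw [pow_mul, hxm, one_pow]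
  rw [eq_inv_of_mul_eq_one_left e, inv_inv,
    show x ^ i * ((x ^ i)⁻¹ * (a * u * a⁻¹) * x ^ i) * (x ^ i)⁻¹ = a * u * a⁻¹ by group]
  exact conj_mem_of_norm ha hu

theorem index_two_cover {A B : Subgroup H} (hBA : B ≤ A) (h2 : Nat.card A = 2 * Nat.card B) {a v : H}
    (ha : a ∈ A) (haB : a ∉ B) (hv : v ∈ A) : v ∈ B ∨ a⁻¹ * v ∈ B := by
  by_contra hcon
  push Not at hcon
  have hi : (B.subgroupOf A).index = 2 := by
    have e := Subgroup.card_mul_index (B.subgroupOf A)
    rw [Nat.card_congr (Subgroup.subgroupOfEquivOfLe hBA).toEquiv, h2, mul_comm 2] at e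
    exact Nat.eq_of_mul_eq_mul_left Nat.card_pos e
  have := (Subgroup.mul_mem_iff_of_index_two hi (a := ⟨a, ha⟩⁻¹) (b := ⟨v, hv⟩)).mpr
    (iff_of_false (fun h => haB (inv_mem_iff.mp h)) hcon.1)
  exact hcon.2 this

theorem index_two_sup {A B : Subgroup H} (hBA : B ≤ A) (h2 : Nat.card A = 2 * Nat.card B) {a : H}
    (ha : a ∈ A) (haB : a ∉ B) : B ⊔ zpowers a = A := by
  refine le_antisymm (sup_le hBA (zpowers_le.mpr ha)) fun v hv => ?_
  rcases index_two_cover hBA h2 ha haB hv with h | h
  · exact mem_sup_left h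
  · rw [show v = a * (a⁻¹ * v) by group]
    exact mul_mem (mem_sup_right (mem_zpowers a)) (mem_sup_left h)

theorem img_two {V A B : Subgroup H} (hBA : B ≤ A) (h2 : Nat.card A = 2 * Nat.card B)
    (hAC : ∀ c ∈ A, c ∈ centralizer (V : Set H) → c ∈ B) : img V A = 2 * img V B := by
  have e : centralizer (V : Set H) ⊓ A = centralizer (V : Set H) ⊓ B :=
    le_antisymm (fun c hc => ⟨hc.1, hAC c hc.2 hc.1⟩) (inf_le_inf_left _ hBA)
  have h1 := Core.card_mul_relIndex (inf_le_right : centralizer (V : Set H) ⊓ A ≤ A)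
  have h3 := Core.card_mul_relIndex (inf_le_right : centralizer (V : Set H) ⊓ B ≤ B)
  rw [Subgroup.inf_relIndex_right] at h1 h3
  refine Nat.eq_of_mul_eq_mul_left (Nat.card_pos (α := (centralizer (V : Set H) ⊓ B : Subgroup H))) ?_
  rw [img, img, mul_left_comm, h3]
  calc _ = Nat.card A := by rw [← e]; exact h1
    _ = 2 * Nat.card B := h2

/-- The elements of `A` outside `B` do not centralize `V`. -/
theorem cent_mem {V W A B : Subgroup H} {a x : H} (hd : Dih V a x) (hW : W ≤ V)
    (ha : a ∈ normalizer (W : Set H)) (hBn : B ≤ normalizer (conjPow W x 1 : Set H)) (hxW : x ∉ normalizer (W : Set H))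
    (hW1 : conjPow W x 1 ≤ V) (hBA : B ≤ A) (h2 : Nat.card A = 2 * Nat.card B) (haA : a ∈ A) (haB : a ∉ B) :
    ∀ c ∈ A, c ∈ centralizer (V : Set H) → c ∈ B := by
  intro c hc hcV
  refine (index_two_cover hBA h2 haA haB hc).resolve_right fun hb => hxW ?_
  rw [← pow_one x]
  refine twist hd hW ha fun v hv => ?_
  have e := conj_mem_of_norm (inv_mem (hBn hb)) hv
  rw [inv_inv, mul_inv_rev, inv_inv] at e
  have hw : a * v * a⁻¹ ∈ V := conj_mem_of_norm hd.an (hW1 hv)
  have e2 : c⁻¹ * (a * v * a⁻¹) * c = a * v * a⁻¹ := by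
    simpa only [inv_inv] using conj_eq_of_cent (inv_mem hcV) hw
  rw [← e2]
  rwa [show c⁻¹ * (a * v * a⁻¹) * c = c⁻¹ * a * v * (a⁻¹ * c) by group]

variable {S : Subgroup H}

/-- A minimal offender whose hyperplane is normalized by an element moving `W` is impossible. -/
theorem no_off_local (hS4 : ¬ Involves (Equiv.Perm (Fin 4)) H) (hS : IsPGroup 2 S) {W V R A B : Subgroup H}
    {a x : H} {p n : ℕ} (hW : Good S W) (hV : IsElementaryAbelian 2 V) (hWV : ∀ i, conjPow W x i ≤ V)
    (hxV : x ∈ normalizer (V : Set H)) (hAS : A ≤ S) (hoff : IsOff V A)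
    (hmin : ∀ B : Subgroup H, B ≤ A → IsOff V B → img V A ≤ img V B) (hBA : B ≤ A)
    (h2 : Nat.card A = 2 * Nat.card B) (haA : a ∈ A) (haB : a ∉ B) (hBR : B ≤ R)
    (hRS : R ≤ S ⊔ centralizer (V : Set H)) (hxR : x ∈ normalizer (R : Set H)) (hp : p.Prime) (hp2 : p ≠ 2)
    (hxp : x ^ p ^ n = 1) (hinv : a * x * a⁻¹ * x ∈ centralizer (V : Set H))
    (hxW : x ∉ normalizer (W : Set H)) : False := by
  classical
  haveI : Fact (Nat.Prime 2) := ⟨Nat.prime_two⟩
  have hWle : W ≤ V := by simpa only [conjPow_zero] using hWV 0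
  have hd : Dih V a x := by
    refine ⟨hV, hoff.1.norm haA, hxV, mem_centralizer_iff.mpr fun v hv => ?_, hinv, ⟨p, n, hp, hp2, hxp⟩⟩
    have e := hoff.1.sq a haA v hv
    rw [show a * (a * v * a⁻¹) * a⁻¹ = a * a * v * (a * a)⁻¹ by group] at e
    exact (mul_inv_eq_iff_eq_mul.mp e).symm
  have haW : a ∈ normalizer (W : Set H) := hW.norm (hAS haA)
  -- `R` acts on every conjugate
  have hRi : ∀ i, R ≤ conjPow S x i ⊔ centralizer (conjPow W x i : Set H) := fun i => by
    have h := Subgroup.map_mono (f := (MulAut.conj (x ^ i)).toMonoidHom) hRS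
    rw [Subgroup.map_sup] at h
    change conjPow R x i ≤ conjPow S x i ⊔ conjPow (centralizer (V : Set H)) x i at h
    rw [conjPow_of_norm hxR, conjPow_centralizer hxV] at h
    exact h.trans (sup_le_sup_left (centralizer_le (hWV i)) _)
  have hRn : ∀ i, R ≤ normalizer (conjPow W x i : Set H) := fun i =>
    (hRi i).trans (sup_le (good_conjPow hW x i).norm (centralizer_le_normalizer _))
  -- `A` centralizes `W`
  have hAW : A ≤ centralizer (W : Set H) :=
    (transfer_off hV hWle (hAS.trans hW.norm) hoff hmin).resolve_right fun e => hW.notBad A hAS (Or.inl e)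
  set C := fix V A with hC
  have hWC : W ≤ C := le_inf hWle (le_centralizer_iff.mp hAW)
  have hsup := index_two_sup hBA h2 haA haB
  have hAC := cent_mem hd hWle haW (hBR.trans (hRn 1)) hxW (hWV 1) hBA h2 haA haB
  have himgA : img V A = 2 * img V B := img_two hBA h2 hAC
  set s := img V B with hs
  obtain ⟨iv, hiv⟩ := card_ea hV
  obtain ⟨js, hjs⟩ := img_two_pow (V := V) (hS.to_le (hBA.trans hAS))
  obtain ⟨kc, hkc⟩ := card_ea (isEA_mono hV (fix_le V A))
  have hle : Nat.card V ≤ 2 * s * Nat.card C := by have := hoff.2.2; rwa [himgA] at this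
  have hCV : Nat.card C < Nat.card V := by
    by_contra h
    push Not at h
    exact hoff.2.1 (le_centralizer_iff.mp
      ((Subgroup.eq_of_le_of_card_ge (fix_le V A) h).ge.trans inf_le_right))
  have hCB : C ≤ fix V B := fix_anti hBA
  -- the two cases
  have hcases : B ≤ centralizer (V : Set H) ∨ fix V B = C ∧ s * Nat.card C < Nat.card V := by
    refine or_iff_not_imp_left.mpr fun hB => ?_
    have hlt : img V B * Nat.card (fix V B) < Nat.card V := by
      by_contra h
      push Not at h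
      have := hmin B hBA ⟨hoff.1.mono hBA, hB, h⟩
      rw [himgA] at this
      have := img_pos V B
      omega
    refine ⟨?_, lt_of_le_of_lt (Nat.mul_le_mul_left _ (Subgroup.card_le_of_le hCB)) hlt⟩
    refine (Subgroup.eq_of_le_of_card_ge hCB ?_).symm
    obtain ⟨l, hl⟩ := card_ea (isEA_mono hV (fix_le V B))
    have h3 : Nat.card (fix V B) < 2 * Nat.card C := by
      refine Nat.lt_of_mul_lt_mul_left (a := s) (hlt.trans_le ?_)
      rw [← mul_assoc, mul_comm s 2]; exact hle
    rw [hl, hkc] at h3 ⊢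
    exact le_of_lt_two_mul h3
  have hcard : Nat.card V = 2 * s * Nat.card C := by
    refine le_antisymm hle ?_
    have hlt : s * Nat.card C < Nat.card V := by
      rcases hcases with h | h
      · rwa [hs, img_eq_one.mpr h, one_mul]
      · exact h.2
    rw [mul_assoc, hiv, hs, hjs, hkc, ← pow_add] at *
    rw [← pow_succ']
    exact Nat.pow_le_pow_right two_pos ((Nat.pow_lt_pow_iff_right one_lt_two).mp hlt)
  have hC' : fix V (B ⊔ zpowers a) = C := by rw [hsup]
  have hcover : ∀ i, x ^ i ∉ normalizer (W : Set H) → V ≤ conjPow W x i ⊔ C := by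
    intro i hi
    have hnC : ¬ conjPow W x i ≤ C := fun h => hi (twist hd hWle haW fun v hv => by
      rw [(mem_fix.mp (h hv)).2 a haA]; exact hv)
    set Wi := conjPow W x i with hWi
    have hWin : Wi ≤ normalizer (C : Set H) := le_normalizer_in hV (hWV i) (fix_le V A)
    have hsum := card_sup_mul_card_inf hWin
    have hle' : Wi ⊔ C ≤ V := sup_le (hWV i) (fix_le V A)
    refine (Subgroup.eq_of_le_of_card_ge hle' ?_).ge
    obtain ⟨l, hl⟩ := card_ea (isEA_mono hV hle')
    rcases hcases with hB | ⟨hfB, -⟩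
    · have h1 : s = 1 := img_eq_one.mpr hB
      rw [hcard, h1, mul_one]
      have hlt : Nat.card C < Nat.card (Wi ⊔ C : Subgroup H) := by
        by_contra h
        push Not at h
        exact hnC (le_sup_left.trans (Subgroup.eq_of_le_of_card_ge le_sup_right h).ge)
      rw [hkc, hl] at hlt ⊢
      rw [← pow_succ']
      exact Nat.pow_le_pow_right two_pos ((Nat.pow_lt_pow_iff_right one_lt_two).mp hlt)
    · have hBnc : ¬ B ≤ centralizer (Wi : Set H) := fun h =>
        hnC ((le_inf (hWV i) (le_centralizer_iff.mp h)).trans hfB.le)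
      have hBn : B ≤ normalizer (Wi : Set H) := hBR.trans (hRn i)
      have hnoff : img Wi B * Nat.card (fix Wi B) < Nat.card Wi := by
        by_contra h
        push Not at h
        exact (good_conjPow hW x i).notBad' hBn (hBR.trans (hRi i))
          (Or.inl ⟨(hoff.1.mono hBA).restrict (hWV i) hBn, hBnc, h⟩)
      rw [fix_eq_inf (hWV i), hfB] at hnoff
      obtain ⟨t, ht⟩ := img_two_pow (V := Wi) (hS.to_le (hBA.trans hAS))
      obtain ⟨u, hu⟩ := card_ea (isEA_mono hV (hWV i))
      obtain ⟨w, hw⟩ := card_ea (isEA_mono hV (inf_le_of_left_le (hWV i) : Wi ⊓ C ≤ V))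
      have h2t : 2 * (img Wi B * Nat.card (Wi ⊓ C : Subgroup H)) ≤ Nat.card Wi := by
        rw [ht, hu, hw, ← pow_add] at hnoff ⊢
        rw [← pow_succ']
        exact Nat.pow_le_pow_right two_pos ((Nat.pow_lt_pow_iff_right one_lt_two).mp hnoff)
      have hbig : 2 * img Wi B * Nat.card C ≤ Nat.card (Wi ⊔ C : Subgroup H) := by
        refine Nat.le_of_mul_le_mul_right ?_ (Nat.card_pos (α := (Wi ⊓ C : Subgroup H)))
        rw [hsum]
        calc _ = 2 * (img Wi B * Nat.card (Wi ⊓ C : Subgroup H)) * Nat.card C := by ring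
          _ ≤ _ := Nat.mul_le_mul_right _ h2t
      refine le_trans ?_ hbig
      rw [hcard, hs, ← img_mul_img (P := B) (hWV i)]
      set K := B ⊓ centralizer (Wi : Set H) with hK
      have hKV : K ≤ centralizer (V : Set H) := by
        by_contra hKV
        have h1 : img V K * Nat.card (fix V K) < Nat.card V := by
          by_contra h
          push Not at h
          have h4 := hmin K (inf_le_left.trans hBA) ⟨hoff.1.mono (inf_le_left.trans hBA), hKV, h⟩
          rw [himgA, hs, ← img_mul_img (P := B) (hWV i)] at h4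
          have h5 : 0 < img Wi B := img_pos _ _
          have h6 : 0 < img V K := img_pos _ _
          rw [← hK] at h4
          nlinarith
        have h3 : Wi ⊔ C ≤ fix V K :=
          sup_le (le_inf (hWV i) (le_centralizer_iff.mp inf_le_right)) (fix_anti (inf_le_left.trans hBA))
        refine lt_irrefl (Nat.card V) (lt_of_le_of_lt ?_ h1)
        calc Nat.card V = img V K * (2 * img Wi B * Nat.card C) := by
              rw [hcard, hs, ← img_mul_img (P := B) (hWV i)]; ring
          _ ≤ _ := Nat.mul_le_mul_left _ (hbig.trans (Subgroup.card_le_of_le h3))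
      rw [img_eq_one.mpr hKV, one_mul]
  have hcore : CoreHyp V W B a x :=
    { dih := hd
      act := by rw [hsup]; exact hoff.1
      p2 := hS.to_le (hBA.trans hAS)
      DC := hC'.symm ▸ hWC
      normD := fun i => hBR.trans (hRn i)
      card := by rw [hC']; exact hcard
      move := hxW
      cover := by rw [hC']; exact hcover }
  rcases hcore.main with h | ⟨P, hP, hPoff⟩
  · exact hS4 h
  · refine hW.notBad' hPoff.1.norm ?_ (Or.inl hPoff)
    refine hP.trans (iSup_le fun i => ?_)
    rw [← conjPow_zero W x]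
    refine ((Subgroup.map_mono hBR).trans ((conjPow_of_norm hxR i).le.trans ?_))
    exact (hRi 0).trans (sup_le_sup_right (conjPow_zero S x).le _)

end Cfsg.Agent.PLocal.S4FreeChar
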