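/-
If the normalizer of a good subgroup is the only maximal overgroup of a Sylow subgroup, all
elementary abelian subgroups of largest order lie in `O₂`.
-/
import Cfsg.Agent.PLocal.S4FreeChar.Local
import Cfsg.Agent.PLocal.S4FreeChar.Central

set_option linter.unusedSectionVars false
set_option linter.style.haveILetI false
set_option linter.unusedVariables false
set_option linter.deprecated false

namespace Cfsg.Agent.PLocal.S4FreeChar

open Subgroup Cfsg
open scoped commutatorElement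

variable {H : Type*} [Group H] [Finite H] [Group.IsSolvable H] {S : Sylow 2 H} {W : Subgroup H}

theorem max_le_pCore (hS4 : ¬ Involves (Equiv.Perm (Fin 4)) H)
    (hchar : centralizer (pCore 2 H : Set H) ≤ pCore 2 H) (hW : Good (S : Subgroup H) W)
    (hM : UniqueOver S (normalizer (W : Set H))) :
    ∀ A ∈ maxIn (IsElementaryAbelian 2) (S : Subgroup H), A ≤ pCore 2 H := by
  classical
  haveI : Fact (Nat.Prime 2) := ⟨Nat.prime_two⟩
  by_contra hcon
  push Not at hcon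
  obtain ⟨A₁, hA₁, hA₁Q⟩ := hcon
  set Q := pCore 2 H with hQ
  haveI : Q.Normal := by rw [hQ]; infer_instance
  have hQp : IsPGroup 2 Q := Core.isPGroup_pCore 2 H
  have hQS : Q ≤ (S : Subgroup H) := Core.pCore_le_sylow S
  have hWQ : W ≤ Q := Good.le_pCore hS4 hchar hW
  set M := normalizer (W : Set H)
  set π := QuotientGroup.mk' Q
  have hπ := QuotientGroup.mk'_surjective Q
  have hker : π.ker ≤ M := by rw [QuotientGroup.ker_mk']; exact pCore_le_of_uniqueOver hM
  -- the family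
  set MX := maxIn (IsElementaryAbelian 2) (S : Subgroup H) with hMX
  set 𝔄 : Set (Subgroup H) :=
    {A | A ∈ MX ∧ ¬ A ≤ Q ∧ ∀ A' ∈ MX, ¬ A' ≤ Q → Q.relIndex A ≤ Q.relIndex A'} with h𝔄
  have hconjS : ∀ s ∈ (S : Subgroup H), ∀ A ∈ 𝔄, A.map (MulAut.conj s).toMonoidHom ∈ 𝔄 := by
    rintro s hs A ⟨hA, hAQ, hmin⟩
    have hi : Function.Injective (MulAut.conj s).toMonoidHom := (MulAut.conj s).injective
    have hSe : (S : Subgroup H).map (MulAut.conj s).toMonoidHom = S := map_conj_eq (Subgroup.le_normalizer hs)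
    have hQe : Q.map (MulAut.conj s).toMonoidHom = Q :=
      map_conj_eq (by rw [Subgroup.normalizer_eq_top]; trivial)
    have hA' := maxIn_map hi hA
    rw [hSe] at hA'
    refine ⟨hA', fun h => hAQ ?_, fun A' hA' hA'Q => ?_⟩
    · rw [← hQe] at h; exact (Subgroup.map_le_map_iff_of_injective hi).mp h
    · conv_lhs => rw [← hQe, Subgroup.relIndex_map_map_of_injective _ _ hi]
      exact hmin A' hA' hA'Q
  have hne : 𝔄.Nonempty := by
    obtain ⟨A, ⟨hA, hAQ⟩, hmin⟩ := Set.Finite.exists_minimalFor (fun A : Subgroup H => Q.relIndex A)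
      {A : Subgroup H | A ∈ MX ∧ ¬ A ≤ Q} (Set.toFinite _) ⟨A₁, hA₁, hA₁Q⟩
    exact ⟨A, hA, hAQ, fun A' hA' hA'Q => (le_total _ _).elim id fun e => hmin ⟨hA', hA'Q⟩ e⟩
  obtain ⟨_, ⟨A, hA𝔄, rfl⟩, B₁, a₁, y, p, k, hB₁, hB₁2, ha₁, ha₁B, hp, hp2, hy, hyM, hay, hyB⟩ :=
    exists_inverted_unique (G := H ⧸ Q) (Core.pCore_quotient_pCore 2 H) (UniqueOver.map hM hπ hker)
      (𝔄 := (fun A : Subgroup H => A.map π) '' 𝔄)
      (by rintro _ ⟨A, hA, rfl⟩; exact isEA_map hA.1.2.1 π)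
      (by rintro _ ⟨A, hA, rfl⟩; rw [Sylow.coe_mapSurjective]; exact Subgroup.map_mono hA.1.1)
      (by
        rintro _ ⟨A, hA, rfl⟩ g hg
        rw [Sylow.coe_mapSurjective] at hg
        obtain ⟨s, hs, rfl⟩ := hg
        refine ⟨_, hconjS s hs A hA, ?_⟩
        show (A.map _).map π = (A.map π).map _
        rw [Subgroup.map_map, Subgroup.map_map]
        congr 1)
      (by
        obtain ⟨A, hA⟩ := hne
        refine ⟨_, ⟨A, hA, rfl⟩, fun h => hA.2.1 ?_⟩
        rw [Subgroup.map_eq_bot_iff, QuotientGroup.ker_mk'] at h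
        exact h)
  obtain ⟨⟨hAS, hAE, hAmax⟩, hAQ, hAmin⟩ := hA𝔄
  obtain ⟨B, a, x, n, hBA, hAQB, hB2, ha, haB, hxp, hinv, hxM', hxR⟩ :=
    lift_inverted hQp hAE hB₁ hB₁2 ha₁ ha₁B hp2 hp hy hay hyB hyM
  have hxM : x ∉ M := fun h => hxM' ⟨x, h, rfl⟩
  set R := Q ⊔ B with hR
  have hRS : R ≤ (S : Subgroup H) := sup_le hQS (hBA.trans hAS)
  set m := p ^ n with hm
  have hodd : Odd m := odd_prime_pow hp hp2 n
  have hQi : ∀ i, conjPow Q x i = Q := fun i =>
    conjPow_of_norm (by rw [Subgroup.normalizer_eq_top]; trivial) i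
  have hRi : ∀ i, R ≤ conjPow (S : Subgroup H) x i := fun i =>
    (conjPow_of_norm hxR i).ge.trans (Subgroup.map_mono hRS)
  have hWi : ∀ i, conjPow W x i ≤ Q := fun i => (Subgroup.map_mono hWQ).trans (hQi i).le
  have hGi := fun i => good_conjPow hW x i
  have hBn : ∀ i, B ≤ normalizer (conjPow W x i : Set H) := fun i =>
    le_sup_right.trans ((hRi i).trans (hGi i).norm)
  have hWA : W ≤ A := hW.maxEA A ⟨hAS, hAE, hAmax⟩
  have haW : a ∈ normalizer (W : Set H) := hW.norm (hAS ha)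
  have hBE : IsElementaryAbelian 2 B := isEA_mono hAE hBA
  -- the new subgroups of largest order
  have hnew : ∀ i, x ^ i ∉ M → Nat.card (conjPow W x i) = 2 * img (conjPow W x i) B *
      Nat.card (B ⊓ centralizer (conjPow W x i : Set H) ⊓ conjPow W x i : Subgroup H) ∧
      ∀ j, conjPow W x j ≤ B ⊓ centralizer (conjPow W x i : Set H) ⊔ conjPow W x i := by
    intro i hi
    set Wi := conjPow W x i with hWidef
    set C₁ := B ⊓ centralizer (Wi : Set H) with hC₁
    have hWiE : IsElementaryAbelian 2 Wi := isEA_map hW.ea _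
    have hA'E : IsElementaryAbelian 2 (C₁ ⊔ Wi : Subgroup H) :=
      isEA_sup (isEA_mono hBE inf_le_left) hWiE inf_le_right
    have hWiB : ¬ Wi ≤ B := by
      intro h
      refine hi (mem_of_sq_mem hodd hxp (inv_mem_iff.mp (Coprime.mem_normalizer_of_conj_mem fun w hw => ?_)))
      have hwA := hWA hw
      have h2 : x ^ i * w * (x ^ i)⁻¹ ∈ Wi := by
        exact ⟨w, hw, rfl⟩
      have hc : a * (x ^ i * w * (x ^ i)⁻¹) * a⁻¹ = x ^ i * w * (x ^ i)⁻¹ :=
        mul_inv_eq_iff_eq_mul.mpr (comm_of_EA hAE ha (hBA (h h2)))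
      have hwc : a * w * a⁻¹ = w := mul_inv_eq_iff_eq_mul.mpr (comm_of_EA hAE ha hwA)
      have hax : a * x ^ i * a⁻¹ = (x ^ i)⁻¹ := by
        rw [← conj_pow, eq_inv_of_mul_eq_one_left hinv, inv_pow]
      rw [show a * (x ^ i * w * (x ^ i)⁻¹) * a⁻¹ = (a * x ^ i * a⁻¹) * (a * w * a⁻¹) * (a * x ^ i * a⁻¹)⁻¹ by group,
        hax, hwc, inv_inv] at hc
      rw [inv_inv, show (x ^ i * x ^ i)⁻¹ * w * (x ^ i * x ^ i) = (x ^ i)⁻¹ * ((x ^ i)⁻¹ * w * x ^ i) * x ^ i by group,
        hc, show (x ^ i)⁻¹ * (x ^ i * w * (x ^ i)⁻¹) * x ^ i = w by group]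
      exact hw
    have hC₁fix : C₁ ⊓ Wi ≤ fix Wi B := fun v hv =>
      ⟨hv.2, mem_centralizer_iff.mpr fun b hb => comm_of_EA hBE hb hv.1.1⟩
    obtain ⟨u, hu⟩ := card_ea hWiE
    obtain ⟨w, hw⟩ := card_ea (isEA_mono hWiE (inf_le_right : C₁ ⊓ Wi ≤ Wi))
    obtain ⟨t, ht⟩ := img_two_pow (V := Wi) (isPGroup_of_EA hBE)
    have hlow : 2 * img Wi B * Nat.card (C₁ ⊓ Wi : Subgroup H) ≤ Nat.card Wi := by
      have hlt : img Wi B * Nat.card (C₁ ⊓ Wi : Subgroup H) < Nat.card Wi := by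
        by_cases hc : B ≤ centralizer (Wi : Set H)
        · rw [img_eq_one.mpr hc, one_mul]
          by_contra h
          push Not at h
          exact hWiB ((Subgroup.eq_of_le_of_card_ge inf_le_right h).ge.trans (inf_le_left.trans inf_le_left))
        · refine lt_of_le_of_lt (Nat.mul_le_mul_left _ (Subgroup.card_le_of_le hC₁fix)) ?_
          by_contra h
          push Not at h
          exact (hGi i).notBad B (le_sup_right.trans (hRi i)) (Or.inl ⟨actEA_of_EA hBE (hBn i), hc, h⟩)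
      rw [ht, hu, hw, ← pow_add] at hlt
      rw [ht, hu, hw, mul_assoc, ← pow_add, ← pow_succ']
      exact Nat.pow_le_pow_right two_pos ((Nat.pow_lt_pow_iff_right one_lt_two).mp hlt)
    have hsum := card_sup_mul_card_inf ((inf_le_left.trans (hBn i)) : C₁ ≤ normalizer (Wi : Set H))
    have himg : Nat.card C₁ * img Wi B = Nat.card B := by
      have e := Core.card_mul_relIndex (inf_le_left : C₁ ≤ B)
      rw [Subgroup.inf_relIndex_left] at e
      exact e
    have hA'S : C₁ ⊔ Wi ≤ (S : Subgroup H) :=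
      sup_le ((inf_le_left.trans hBA).trans hAS) ((hWi i).trans hQS)
    have hcardA : Nat.card (C₁ ⊔ Wi : Subgroup H) = Nat.card A := by
      refine le_antisymm (hAmax _ hA'S hA'E) (Nat.le_of_mul_le_mul_right ?_ (Nat.card_pos (α := (C₁ ⊓ Wi : Subgroup H))))
      rw [hsum, hB2, ← himg]
      calc _ = Nat.card C₁ * (2 * img Wi B * Nat.card (C₁ ⊓ Wi : Subgroup H)) := by ring
        _ ≤ _ := Nat.mul_le_mul_left _ hlow
    refine ⟨Nat.eq_of_mul_eq_mul_left (Nat.card_pos (α := C₁)) ?_, ?_⟩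
    · rw [← hsum, hcardA, hB2, ← himg]; ring
    -- the new subgroup lies in `Q`
    have hA'M : C₁ ⊔ Wi ∈ MX := ⟨hA'S, hA'E, fun C hC hC' => hcardA ▸ hAmax C hC hC'⟩
    have hA'Q : C₁ ⊔ Wi ≤ Q := by
      by_contra h
      have h1 := hAmin _ hA'M h
      have h2 : Q.relIndex (C₁ ⊔ Wi : Subgroup H) ≤ Q.relIndex B := by
        calc Q.relIndex (C₁ ⊔ Wi : Subgroup H) ≤ Q.relIndex (B ⊔ Q : Subgroup H) :=
              Subgroup.relIndex_le_of_le_right (sup_le_sup inf_le_left (hWi i))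
                Subgroup.index_ne_zero_of_finite
          _ = Q.relIndex B := Subgroup.relIndex_sup_right _ _
      have e1 := Core.card_mul_relIndex (inf_le_right : Q ⊓ A ≤ A)
      have e2 := Core.card_mul_relIndex (inf_le_right : Q ⊓ B ≤ B)
      rw [Subgroup.inf_relIndex_right] at e1 e2
      have e3 : Q ⊓ A = Q ⊓ B :=
        le_antisymm (fun z hz => ⟨hz.1, hAQB ⟨hz.2, hz.1⟩⟩) (inf_le_inf_left _ hBA)
      rw [e3, hB2, ← e2, mul_left_comm] at e1
      have e4 := Nat.eq_of_mul_eq_mul_left Nat.card_pos e1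
      have hpos : 0 < Q.relIndex B := Nat.pos_of_ne_zero Subgroup.index_ne_zero_of_finite
      omega
    intro j
    have hQj : ∀ C ≤ Q, C ≤ conjPow (S : Subgroup H) x j := fun C hC =>
      hC.trans ((hQi j).ge.trans (Subgroup.map_mono hQS))
    refine (hGi j).maxEA _ ⟨hQj _ hA'Q, hA'E, fun C hC hC' => ?_⟩
    obtain ⟨h1, h2⟩ := maxIn_comap (f := (MulAut.conj (x ^ j)).toMonoidHom) (MulAut.conj (x ^ j)).injective
      (maxIn_map (f := (MulAut.conj (x ^ j)).toMonoidHom) (MulAut.conj (x ^ j)).injective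
        (⟨hAS, hAE, hAmax⟩ : A ∈ MX))
    rw [hcardA, ← Subgroup.card_map_of_injective (f := (MulAut.conj (x ^ j)).toMonoidHom)
      (MulAut.conj (x ^ j)).injective (K := A)]
    exact (maxIn_map (f := (MulAut.conj (x ^ j)).toMonoidHom) (MulAut.conj (x ^ j)).injective
      (⟨hAS, hAE, hAmax⟩ : A ∈ MX)).2.2 C hC hC'
  -- the module
  set V := ⨆ i, conjPow W x i with hV
  have hWV : ∀ i, conjPow W x i ≤ V := fun i => le_iSup (fun i => conjPow W x i) i
  have hWle : W ≤ V := by have := hWV 0; rwa [conjPow_zero] at this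
  have hVQ : V ≤ Q := iSup_le hWi
  have hVA : ∀ i, x ^ i ∉ M → V ≤ B ⊓ centralizer (conjPow W x i : Set H) ⊔ conjPow W x i := fun i hi =>
    iSup_le (hnew i hi).2
  have hx1 : x ^ 1 ∉ M := by rwa [pow_one]
  have hVE : IsElementaryAbelian 2 V := isEA_mono
    (isEA_sup (isEA_mono hBE inf_le_left) (isEA_map hW.ea _) inf_le_right) (hVA 1 hx1)
  have hxV : x ∈ normalizer (V : Set H) := mem_sup_norm fun i v hv => by
    refine mem_iSup_of_mem (1 + i) ?_
    simpa using conjPow_mem_add (i := 1) hv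
  have haV : a ∈ normalizer (V : Set H) := mem_sup_norm fun i v hv => by
    obtain ⟨u, hu, rfl⟩ := hv
    have hax : a * x ^ i * a⁻¹ = (x ^ i)⁻¹ := by
      rw [← conj_pow, eq_inv_of_mul_eq_one_left hinv, inv_pow]
    refine mem_iSup_of_mem ((m - 1) * i) (mem_conjPow.mpr ?_)
    have e : x ^ ((m - 1) * i) * x ^ i = 1 := by
      rw [← pow_add, show (m - 1) * i + i = m * i by
        conv_rhs => rw [show m = m - 1 + 1 from (Nat.succ_pred_eq_of_pos hodd.pos).symm, add_mul, one_mul]]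
      rw [pow_mul, hxp, one_pow]
    show (x ^ ((m - 1) * i))⁻¹ * (a * (x ^ i * u * (x ^ i)⁻¹) * a⁻¹) * x ^ ((m - 1) * i) ∈ W
    rw [eq_inv_of_mul_eq_one_left e, inv_inv,
      show x ^ i * (a * (x ^ i * u * (x ^ i)⁻¹) * a⁻¹) * (x ^ i)⁻¹ =
        x ^ i * (a * x ^ i * a⁻¹) * (a * u * a⁻¹) * (a * x ^ i * a⁻¹)⁻¹ * (x ^ i)⁻¹ by group, hax]
    rw [show x ^ i * (x ^ i)⁻¹ * (a * u * a⁻¹) * (x ^ i)⁻¹⁻¹ * (x ^ i)⁻¹ = a * u * a⁻¹ by group]
    exact conj_mem_of_norm haW hu
  have hd : Dih V a x := by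
    refine ⟨hVE, haV, hxV, ?_, ?_, ⟨p, n, hp, hp2, hxp⟩⟩
    · rw [sq_of_EA hAE ha]; exact one_mem _
    · rw [hinv]; exact one_mem _
  have hsup := index_two_sup hBA hB2 ha haB
  have hAV : A ≤ normalizer (V : Set H) := by
    rw [← hsup]
    refine sup_le (fun b hb => mem_sup_norm fun i v hv => mem_iSup_of_mem i (conj_mem_of_norm (hBn i hb) hv))
      (zpowers_le.mpr haV)
  set C := fix V A with hC
  have hCA : C ≤ A := by
    intro v hv
    have hvQ := hVQ hv.1
    have h1 := isEA_sup hAE (isEA_zpowers (hVE.2 v hv.1))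
      (le_centralizer_iff.mp (zpowers_le.mpr hv.2))
    have h2 := hAmax _ (sup_le hAS (zpowers_le.mpr (hQS hvQ))) h1
    exact (Subgroup.eq_of_le_of_card_ge le_sup_left h2).ge (mem_sup_right (mem_zpowers v))
  have hCB : C ≤ B := fun v hv => hAQB ⟨hCA hv, hVQ hv.1⟩
  have hcompute : ∀ i, x ^ i ∉ M → Nat.card V = 2 * img V B * Nat.card C ∧ V ≤ conjPow W x i ⊔ C := by
    intro i hi
    obtain ⟨hcardW, -⟩ := hnew i hi
    set Wi := conjPow W x i with hWidef
    set C₁ := B ⊓ centralizer (Wi : Set H) with hC₁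
    have hA'E : IsElementaryAbelian 2 (C₁ ⊔ Wi : Subgroup H) :=
      isEA_sup (isEA_mono hBE inf_le_left) (isEA_map hW.ea _) inf_le_right
    have hCC₁ : C ≤ C₁ := fun v hv =>
      ⟨hCB hv, mem_centralizer_iff.mpr fun w hw => comm_of_EA hVE (hWV i hw) hv.1⟩
    have hC₁V : C₁ = B ⊓ centralizer (V : Set H) := by
      refine le_antisymm (fun z hz => ⟨hz.1, mem_centralizer_iff.mpr fun v hv => ?_⟩)
        (inf_le_inf_left _ (centralizer_le (hWV i)))
      exact comm_of_EA hA'E (hVA i hi hv) (mem_sup_left hz)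
    have himg : img V B = img Wi B := by
      rw [img, img, ← Subgroup.inf_relIndex_right, ← Subgroup.inf_relIndex_right (H := centralizer (Wi : Set H)),
        inf_comm, ← hC₁V, hC₁, inf_comm]
    have hVC : V ⊓ C₁ = C := by
      refine le_antisymm (fun z hz => ?_) (le_inf (fix_le _ _) hCC₁)
      exact ⟨hz.1, mem_centralizer_iff.mpr fun b hb => comm_of_EA hAE hb (hBA hz.2.1)⟩
    have hcov : V ≤ Wi ⊔ C := by
      intro v hv
      obtain ⟨w, hw, c, hc, rfl⟩ := Coprime.exists_mul_of_mem_sup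
        ((inf_le_left.trans (hBn i)) : C₁ ≤ normalizer (Wi : Set H)) (sup_comm C₁ Wi ▸ hVA i hi hv)
      refine mul_mem_sup hw (hVC.le ⟨?_, hc⟩)
      have := mul_mem (inv_mem (hWV i hw)) hv
      rwa [inv_mul_cancel_left] at this
    refine ⟨?_, hcov⟩
    have heq : Wi ⊔ C = V := le_antisymm (sup_le (hWV i) (fix_le V A)) hcov
    have hsum := card_sup_mul_card_inf (le_normalizer_in hVE (hWV i) (fix_le V A) : Wi ≤ normalizer (C : Set H))
    have hinf : Wi ⊓ C = C₁ ⊓ Wi := by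
      rw [← hVC, inf_comm C₁ Wi, ← inf_assoc, inf_eq_left.mpr (hWV i)]
    rw [heq, hinf, hcardW] at hsum
    rw [himg]
    refine Nat.eq_of_mul_eq_mul_right (Nat.card_pos (α := (C₁ ⊓ Wi : Subgroup H))) ?_
    rw [hsum]; ring
  have hC' : fix V (B ⊔ zpowers a) = C := by rw [hsup]
  have hcore : CoreHyp V W B a x :=
    { dih := hd
      act := by rw [hsup]; exact actEA_of_EA hAE hAV
      p2 := isPGroup_of_EA hBE
      DC := by
        rw [hC']
        exact fun w hw => ⟨hWle hw, mem_centralizer_iff.mpr fun b hb => comm_of_EA hAE hb (hWA hw)⟩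
      normD := hBn
      card := by rw [hC']; exact (hcompute 1 hx1).1
      move := hxM
      cover := by rw [hC']; exact fun i hi => (hcompute i hi).2 }
  rcases hcore.main with h | ⟨P, hP, hPoff⟩
  · exact hS4 h
  · refine hW.notBad P (hP.trans (iSup_le fun i => ?_)) (Or.inl hPoff)
    exact (Subgroup.map_mono le_sup_right).trans ((conjPow_of_norm hxR i).le.trans hRS)

end Cfsg.Agent.PLocal.S4FreeChar
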