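/-
A member of an invariant family acting on a normal module, with an element of odd order moved out
of the given overgroup and normalizing a hyperplane of it modulo the kernel of the action.
-/
import Cfsg.Agent.PLocal.S4FreeChar.Cand
import Cfsg.Agent.PLocal.S4FreeChar.Bad

set_option linter.unusedSectionVars false
set_option linter.style.haveILetI false
set_option linter.unusedVariables false
set_option linter.deprecated false

namespace Cfsg.Agent.PLocal.S4FreeChar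

open Subgroup Cfsg
open scoped commutatorElement

/-- A preimage of prime power order. -/
theorem exists_lift_pow {G G' : Type*} [Group G] [Finite G] [Group G'] {π : G →* G'}
    (hπ : Function.Surjective π) {p n : ℕ} (hp : p.Prime) {y : G'} (hy : y ^ p ^ n = 1) :
    ∃ x N, π x = y ∧ x ^ p ^ N = 1 := by
  obtain ⟨g, rfl⟩ := hπ y
  obtain ⟨j, m, hm, hjm⟩ := Nat.exists_eq_pow_mul_and_not_dvd (orderOf_pos g).ne' p hp.ne_one
  have hc : Int.gcd ((m : ℕ) : ℤ) ((p ^ n : ℕ) : ℤ) = 1 := by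
    rw [Int.gcd_natCast_natCast]; exact Nat.Coprime.pow_right _ ((hp.coprime_iff_not_dvd.mpr hm).symm)
  have e := Int.gcd_eq_gcd_ab ((m : ℕ) : ℤ) ((p ^ n : ℕ) : ℤ)
  rw [hc, Nat.cast_one] at e
  refine ⟨g ^ ((m : ℤ) * Int.gcdA m (p ^ n : ℕ)), j, ?_, ?_⟩
  · conv_rhs => rw [← zpow_one (π g), e, zpow_add, zpow_mul (π g) ((p ^ n : ℕ) : ℤ), zpow_natCast,
      hy, one_zpow, mul_one]
    rw [map_zpow]
  · rw [← zpow_natCast, ← zpow_mul,
      show (m : ℤ) * Int.gcdA m (p ^ n : ℕ) * ((p ^ j : ℕ) : ℤ) =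
        ((p ^ j * m : ℕ) : ℤ) * Int.gcdA m (p ^ n : ℕ) by push_cast; ring,
      zpow_mul, zpow_natCast, ← hjm, pow_orderOf_eq_one, one_zpow]

variable {H : Type*} [Group H] [Finite H] [Group.IsSolvable H] {S : Sylow 2 H} {M V : Subgroup H}

/-- The elements inducing a 2-group of `O₂` on `V`. -/
noncomputable def coreOn (V : Subgroup H) [V.Normal] : Subgroup H :=
  (pCore 2 (H ⧸ centralizer (V : Set H))).comap (QuotientGroup.mk' (centralizer (V : Set H)))

instance coreOn_normal [V.Normal] : (coreOn V).Normal := by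
  unfold coreOn; exact Subgroup.Normal.comap inferInstance _

theorem coreOn_le [V.Normal] : coreOn V ≤ (S : Subgroup H) ⊔ centralizer (V : Set H) := by
  haveI : Fact (Nat.Prime 2) := ⟨Nat.prime_two⟩
  intro g hg
  set π := QuotientGroup.mk' (centralizer (V : Set H))
  have h1 : π g ∈ ((S.mapSurjective (QuotientGroup.mk'_surjective (centralizer (V : Set H))) :
      Sylow 2 (H ⧸ centralizer (V : Set H))) : Subgroup (H ⧸ centralizer (V : Set H))) :=
    Core.pCore_le_sylow _ hg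
  rw [Sylow.coe_mapSurjective] at h1
  obtain ⟨s, hs, e⟩ := h1
  rw [show g = s * (s⁻¹ * g) by group]
  refine mul_mem (mem_sup_left hs) (mem_sup_right ?_)
  rw [← QuotientGroup.eq_one_iff]
  show π (s⁻¹ * g) = 1
  rw [map_mul, map_inv, e, inv_mul_cancel]

theorem exists_moved (hM : UniqueOver S M) [V.Normal] (hVM : centralizer (V : Set H) ≤ M)
    {𝔄 : Set (Subgroup H)} (hact : ∀ A ∈ 𝔄, ActEA V A) (hle : ∀ A ∈ 𝔄, A ≤ (S : Subgroup H))
    (hinv : ∀ A ∈ 𝔄, ∀ s ∈ (S : Subgroup H), A.map (MulAut.conj s).toMonoidHom ∈ 𝔄)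
    (hne : ∃ A ∈ 𝔄, ¬ A ≤ coreOn V) :
    ∃ A ∈ 𝔄, ∃ (R B : Subgroup H) (a x : H) (p n : ℕ), B ≤ A ∧ Nat.card A = 2 * Nat.card B ∧ a ∈ A ∧
      a ∉ B ∧ B ≤ R ∧ a ∈ normalizer (R : Set H) ∧ centralizer (V : Set H) ≤ R ∧
      R ≤ (S : Subgroup H) ⊔ centralizer (V : Set H) ∧ x ∈ normalizer (R : Set H) ∧ p.Prime ∧ p ≠ 2 ∧
      x ^ p ^ n = 1 ∧ a * x * a⁻¹ * x ∈ centralizer (V : Set H) ∧ x ∉ M := by
  classical
  haveI : Fact (Nat.Prime 2) := ⟨Nat.prime_two⟩
  set C := centralizer (V : Set H) with hC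
  set π := QuotientGroup.mk' C
  have hπ := QuotientGroup.mk'_surjective C
  set Q₁ := pCore 2 (H ⧸ C) with hQ₁
  haveI : Q₁.Normal := by rw [hQ₁]; infer_instance
  set π' := QuotientGroup.mk' Q₁
  have hπ' := QuotientGroup.mk'_surjective Q₁
  have hEA : ∀ A ∈ 𝔄, IsElementaryAbelian 2 (A.map π) := by
    intro A hA
    have key : ∀ u : H, (∀ v ∈ V, u * v * u⁻¹ = v) → π u = 1 := fun u hu =>
      (QuotientGroup.eq_one_iff u).mpr (mem_centralizer_iff.mpr fun v hv =>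
        (mul_inv_eq_iff_eq_mul.mp (hu v hv)).symm)
    refine ⟨?_, ?_⟩
    · rw [← Subgroup.le_centralizer_iff_isMulCommutative]
      rintro _ ⟨q, hq, rfl⟩
      rw [mem_centralizer_iff]
      rintro _ ⟨p, hp, rfl⟩
      have h := key ((q * p)⁻¹ * (p * q)) fun v hv => by
        rw [show (q * p)⁻¹ * (p * q) * v * ((q * p)⁻¹ * (p * q))⁻¹ =
          p⁻¹ * (q⁻¹ * (p * (q * v * q⁻¹) * p⁻¹) * q) * p by group, (hact A hA).comm p hp q hq v hv]
        group
      rw [map_mul, map_inv, inv_mul_eq_one] at h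
      rw [← map_mul, ← map_mul]; exact h.symm
    · rintro _ ⟨p, hp, rfl⟩
      rw [← map_pow]
      refine key _ fun v hv => ?_
      rw [pow_two, show p * p * v * (p * p)⁻¹ = p * (p * v * p⁻¹) * p⁻¹ by group, (hact A hA).sq p hp v hv]
  have hM₁ := UniqueOver.map hM hπ (by rw [QuotientGroup.ker_mk']; exact hVM)
  have hM₂ := UniqueOver.map hM₁ hπ' (by rw [QuotientGroup.ker_mk']; exact pCore_le_of_uniqueOver hM₁)
  obtain ⟨_, ⟨A, hA, rfl⟩, B₂, a₂, y, p, k, hB₂, hB₂2, ha₂, ha₂B, hp, hp2, hy, hyM, hay, hyB⟩ :=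
    exists_inverted_unique (G := (H ⧸ C) ⧸ Q₁) (Core.pCore_quotient_pCore 2 (H ⧸ C)) hM₂
      (𝔄 := (fun A : Subgroup H => (A.map π).map π') '' 𝔄)
      (by rintro _ ⟨A, hA, rfl⟩; exact isEA_map (hEA A hA) π')
      (by
        rintro _ ⟨A, hA, rfl⟩
        rw [Sylow.coe_mapSurjective, Sylow.coe_mapSurjective]
        exact Subgroup.map_mono (Subgroup.map_mono (hle A hA)))
      (by
        rintro _ ⟨A, hA, rfl⟩ g hg
        rw [Sylow.coe_mapSurjective, Sylow.coe_mapSurjective] at hg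
        obtain ⟨_, ⟨s, hs, rfl⟩, rfl⟩ := hg
        refine ⟨_, hinv A hA s hs, ?_⟩
        show ((A.map _).map π).map π' = ((A.map π).map π').map _
        simp only [Subgroup.map_map]
        congr 1)
      (by
        obtain ⟨A, hA, hAR⟩ := hne
        refine ⟨_, ⟨A, hA, rfl⟩, fun h => hAR ?_⟩
        rw [Subgroup.map_eq_bot_iff, QuotientGroup.ker_mk'] at h
        exact fun g hg => h ⟨g, hg, rfl⟩)
  obtain ⟨B₁, a₁, x₁, n, hB₁A, hB₁Q, hB₁2, ha₁, ha₁B, hx₁p, hx₁inv, hx₁M, hx₁R⟩ :=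
    lift_inverted (Core.isPGroup_pCore 2 (H ⧸ C)) (hEA A hA) hB₂ hB₂2 ha₂ ha₂B hp2 hp hy hay hyB hyM
  obtain ⟨a, ha, rfl⟩ := ha₁
  obtain ⟨x, N, hx, hxp⟩ := exists_lift_pow hπ hp hx₁p
  set B := A ⊓ B₁.comap π with hB
  have hBmap : B.map π = B₁ := by
    refine le_antisymm (Subgroup.map_le_iff_le_comap.mpr inf_le_right) fun w hw => ?_
    obtain ⟨u, hu, rfl⟩ := hB₁A hw
    exact ⟨u, ⟨hu, hw⟩, rfl⟩
  have hcardB : Nat.card A = 2 * Nat.card B := by
    have h1 := Subgroup.card_mul_index (π.comp A.subtype).ker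
    have h2 := Subgroup.card_mul_index (π.comp B.subtype).ker
    rw [Subgroup.index_ker, MonoidHom.range_comp, Subgroup.range_subtype] at h1 h2
    rw [hB₁2] at h1
    rw [hBmap] at h2
    have hk : Nat.card (π.comp A.subtype).ker = Nat.card (π.comp B.subtype).ker := by
      refine Nat.card_congr
        { toFun := fun u => ⟨⟨u.1.1, u.1.2, by
            show π u.1.1 ∈ B₁
            rw [show π u.1.1 = 1 from u.2]; exact one_mem _⟩, u.2⟩
          invFun := fun u => ⟨⟨u.1.1, u.1.2.1⟩, u.2⟩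
          left_inv := fun u => rfl
          right_inv := fun u => rfl }
    rw [← h1, ← h2, hk]; ring
  set R := (Q₁ ⊔ B₁).comap π with hR
  have hnorm : ∀ g : H, π g ∈ normalizer ((Q₁ ⊔ B₁ : Subgroup (H ⧸ C)) : Set (H ⧸ C)) →
      g ∈ normalizer (R : Set H) := fun g hg => Coprime.mem_normalizer_of_conj_mem fun r hr => by
    show π (g * r * g⁻¹) ∈ Q₁ ⊔ B₁
    rw [map_mul, map_mul, map_inv]
    exact conj_mem_of_norm hg hr
  have haR : π a ∈ normalizer ((Q₁ ⊔ B₁ : Subgroup (H ⧸ C)) : Set (H ⧸ C)) :=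
    Coprime.mem_normalizer_of_conj_mem fun z hz => by
      obtain ⟨q, hq, b, hb, rfl⟩ := Coprime.exists_mul_of_mem_sup
        (show B₁ ≤ normalizer (Q₁ : Set (H ⧸ C)) by rw [Subgroup.normalizer_eq_top]; exact le_top) hz
      rw [show π a * (q * b) * (π a)⁻¹ = π a * q * (π a)⁻¹ * (π a * b * (π a)⁻¹) by group,
        mul_inv_eq_iff_eq_mul.mpr (comm_of_EA (hEA A hA) ⟨a, ha, rfl⟩ (hB₁A hb))]
      exact mul_mem (mem_sup_left (Subgroup.Normal.conj_mem inferInstance q hq _)) (mem_sup_right hb)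
  have hRS : R ≤ (S : Subgroup H) ⊔ C := by
    intro g hg
    obtain ⟨q, hq, b, hb, e⟩ := Coprime.exists_mul_of_mem_sup
      (show B₁ ≤ normalizer (Q₁ : Set (H ⧸ C)) by rw [Subgroup.normalizer_eq_top]; exact le_top) hg
    obtain ⟨u, hu, rfl⟩ := hBmap.ge hb
    have h1 : g * u⁻¹ ∈ coreOn V := by
      show π (g * u⁻¹) ∈ Q₁
      rw [map_mul, map_inv, ← e, mul_inv_cancel_right]; exact hq
    rw [show g = g * u⁻¹ * u by group]
    exact mul_mem (coreOn_le h1) (mem_sup_left (hle A hA hu.1))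
  refine ⟨A, hA, R, B, a, x, p, N, inf_le_left, hcardB, ha, fun h => ha₁B h.2,
    fun u hu => show π u ∈ Q₁ ⊔ B₁ from mem_sup_right hu.2, hnorm a haR, fun g hg => ?_, hRS, hnorm x (hx ▸ hx₁R),
    hp, hp2, hxp, ?_, fun h => hx₁M ⟨π x, ⟨x, h, rfl⟩, by rw [hx]⟩⟩
  · show π g ∈ Q₁ ⊔ B₁
    rw [show π g = 1 from (QuotientGroup.eq_one_iff g).mpr hg]; exact one_mem _
  · rw [← QuotientGroup.eq_one_iff]
    show π (a * x * a⁻¹ * x) = 1
    rw [map_mul, map_mul, map_mul, map_inv, hx, hx₁inv]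

end Cfsg.Agent.PLocal.S4FreeChar
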