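/-
If all elementary abelian subgroups of largest order lie in `O₂`, the normal closure of a good
subgroup is good.
-/
import Cfsg.Agent.PLocal.S4FreeChar.Local
import Cfsg.Agent.PLocal.S4FreeChar.Moved

set_option linter.unusedSectionVars false
set_option linter.style.haveILetI false
set_option linter.unusedVariables false
set_option linter.deprecated false

namespace Cfsg.Agent.PLocal.S4FreeChar

open Subgroup Cfsg
open scoped commutatorElement

variable {H : Type*} [Group H] [Finite H]

/-- Powers of a product with a factor in a normalized subgroup. -/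
theorem pow_mem_coset {R : Subgroup H} {y u : H} (hy : y ∈ normalizer (R : Set H)) (hu : y⁻¹ * u ∈ R)
    (k : ℕ) : (y ^ k)⁻¹ * u ^ k ∈ R := by
  induction k with
  | zero => simp
  | succ k ih =>
    rw [show (y ^ (k + 1))⁻¹ * u ^ (k + 1) = y⁻¹ * ((y ^ k)⁻¹ * u ^ k) * y * (y⁻¹ * u) by
      rw [pow_succ, pow_succ]; group]
    exact mul_mem (by simpa only [inv_inv] using conj_mem_of_norm (inv_mem hy) ih) hu

/-- A commutator map into cosets of the fixed points. -/
theorem card_image {V T B U Wj : Subgroup H} (hV : IsElementaryAbelian 2 V) (hWj : Wj ≤ V) (hUV : U ≤ V)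
    (hBT : B ≤ T) (hBn : B ≤ normalizer (Wj : Set H)) (hcU : ∀ v ∈ V, ∀ t ∈ T, ⁅t, v⁆ ∈ U) {v : H}
    (hv : v ∈ Wj) (hreg : ∀ t ∈ T, ⁅t, v⁆ ∈ fix V T → t ∈ centralizer (V : Set H)) (hCU : fix V T ≤ U) :
    img V B * Nat.card (fix V T ⊓ Wj : Subgroup H) ≤ Nat.card (U ⊓ Wj : Subgroup H) := by
  classical
  set C := fix V T with hC
  set K := centralizer (V : Set H) ⊓ B with hK
  have hmem : ∀ t ∈ B, ⁅t, v⁆ ∈ U ⊓ Wj := fun t ht => ⟨hcU v (hWj hv) t (hBT ht), by
    rw [commutatorElement_def]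
    exact Wj.mul_mem (conj_mem_of_norm (hBn ht) hv) (Wj.inv_mem hv)⟩
  have hcom : ∀ {w z : H}, w ∈ V → z ∈ V → w * z = z * w := fun hw hz => comm_of_EA hV hw hz
  have hkey : ∀ s ∈ B, ∀ t ∈ B, ⁅t, v⁆⁻¹ * ⁅s, v⁆ ∈ C → t⁻¹ * s ∈ K := by
    intro s hs t ht hc
    refine ⟨hreg _ (T.mul_mem (T.inv_mem (hBT ht)) (hBT hs)) ?_, B.mul_mem (B.inv_mem ht) hs⟩
    have e : ⁅t⁻¹ * s, v⁆ = t⁻¹ * (⁅s, v⁆ * ⁅t, v⁆⁻¹) * t⁻¹⁻¹ := by
      simp only [commutatorElement_def]; group
    rw [e, hcom (hUV (hmem s hs).1) (inv_mem (hUV (hmem t ht).1)), (mem_fix.mp hc).2 t⁻¹ (inv_mem (hBT ht))]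
    exact hc
  have hrel : img V B = (K.subgroupOf B).index := by
    rw [img, ← Subgroup.inf_relIndex_right]; rfl
  rw [hrel, ← Subgroup.index_mul_card (C.subgroupOf (U ⊓ Wj)), Subgroup.index, Subgroup.index]
  refine Nat.mul_le_mul (Nat.card_le_card_of_injective
    (fun q => QuotientGroup.mk (⟨⁅((Quotient.out q : B) : H), v⁆, hmem _ (Quotient.out q).2⟩ :
      (U ⊓ Wj : Subgroup H))) ?_) ?_
  · intro q q' e
    have h := QuotientGroup.eq.mp e
    rw [← QuotientGroup.out_eq' q, ← QuotientGroup.out_eq' q', QuotientGroup.eq]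
    exact hkey _ (Quotient.out q').2 _ (Quotient.out q).2 h
  · have hle : C ⊓ Wj ≤ U ⊓ Wj := inf_le_inf_right _ hCU
    rw [← Nat.card_congr (Subgroup.subgroupOfEquivOfLe hle).toEquiv]
    exact Subgroup.card_le_of_le fun z hz => hz.1

variable [Group.IsSolvable H] {S : Sylow 2 H} {W : Subgroup H}

theorem good_normalClosure (hS4 : ¬ Involves (Equiv.Perm (Fin 4)) H)
    (hW : Good (S : Subgroup H) W) (hM : UniqueOver S (normalizer (W : Set H)))
    (hmax : ∀ A ∈ maxIn (IsElementaryAbelian 2) (S : Subgroup H), A ≤ pCore 2 H) :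
    Good (S : Subgroup H) (⨆ g : H, W.map (MulAut.conj g).toMonoidHom) := by
  classical
  haveI : Fact (Nat.Prime 2) := ⟨Nat.prime_two⟩
  set Q := pCore 2 H with hQ
  haveI : Q.Normal := by rw [hQ]; infer_instance
  set M := normalizer (W : Set H)
  set c : H → H →* H := fun g => (MulAut.conj g).toMonoidHom
  have hci : ∀ g, Function.Injective (c g) := fun g => (MulAut.conj g).injective
  set V := ⨆ g : H, W.map (c g) with hV
  haveI hVn : V.Normal := by
    rw [← Subgroup.normalizer_eq_top_iff, eq_top_iff]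
    refine fun h _ => mem_sup_norm fun g v hv => mem_iSup_of_mem (h * g) ?_
    obtain ⟨w, hw, rfl⟩ := hv
    exact ⟨w, hw, show h * g * w * (h * g)⁻¹ = h * (g * w * g⁻¹) * h⁻¹ by group⟩
  have hmapV : ∀ g, V.map (c g) = V := fun g =>
    map_conj_eq (by rw [Subgroup.normalizer_eq_top]; trivial)
  have hQe : ∀ g, Q.map (c g) = Q := fun g =>
    map_conj_eq (by rw [Subgroup.normalizer_eq_top]; trivial)
  have hQS : ∀ g, Q ≤ (S : Subgroup H).map (c g) := fun g =>
    (hQe g).ge.trans (Subgroup.map_mono (Core.pCore_le_sylow S))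
  have hG : ∀ g, Good ((S : Subgroup H).map (c g)) (W.map (c g)) := fun g => (good_map (hci g)).mpr hW
  have hmaxV : ∀ A ∈ maxIn (IsElementaryAbelian 2) (S : Subgroup H), V ≤ A := by
    intro A hA
    refine iSup_le fun g => (hG g).maxEA A ⟨(hmax A hA).trans (hQS g), hA.2.1, fun D hD hD' => ?_⟩
    obtain ⟨h1, h2⟩ : D.comap (c g) ≤ (S : Subgroup H) ∧ (D.comap (c g)).map (c g) = D := by
      refine ⟨fun z hz => ?_, Subgroup.map_comap_eq_self_of_surjective (MulAut.conj g).surjective D⟩
      obtain ⟨w, hw, e⟩ := hD hz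
      exact hci g e ▸ hw
    rw [← h2, Subgroup.card_map_of_injective (hci g)]
    exact hA.2.2 _ h1 (isEA_comap hD' _ (hci g))
  obtain ⟨A₀, hA₀⟩ := maxIn_nonempty (P := IsElementaryAbelian 2) isEA_bot (S : Subgroup H)
  have hVE : IsElementaryAbelian 2 V := isEA_mono hA₀.2.1 (hmaxV A₀ hA₀)
  have hWg : ∀ g, W.map (c g) ≤ V := fun g => le_iSup (fun g => W.map (c g)) g
  have hWV : W ≤ V := by
    have h := hWg 1
    rwa [map_conj_eq (one_mem _)] at h
  have hnV : ∀ P : Subgroup H, P ≤ normalizer (V : Set H) := fun P => by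
    rw [Subgroup.normalizer_eq_top]; exact le_top
  -- action of the core
  have hcore : ∀ g, coreOn V ≤ (S : Subgroup H).map (c g) ⊔ centralizer (W.map (c g) : Set H) := by
    intro g
    have h := Subgroup.map_mono (f := c g) (coreOn_le (S := S) (V := V))
    rw [Subgroup.map_sup, map_conj_eq (show g ∈ normalizer (coreOn V : Set H) by
        rw [Subgroup.normalizer_eq_top]; trivial),
      map_conj_eq (le_normalizer_centralizer (hnV ⊤) (mem_top g))] at h
    exact h.trans (sup_le_sup_left (centralizer_le (hWg g)) _)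
  have hcoren : ∀ g, coreOn V ≤ normalizer (W.map (c g) : Set H) := fun g =>
    (hcore g).trans (sup_le (hG g).norm (centralizer_le_normalizer _))
  have hcentV : ∀ P : Subgroup H, (∀ g, P ≤ centralizer (W.map (c g) : Set H)) →
      P ≤ centralizer (V : Set H) := fun P h =>
    le_centralizer_iff.mp (iSup_le fun g => le_centralizer_iff.mp (h g))
  have hCM : centralizer (V : Set H) ≤ M := (centralizer_le hWV).trans (centralizer_le_normalizer _)
  have hxW : ∀ {x : H}, x ∉ M → ∀ i, x ∈ normalizer (conjPow W x i : Set H) → False := by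
    intro x hx i h
    refine hx (Coprime.mem_normalizer_of_conj_mem fun w hw => ?_)
    have := conj_mem_of_norm h (show x ^ i * w * (x ^ i)⁻¹ ∈ conjPow W x i from ⟨w, hw, rfl⟩)
    rw [mem_conjPow] at this
    rwa [show (x ^ i)⁻¹ * (x * (x ^ i * w * (x ^ i)⁻¹) * x⁻¹) * x ^ i = x * w * x⁻¹ by group] at this
  refine ⟨iSup_le fun g => ?_, hmaxV, hnV _, fun P hP hb => ?_⟩
  · exact (hWg g).trans ((hmaxV A₀ hA₀).trans hA₀.1)
  -- no offenders
  have hno : ∀ P : Subgroup H, P ≤ (S : Subgroup H) → ¬ IsOff V P := by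
    intro P₀ hP₀ hoff₀
    set 𝔄 : Set (Subgroup H) := {A | A ≤ (S : Subgroup H) ∧ IsOff V A ∧
      ∀ B : Subgroup H, B ≤ (S : Subgroup H) → IsOff V B → img V A ≤ img V B} with h𝔄
    obtain ⟨A₁, hA₁⟩ : 𝔄.Nonempty := by
      obtain ⟨A, ⟨hA, hAo⟩, hmin⟩ := Set.Finite.exists_minimalFor (fun A : Subgroup H => img V A)
        {A : Subgroup H | A ≤ (S : Subgroup H) ∧ IsOff V A} (Set.toFinite _) ⟨P₀, hP₀, hoff₀⟩
      exact ⟨A, hA, hAo, fun B hB hBo => (le_total _ _).elim id fun e => hmin ⟨hB, hBo⟩ e⟩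
    have hne : ∃ A ∈ 𝔄, ¬ A ≤ coreOn V := by
      by_contra hcon
      push Not at hcon
      have hA := hcon A₁ hA₁
      refine hA₁.2.1.2.1 (hcentV A₁ fun g => ?_)
      exact (transfer_off hVE (hWg g) (hA.trans (hcoren g)) hA₁.2.1
        fun B hB hBo => hA₁.2.2 B (hB.trans hA₁.1) hBo).resolve_right fun e =>
          (hG g).notBad' (hA.trans (hcoren g)) (hA.trans (hcore g)) (Or.inl e)
    obtain ⟨A, ⟨hAS, hoff, hmin⟩, R, B, a, x, p, n, hBA, h2, haA, haB, hBR, haR, -, hRS, hxR, hp, hp2, hxp,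
        hinv, hxM⟩ :=
      exists_moved hM hCM (𝔄 := 𝔄) (fun A hA => hA.2.1.1) (fun A hA => hA.1)
        (by
          rintro A ⟨hAS, hoff, hmin⟩ s hs
          have hSe : (S : Subgroup H).map (c s) = S := map_conj_eq (Subgroup.le_normalizer hs)
          refine ⟨(Subgroup.map_mono hAS).trans hSe.le, ?_, fun B hB hBo => ?_⟩
          · have h := (isOff_map (hci s)).mpr hoff
            rwa [hmapV] at h
          · have h := img_map (hci s) V A
            rw [hmapV] at h
            exact h.le.trans (hmin B hB hBo))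
        hne
    exact no_off_local hS4 S.isPGroup' hW hVE (fun i => hWg _) (hnV ⊤ (mem_top x)) hAS hoff
      (fun B hB hBo => hmin B (hB.trans hAS) hBo) hBA h2 haA haB hBR hRS hxR hp hp2 hxp hinv hxM
  rcases hb with hb | hb
  · exact hno P hP hb
  -- no near offenders
  set 𝔄 : Set (Subgroup H) := {T | T ≤ (S : Subgroup H) ∧ IsBad V T} with h𝔄
  have hne : ∃ T ∈ 𝔄, ¬ T ≤ coreOn V := by
    by_contra hcon
    push Not at hcon
    have hT := hcon P ⟨hP, Or.inr hb⟩
    refine hb.2.1 (hcentV P fun g => ?_)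
    exact (transfer_near hVE (hWg g) (S.isPGroup'.to_le hP) (hT.trans (hcoren g)) hb
      fun B hB => hno B (hB.trans hP)).resolve_right ((hG g).notBad' (hT.trans (hcoren g)) (hT.trans (hcore g)))
  obtain ⟨T, ⟨hTS, hTbad⟩, R, B, a, x, p, n, hBT, h2, haT, haB, hBR, haR, hCR, hRS, hxR, hp, hp2, hxp,
      hinv, hxM⟩ :=
    exists_moved hM hCM (𝔄 := 𝔄) (fun A hA => hA.2.elim (fun e => e.1) fun e => e.1) (fun A hA => hA.1)
      (by
        rintro A ⟨hAS, hA⟩ s hs
        refine ⟨(Subgroup.map_mono hAS).trans (map_conj_eq (Subgroup.le_normalizer hs)).le, ?_⟩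
        have h := (isBad_map (hci s)).mpr hA
        rwa [hmapV] at h)
      hne
  have hnear : IsNear V T := hTbad.resolve_left (hno T hTS)
  have hnoT : ∀ B : Subgroup H, B ≤ T → ¬ IsOff V B := fun B hB => hno B (hB.trans hTS)
  obtain ⟨hact, hTV, hle, ⟨U, hUV, hU2, hcU, hreg⟩, hfour⟩ := id hnear
  set C := fix V T with hC
  have hCU : C ≤ U := fun v hv => by
    by_contra hvU
    refine hTV fun t ht => hreg v hv.1 hvU t ht ?_
    rw [show ⁅t, v⁆ = 1 from commutatorElement_eq_one_iff_mul_comm.mpr (mem_centralizer_iff.mp hv.2 t ht)]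
    exact one_mem _
  have hTW : T ≤ centralizer (W : Set H) :=
    (transfer_near hVE hWV (S.isPGroup'.to_le hTS) (hTS.trans hW.norm) hnear hnoT).resolve_right
      (hW.notBad T hTS)
  have hWC : W ≤ C := le_inf hWV (le_centralizer_iff.mp hTW)
  have haW : a ∈ normalizer (W : Set H) := hW.norm (hTS haT)
  have hd : Dih V a x := by
    refine ⟨hVE, hnV ⊤ (mem_top a), hnV ⊤ (mem_top x), mem_centralizer_iff.mpr fun v hv => ?_, hinv,
      ⟨p, n, hp, hp2, hxp⟩⟩
    have e := hact.sq a haT v hv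
    rw [show a * (a * v * a⁻¹) * a⁻¹ = a * a * v * (a * a)⁻¹ by group] at e
    exact (mul_inv_eq_iff_eq_mul.mp e).symm
  have hRi : ∀ i, R ≤ conjPow (S : Subgroup H) x i ⊔ centralizer (conjPow W x i : Set H) := fun i => by
    have h := Subgroup.map_mono (f := c (x ^ i)) hRS
    rw [Subgroup.map_sup] at h
    change conjPow R x i ≤ conjPow (S : Subgroup H) x i ⊔ conjPow (centralizer (V : Set H)) x i at h
    rw [conjPow_of_norm hxR, conjPow_centralizer (hnV ⊤ (mem_top x))] at h
    exact h.trans (sup_le_sup_left (centralizer_le (hWg _)) _)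
  have hRn : ∀ i, R ≤ normalizer (conjPow W x i : Set H) := fun i =>
    (hRi i).trans (sup_le (good_conjPow hW x i).norm (centralizer_le_normalizer _))
  have hsup := index_two_sup hBT h2 haT haB
  have himgT : img V T = 2 * img V B :=
    img_two hBT h2 (cent_mem hd hWV haW (hBR.trans (hRn 1)) hxM (hWg _) hBT h2 haT haB)
  set D := ⨆ i, conjPow W x i with hD
  have hWD : ∀ i, conjPow W x i ≤ D := fun i => le_iSup (fun i => conjPow W x i) i
  have hDV : D ≤ V := iSup_le fun i => hWg _
  have hxD : x ∈ normalizer (D : Set H) := mem_sup_norm fun i v hv => by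
    refine mem_iSup_of_mem (1 + i) ?_
    simpa using conjPow_mem_add (i := 1) hv
  have hRD : R ≤ normalizer (D : Set H) := fun r hr =>
    mem_sup_norm fun i v hv => mem_iSup_of_mem i (conj_mem_of_norm (hRn i hr) hv)
  have haD : a ∈ normalizer (D : Set H) := mem_sup_norm fun i v hv => twist_mem hd hWV haW hv
  have hTD : T ≤ normalizer (D : Set H) := by
    rw [← hsup]; exact sup_le (hBR.trans hRD) (zpowers_le.mpr haD)
  have hDE : IsElementaryAbelian 2 D := isEA_mono hVE hDV
  by_cases hDU : D ≤ U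
  · -- `T` is an offender on `D`
    rcases transfer_near' hVE hDV (S.isPGroup'.to_le hTS) hTD hnear hnoT with h | h | ⟨-, h⟩
    · refine hxM ?_
      rw [← pow_one x]
      refine twist hd hWV haW fun v hv => ?_
      rw [conj_eq_of_cent (h haT) (hWD 1 hv)]; exact hv
    · obtain ⟨A, ⟨hAT, hAo⟩, hAmin⟩ := Set.Finite.exists_minimalFor (fun A : Subgroup H => img D A)
        {A : Subgroup H | A ≤ T ∧ IsOff D A} (Set.toFinite _) ⟨T, le_rfl, h⟩
      have hmin : ∀ B : Subgroup H, B ≤ A → IsOff D B → img D A ≤ img D B := fun B hB hBo =>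
        (le_total _ _).elim id fun e => hAmin ⟨hB.trans hAT, hBo⟩ e
      obtain ⟨a', ha'A, ha'B⟩ : ∃ a' ∈ A, a' ∉ B := by
        by_contra hcon
        push Not at hcon
        refine hAo.2.1 (le_centralizer_iff.mp (iSup_le fun i => le_centralizer_iff.mp ?_))
        have hAB : A ≤ R := fun z hz => hBR (hcon z hz)
        exact (transfer_off hDE (hWD i) (hAB.trans (hRn i)) hAo hmin).resolve_right fun e =>
          (good_conjPow hW x i).notBad' (hAB.trans (hRn i)) (hAB.trans (hRi i)) (Or.inl e)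
      set B' := A ⊓ B with hB'
      have hB'2 : Nat.card A = 2 * Nat.card B' := by
        have hAB : A ⊔ B = T := by
          refine le_antisymm (sup_le hAT hBT) ((index_two_sup hBT h2 (hAT ha'A) ha'B).ge.trans ?_)
          exact sup_le le_sup_right (zpowers_le.mpr (mem_sup_left ha'A))
        have hnB : A ≤ normalizer (B : Set H) := by
          refine fun z hz => Coprime.mem_normalizer_of_conj_mem fun b hb => ?_
          by_contra hzb
          have hT : ∀ u ∈ T, u ∉ B → ∀ w ∈ T, w ∈ B ∨ u⁻¹ * w ∈ B := fun u hu huB w hw =>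
            index_two_cover hBT h2 hu huB hw
          by_cases hzB : z ∈ B
          · exact hzb (mul_mem (mul_mem hzB hb) (inv_mem hzB))
          rcases hT z (hAT hz) hzB _ (mul_mem (mul_mem (hAT hz) (hBT hb)) (inv_mem (hAT hz))) with h1 | h1
          · exact hzb h1
          · refine hzB ?_
            rw [show z⁻¹ * (z * b * z⁻¹) = b * z⁻¹ by group] at h1
            have h1' := B.mul_mem (B.inv_mem hb) h1
            rw [inv_mul_cancel_left] at h1'
            exact inv_mem_iff.mp h1'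
        have e := card_sup_mul_card_inf hnB
        rw [hAB, h2, ← hB', mul_comm (Nat.card A) (Nat.card B), mul_comm 2 (Nat.card B), mul_assoc] at e
        exact (Nat.eq_of_mul_eq_mul_left Nat.card_pos e).symm
      -- the new element of odd order
      obtain ⟨u, hu⟩ : ∃ u, x * a' * x⁻¹ * a'⁻¹ = u := ⟨_, rfl⟩
      have hb : a⁻¹ * a' ∈ B := (index_two_cover hBT h2 haT haB (hAT ha'A)).resolve_left ha'B
      have ha'R : a' ∈ normalizer (R : Set H) := by
        rw [show a' = a * (a⁻¹ * a') by group]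
        exact mul_mem haR (Subgroup.le_normalizer (hBR hb))
      have huR : (x * x)⁻¹ * u ∈ R := by
        have h1 : a' * x * a'⁻¹ * x ∈ R := by
          rw [show a' * x * a'⁻¹ * x =
            a * ((a⁻¹ * a') * (x * (a⁻¹ * a')⁻¹ * x⁻¹)) * a⁻¹ * (a * x * a⁻¹ * x) by group]
          exact mul_mem (conj_mem_of_norm haR (mul_mem (hBR hb) (conj_mem_of_norm hxR (inv_mem (hBR hb)))))
            (hCR hinv)
        rw [← hu, show (x * x)⁻¹ * (x * a' * x⁻¹ * a'⁻¹) = (a' * x * a'⁻¹ * x)⁻¹ by group]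
        exact inv_mem h1
      have huN : u ∈ normalizer (R : Set H) := by
        rw [show u = x * x * ((x * x)⁻¹ * u) by group]
        exact mul_mem (mul_mem hxR hxR) (Subgroup.le_normalizer huR)
      have huD : u ∈ normalizer (D : Set H) := by
        rw [show u = x * x * ((x * x)⁻¹ * u) by group]
        exact mul_mem (mul_mem hxD hxD) (hRD huR)
      have hCD : centralizer (V : Set H) ≤ centralizer (D : Set H) := centralizer_le hDV
      have hinv' : a' * u * a'⁻¹ * u ∈ centralizer (V : Set H) := by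
        have ha2 : a' * a' ∈ centralizer (V : Set H) := mem_centralizer_iff.mpr fun v hv => by
          have e := hact.sq a' (hAT ha'A) v hv
          rw [show a' * (a' * v * a'⁻¹) * a'⁻¹ = a' * a' * v * (a' * a')⁻¹ by group] at e
          exact (mul_inv_eq_iff_eq_mul.mp e).symm
        haveI : (centralizer (V : Set H)).Normal := inferInstance
        have h1 := (QuotientGroup.eq_one_iff (a' * a')).mpr ha2
        rw [← QuotientGroup.eq_one_iff, ← hu]
        have hπ : ((a' * a' : H) : H ⧸ centralizer (V : Set H)) = 1 := h1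
        simp only [QuotientGroup.mk_mul, QuotientGroup.mk_inv] at hπ ⊢
        have hinv1 : ((a' : H) : H ⧸ centralizer (V : Set H))⁻¹ = (a' : H ⧸ centralizer (V : Set H)) :=
          inv_eq_of_mul_eq_one_right hπ
        generalize hA' : ((a' : H) : H ⧸ centralizer (V : Set H)) = ab at hπ hinv1 ⊢
        generalize ((x : H) : H ⧸ centralizer (V : Set H)) = xb
        rw [hinv1]
        calc ab * (xb * ab * xb⁻¹ * ab) * ab * (xb * ab * xb⁻¹ * ab)
            = ab * xb * ab * xb⁻¹ * (ab * ab) * xb * ab * xb⁻¹ * ab := by group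
          _ = ab * xb * (ab * ab) * xb⁻¹ * ab := by conv_lhs => rw [hπ]
                                                    group
          _ = 1 := by rw [hπ]; simpa [mul_assoc] using hπ
      obtain ⟨j, m, hm, hjm⟩ := Nat.exists_eq_pow_mul_and_not_dvd (orderOf_pos u).ne' p hp.ne_one
      have hx' : (u ^ m) ^ p ^ j = 1 := by
        rw [← pow_mul, mul_comm, ← hjm, pow_orderOf_eq_one]
      have hcos : ∀ k, ((x * x) ^ k)⁻¹ * u ^ k ∈ R := pow_mem_coset (mul_mem hxR hxR) huR
      have hsame : ∀ i, conjPow W (u ^ m) i ≤ D := fun i => by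
        refine le_trans ?_ (hWD (2 * (m * i)))
        rintro _ ⟨w, hw, rfl⟩
        rw [mem_conjPow]
        show (x ^ (2 * (m * i)))⁻¹ * ((u ^ m) ^ i * w * ((u ^ m) ^ i)⁻¹) * x ^ (2 * (m * i)) ∈ W
        rw [← pow_mul, pow_mul x 2, pow_two]
        have hr : ((x * x) ^ (m * i))⁻¹ * u ^ (m * i) ∈ normalizer (W : Set H) := by
          have := hRn 0 (hcos (m * i))
          rwa [conjPow_zero] at this
        have := conj_mem_of_norm hr hw
        rwa [show ((x * x) ^ (m * i))⁻¹ * (u ^ (m * i) * w * (u ^ (m * i))⁻¹) * (x * x) ^ (m * i) =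
          ((x * x) ^ (m * i))⁻¹ * u ^ (m * i) * w * (((x * x) ^ (m * i))⁻¹ * u ^ (m * i))⁻¹ by group]
      have hxW' : u ^ m ∉ normalizer (W : Set H) := by
        intro h
        refine hxM ?_
        have hr : ((x * x) ^ m)⁻¹ * u ^ m ∈ M := by
          have := hRn 0 (hcos m)
          rwa [conjPow_zero] at this
        have h2m : x ^ (2 * m) ∈ M := by
          rw [pow_mul, pow_two, show (x * x) ^ m = u ^ m * (((x * x) ^ m)⁻¹ * u ^ m)⁻¹ by group]
          exact mul_mem h (inv_mem hr)
        have hc : Int.gcd ((2 * m : ℕ) : ℤ) ((p ^ n : ℕ) : ℤ) = 1 := by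
          rw [Int.gcd_natCast_natCast]
          refine Nat.Coprime.pow_right _ (Nat.Coprime.symm (hp.coprime_iff_not_dvd.mpr fun hd => ?_))
          rcases hp.dvd_mul.mp hd with h' | h'
          · exact hp2 ((Nat.prime_dvd_prime_iff_eq hp Nat.prime_two).mp h')
          · exact hm h'
        have e := Int.gcd_eq_gcd_ab ((2 * m : ℕ) : ℤ) ((p ^ n : ℕ) : ℤ)
        rw [hc, Nat.cast_one] at e
        rw [← zpow_one x, e, zpow_add, zpow_mul, zpow_mul, zpow_natCast, zpow_natCast, hxp, one_zpow, mul_one]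
        exact zpow_mem h2m _
      have hinvm : a' * u ^ m * a'⁻¹ * u ^ m ∈ centralizer (V : Set H) := by
        rw [← QuotientGroup.eq_one_iff] at hinv' ⊢
        simp only [QuotientGroup.mk_mul, QuotientGroup.mk_inv, QuotientGroup.mk_pow] at hinv' ⊢
        rw [← conj_pow, eq_inv_of_mul_eq_one_left hinv', inv_pow, inv_mul_cancel]
      exact no_off_local hS4 S.isPGroup' hW hDE hsame (pow_mem huD m) (hAT.trans hTS) hAo hmin
        inf_le_left hB'2 ha'A (fun hh => ha'B hh.2) (inf_le_right.trans hBR)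
        (hRS.trans (sup_le_sup_left hCD _)) (pow_mem huN m) hp hp2 hx' (hCD hinvm) hxW'
    · have hlt : U < V := lt_of_le_of_ne hUV fun e => by
        rw [e] at hU2
        have := Nat.card_pos (α := V)
        omega
      exact hlt.not_ge (h.ge.trans (sup_le hDU hCU))
  -- a conjugate outside the hyperplane
  obtain ⟨j, hj⟩ : ∃ j, ¬ conjPow W x j ≤ U := by
    by_contra hcon
    push Not at hcon
    exact hDU (iSup_le hcon)
  obtain ⟨v, hv, hvU⟩ := SetLike.not_le_iff_exists.mp hj
  set Wj := conjPow W x j with hWjdef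
  have hWjV : Wj ≤ V := hWg _
  set y := x ^ j with hy
  have hdy : Dih V a y := hd.pow_dih j (hd.inv_pow j)
  set C' := conjPow C x j with hC'
  have hC'V : C' ≤ V := (Subgroup.map_mono (fix_le V T)).trans (hmapV _).le
  have hWjC' : Wj ≤ C' := Subgroup.map_mono hWC
  set r := 2 * img V B with hr
  -- the image of the commutator map
  have himage : r * Nat.card (C ⊓ Wj : Subgroup H) ≤ Nat.card Wj := by
    have h1 := card_image hVE hWjV hUV hBT (hBR.trans (hRn j)) hcU hv (fun t ht hc => hreg v (hWjV hv) hvU t ht hc) hCU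
    have h3 : 2 * Nat.card (U ⊓ Wj : Subgroup H) ≤ Nat.card Wj := by
      have e := Core.card_mul_relIndex (inf_le_right : U ⊓ Wj ≤ Wj)
      rw [mul_comm, ← e]
      refine Nat.mul_le_mul_left _ ?_
      rw [Subgroup.inf_relIndex_right]
      rcases Nat.lt_or_ge (U.relIndex Wj) 2 with h | h
      · have hpos : 0 < U.relIndex Wj := Nat.pos_of_ne_zero Subgroup.index_ne_zero_of_finite
        exact absurd (Subgroup.relIndex_eq_one.mp (by omega)) hj
      · exact h
    calc _ = 2 * (img V B * Nat.card (C ⊓ Wj : Subgroup H)) := by rw [hr]; ring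
      _ ≤ _ := (Nat.mul_le_mul_left 2 h1).trans h3
  set F := C ⊓ C' with hF
  have hcardC' : Nat.card C' = Nat.card C := Subgroup.card_map_of_injective (MulAut.conj y).injective
  have hCF : r * Nat.card F ≤ Nat.card C := by
    have e1 := card_sup_mul_card_inf (le_normalizer_in hVE (fix_le V T) hC'V : C ≤ normalizer (C' : Set H))
    have e2 := card_sup_mul_card_inf (le_normalizer_in hVE (fix_le V T) hWjV : C ≤ normalizer (Wj : Set H))
    have hlow : r * Nat.card C ≤ Nat.card (C ⊔ Wj : Subgroup H) := by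
      refine Nat.le_of_mul_le_mul_right ?_ (Nat.card_pos (α := (C ⊓ Wj : Subgroup H)))
      rw [e2]
      calc _ = Nat.card C * (r * Nat.card (C ⊓ Wj : Subgroup H)) := by ring
        _ ≤ _ := Nat.mul_le_mul_left _ himage
    rw [hcardC', ← hF] at e1
    refine Nat.le_of_mul_le_mul_left ?_ (Nat.card_pos (α := C))
    rw [← e1]
    calc Nat.card C * (r * Nat.card F) = r * Nat.card C * Nat.card F := by ring
      _ ≤ _ := Nat.mul_le_mul_right _ (hlow.trans (Subgroup.card_le_of_le (sup_le_sup_left hWjC' C)))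
  set G0 := V ⊓ centralizer ({a} : Set H) with hG0
  have hnotC : a ∉ centralizer (V : Set H) := fun h =>
    haB (cent_mem hd hWV haW (hBR.trans (hRn 1)) hxM (hWg _) hBT h2 haT haB a haT h)
  have hG0card : 4 * Nat.card C ≤ Nat.card G0 := hfour a haT hnotC
  have hG0F : G0 ⊓ C' ≤ F := by
    rintro f ⟨⟨hfV, hfa⟩, hfC'⟩
    refine ⟨?_, hfC'⟩
    have hc : y⁻¹ * f * y ∈ C := mem_conjPow.mp hfC'
    have h1 : a * f * a⁻¹ = f := mul_inv_eq_iff_eq_mul.mpr (mem_centralizer_singleton_iff.mp hfa).symm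
    have e := hdy.fix_of_fix_pair hfV h1 ((mem_fix.mp hc).2 a haT)
    rwa [inv_conj_eq e] at hc
  have hfinal : 4 * r * Nat.card C ≤ Nat.card V := by
    have e := card_sup_mul_card_inf (le_normalizer_in hVE inf_le_left hC'V : G0 ≤ normalizer (C' : Set H))
    refine Nat.le_of_mul_le_mul_right ?_ (Nat.card_pos (α := (G0 ⊓ C' : Subgroup H)))
    calc 4 * r * Nat.card C * Nat.card (G0 ⊓ C' : Subgroup H) ≤ 4 * r * Nat.card C * Nat.card F :=
          Nat.mul_le_mul_left _ (Subgroup.card_le_of_le hG0F)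
      _ = 4 * Nat.card C * (r * Nat.card F) := by ring
      _ ≤ Nat.card G0 * Nat.card C' := by rw [hcardC']; exact Nat.mul_le_mul hG0card hCF
      _ = _ := e.symm
      _ ≤ _ := Nat.mul_le_mul_right _ (Subgroup.card_le_of_le (sup_le inf_le_left hC'V))
  rw [himgT] at hle
  have hrC : 0 < r * Nat.card C :=
    Nat.mul_pos (by have := img_pos V B; rw [hr]; omega) Nat.card_pos
  nlinarith

end Cfsg.Agent.PLocal.S4FreeChar
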