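/-
The largest good subgroup of a Sylow 2-subgroup is normal in every `S₄`-free solvable group of
characteristic 2.
-/
import Cfsg.Agent.PLocal.S4FreeChar.MaxEA
import Cfsg.Agent.PLocal.S4FreeChar.NormalClosure
import Cfsg.Agent.FusionZJ.CenterGroup

set_option linter.unusedSectionVars false
set_option linter.style.haveILetI false
set_option linter.unusedVariables false

universe u

namespace Cfsg.Agent.PLocal.S4FreeChar

open Subgroup Cfsg

theorem goodMax_map {Γ Γ' : Type*} [Group Γ] [Finite Γ] [Group Γ'] [Finite Γ'] {f : Γ →* Γ'}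
    (hf : Function.Injective f) {S : Subgroup Γ} (hS : IsPGroup 2 S) :
    goodMax (S.map f) = (goodMax S).map f := by
  have h1 := good_goodMax (hS.map f)
  have h2 := good_goodMax hS
  refine le_antisymm ?_ (h1.2 _ ((good_map hf).mpr h2.1))
  have e : ((goodMax (S.map f)).comap f).map f = goodMax (S.map f) := by
    rw [Subgroup.map_comap_eq]
    exact inf_eq_right.mpr (h1.1.le.trans (Subgroup.map_le_range f S))
  rw [← e]
  refine Subgroup.map_mono (h2.2 _ ((good_map hf).mp ?_))
  rw [e]; exact h1.1

/-- The normalizer of a 2-subgroup normalizes its largest good subgroup. -/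
theorem normalizer_le_goodMax {Γ : Type*} [Group Γ] [Finite Γ] {S : Subgroup Γ} (hS : IsPGroup 2 S) :
    normalizer (S : Set Γ) ≤ normalizer (goodMax S : Set Γ) := fun g hg => by
  rw [Subgroup.mem_normalizer_iff_map_conj_eq]
  have h := goodMax_map (f := (MulAut.conj g).toMonoidHom) (MulAut.conj g).injective hS
  rw [map_conj_eq hg] at h
  exact h.symm

theorem goodMax_normal_aux : ∀ (n : ℕ) (H : Type u) [Group H] [Finite H] [Group.IsSolvable H],
    Nat.card H = n → ¬ Involves (Equiv.Perm (Fin 4)) H →
    centralizer (pCore 2 H : Set H) ≤ pCore 2 H → ∀ S : Sylow 2 H, (goodMax (S : Subgroup H)).Normal := by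
  intro n
  induction n using Nat.strong_induction_on with
  | _ n ih =>
  intro H _ _ _ hn hS4 hchar S
  haveI : Fact (Nat.Prime 2) := ⟨Nat.prime_two⟩
  obtain ⟨hW, hWmax⟩ := good_goodMax S.isPGroup'
  set W := goodMax (S : Subgroup H) with hWdef
  rw [← Subgroup.normalizer_eq_top_iff]
  by_contra hne
  have hM : UniqueOver S (normalizer (W : Set H)) := by
    refine ⟨hW.norm, hne, fun K hSK hK => ?_⟩
    have hlt : Nat.card K < n := by
      rw [← hn]
      exact lt_of_le_of_ne (Subgroup.card_le_card_group K) fun e => hK (Subgroup.eq_top_of_card_eq K e)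
    have hS4K : ¬ Involves (Equiv.Perm (Fin 4)) K := fun h =>
      hS4 (FusionZJ.involves_of_injective K.subtype K.subtype_injective h)
    have hcharK : centralizer (pCore 2 K : Set K) ≤ pCore 2 K := by
      have hQK : pCore 2 H ≤ K := (Core.pCore_le_sylow S).trans hSK
      have hle : (pCore 2 H).subgroupOf K ≤ pCore 2 K := Core.le_pCore inferInstance
        ((Core.isPGroup_pCore 2 H).comap_subtype)
      intro z hz
      refine hle (hchar (mem_centralizer_iff.mpr fun q hq => ?_))
      exact congrArg Subtype.val (mem_centralizer_iff.mp hz ⟨q, hQK hq⟩ (hle hq))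
    set S' : Sylow 2 K := S.subtype hSK
    have hN := ih (Nat.card K) hlt K rfl hS4K hcharK S'
    have e : (goodMax (S' : Subgroup K)).map K.subtype = W := by
      rw [← goodMax_map K.subtype_injective S'.isPGroup', show (S' : Subgroup K) = (S : Subgroup H).subgroupOf K
        from rfl, Subgroup.map_subgroupOf_eq_of_le hSK]
    intro g hg
    refine Coprime.mem_normalizer_of_conj_mem fun w hw => ?_
    rw [← e] at hw ⊢
    obtain ⟨v, hv, rfl⟩ := hw
    exact ⟨_, hN.conj_mem v hv ⟨g, hg⟩, rfl⟩
  have hV := good_normalClosure hS4 hW hM (max_le_pCore hS4 hchar hW hM)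
  refine hne (eq_top_iff.mpr fun h _ => Coprime.mem_normalizer_of_conj_mem fun w hw => hWmax _ hV ?_)
  exact mem_iSup_of_mem h ⟨w, hw, rfl⟩

theorem goodMax_normal {H : Type u} [Group H] [Finite H] [Group.IsSolvable H]
    (hS4 : ¬ Involves (Equiv.Perm (Fin 4)) H) (hchar : centralizer (pCore 2 H : Set H) ≤ pCore 2 H)
    (S : Sylow 2 H) : (goodMax (S : Subgroup H)).Normal :=
  goodMax_normal_aux _ H rfl hS4 hchar S

/-- The form inside an ambient group. -/
theorem le_normalizer_goodMax {G : Type u} [Group G] [Finite G] {L T : Subgroup G} [Group.IsSolvable L]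
    (hS4 : ¬ Involves (Equiv.Perm (Fin 4)) L) (hchar : centralizer (pCore 2 L : Set L) ≤ pCore 2 L)
    (hT : T ≤ L) (S : Sylow 2 L) (hS : (S : Subgroup L).map L.subtype = T) :
    L ≤ normalizer (goodMax T : Set G) := by
  intro g hg
  refine Coprime.mem_normalizer_of_conj_mem fun w hw => ?_
  rw [← hS, goodMax_map L.subtype_injective S.isPGroup'] at hw ⊢
  obtain ⟨v, hv, rfl⟩ := hw
  exact ⟨_, (goodMax_normal hS4 hchar S).conj_mem v hv ⟨g, hg⟩, rfl⟩

end Cfsg.Agent.PLocal.S4FreeChar
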